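import Mathlib
import Cfsg.Prelude.Def_KGroupFacts

set_option autoImplicit false

namespace Cfsg.Agent.Lib.Helper22

open scoped commutatorElement

/-- A homomorphism from a perfect group with commuting values is trivial. -/
theorem hom_trivial_of_perfect {G A : Type*} [Group G] [Group A] (hG : Group.IsPerfect G)
    (φ : G →* A) (hcomm : ∀ a b : G, φ a * φ b = φ b * φ a) (g : G) : φ g = 1 := by
  have h3 : commutator G ≤ φ.ker := by
    rw [commutator_def, Subgroup.commutator_le]
    intro a _ b _
    rw [MonoidHom.mem_ker, map_commutatorElement, commutatorElement_def, hcomm a b]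
    group
  rw [hG.commutator_eq_top] at h3
  exact h3 (Subgroup.mem_top g)

/-- In a perfect group, an element all of whose commutators are central is central. -/
theorem mem_center_of_perfect {G : Type*} [Group G] (hG : Group.IsPerfect G) (z : G)
    (h1 : ∀ g : G, z * g * z⁻¹ * g⁻¹ ∈ Subgroup.center G) : z ∈ Subgroup.center G := by
  let φ : G →* Subgroup.center G :=
    { toFun := fun g => ⟨z * g * z⁻¹ * g⁻¹, h1 g⟩
      map_one' := by ext; simp
      map_mul' := by
        intro g h
        ext
        simp only [Subgroup.coe_mul]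
        have h2 := Subgroup.mem_center_iff.mp (h1 h) g⁻¹
        calc z * (g * h) * z⁻¹ * (g * h)⁻¹
            = z * g * (z⁻¹ * (z * h * z⁻¹ * h⁻¹)) * g⁻¹ := by group
          _ = z * g * z⁻¹ * ((z * h * z⁻¹ * h⁻¹) * g⁻¹) := by group
          _ = z * g * z⁻¹ * (g⁻¹ * (z * h * z⁻¹ * h⁻¹)) := by rw [h2]
          _ = z * g * z⁻¹ * g⁻¹ * (z * h * z⁻¹ * h⁻¹) := by group }
  refine Subgroup.mem_center_iff.mpr ?_
  intro g
  have h4 : φ g = 1 := hom_trivial_of_perfect hG φ (fun a b => mul_comm' _ _) g
  have h5 : z * g * z⁻¹ * g⁻¹ = 1 := by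
    have := congrArg (fun x : Subgroup.center G => (x : G)) h4
    simpa [φ] using this
  calc g * z = (z * g * z⁻¹ * g⁻¹)⁻¹ * (z * g) := by group
    _ = z * g := by rw [h5]; simp

/-- Two homomorphisms out of a perfect group that agree modulo a central kernel are equal. -/
theorem hom_eq_of_perfect {G X Q : Type*} [Group G] [Group X] [Group Q] (hG : Group.IsPerfect G)
    (ξ : X →* Q) (hξ : ξ.ker ≤ Subgroup.center X) (η₁ η₂ : G →* X)
    (h : ξ.comp η₁ = ξ.comp η₂) : η₁ = η₂ := by
  have hmem : ∀ g : G, η₁ g * (η₂ g)⁻¹ ∈ Subgroup.center X := by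
    intro g
    apply hξ
    rw [MonoidHom.mem_ker, map_mul, map_inv]
    have := DFunLike.congr_fun h g
    simp only [MonoidHom.comp_apply] at this
    rw [this, mul_inv_cancel]
  let d : G →* Subgroup.center X :=
    { toFun := fun g => ⟨η₁ g * (η₂ g)⁻¹, hmem g⟩
      map_one' := by ext; simp
      map_mul' := by
        intro g k
        ext
        simp only [Subgroup.coe_mul, map_mul, mul_inv_rev]
        have hc := Subgroup.mem_center_iff.mp (hmem k) (η₂ g)⁻¹
        calc η₁ g * η₁ k * ((η₂ k)⁻¹ * (η₂ g)⁻¹)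
            = η₁ g * ((η₁ k * (η₂ k)⁻¹) * (η₂ g)⁻¹) := by group
          _ = η₁ g * ((η₂ g)⁻¹ * (η₁ k * (η₂ k)⁻¹)) := by rw [hc]
          _ = η₁ g * (η₂ g)⁻¹ * (η₁ k * (η₂ k)⁻¹) := by group }
  ext g
  have h4 : d g = 1 := hom_trivial_of_perfect hG d (fun a b => mul_comm' _ _) g
  have h5 : η₁ g * (η₂ g)⁻¹ = 1 := by
    have := congrArg (fun x : Subgroup.center X => (x : X)) h4
    simpa [d] using this
  exact mul_inv_eq_one.mp h5

/-- A stem extension of a perfect group is perfect. -/
theorem isPerfect_of_stem {E G : Type*} [Group E] [Group G] (hG : Group.IsPerfect G)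
    (σ : E →* G) (hσ : Cfsg.IsStemExtension σ) : Group.IsPerfect E := by
  obtain ⟨hsurj, -, hcomm⟩ := hσ
  refine ⟨?_⟩
  rw [eq_top_iff]
  intro e _
  have h1 : (commutator E).map σ = ⊤ := by
    rw [commutator_def, Subgroup.map_commutator, Subgroup.map_top_of_surjective σ hsurj,
      ← commutator_def, hG.commutator_eq_top]
  have h2 : σ e ∈ (commutator E).map σ := by rw [h1]; trivial
  obtain ⟨c, hc, hce⟩ := h2
  have h3 : e * c⁻¹ ∈ σ.ker := by
    rw [MonoidHom.mem_ker, map_mul, map_inv, hce, mul_inv_cancel]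
  have h4 : e = (e * c⁻¹) * c := by group
  rw [h4]
  exact Subgroup.mul_mem _ (hcomm h3) hc

/-- A central extension of a central extension of a perfect group by a perfect group is central. -/
theorem ker_comp_le_center {E G Q : Type*} [Group E] [Group G] [Group Q] (hE : Group.IsPerfect E)
    (σ : E →* G) (hσ : σ.ker ≤ Subgroup.center E) (π : G →* Q) (hπ : π.ker ≤ Subgroup.center G) :
    (π.comp σ).ker ≤ Subgroup.center E := by
  intro e he
  have h1 : σ e ∈ Subgroup.center G := hπ (by rw [MonoidHom.mem_ker]; exact he)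
  apply mem_center_of_perfect hE
  intro x
  apply hσ
  rw [MonoidHom.mem_ker, map_mul, map_mul, map_mul, map_inv, map_inv,
    ← Subgroup.mem_center_iff.mp h1 (σ x)]
  group

end Cfsg.Agent.Lib.Helper22
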