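import Mathlib
import Cfsg.Prelude.Def_KGroupFacts
import Cfsg.Agent.Lib.Helper22.Perfect

set_option autoImplicit false

namespace Cfsg.Agent.Lib.Helper22

open scoped commutatorElement

universe u v

/-- Multiplying the first entry of a commutator by a central element does not change it. -/
theorem commutator_central_mul_left {G : Type*} [Group G] (z a b : G) (hz : z ∈ Subgroup.center G) :
    ⁅z * a, b⁆ = ⁅a, b⁆ := by
  rw [commutatorElement_def, commutatorElement_def]
  have h := Subgroup.mem_center_iff.mp hz (a * b * a⁻¹)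
  calc z * a * b * (z * a)⁻¹ * b⁻¹ = z * (a * b * a⁻¹) * z⁻¹ * b⁻¹ := by group
    _ = (a * b * a⁻¹) * z * z⁻¹ * b⁻¹ := by rw [h]
    _ = a * b * a⁻¹ * b⁻¹ := by group

/-- Commutators only depend on the entries modulo the centre. -/
theorem commutator_eq_of_central {G : Type*} [Group G] (a b a' b' : G)
    (ha : a * a'⁻¹ ∈ Subgroup.center G) (hb : b * b'⁻¹ ∈ Subgroup.center G) :
    ⁅a, b⁆ = ⁅a', b'⁆ := by
  have h1 : ⁅a, b⁆ = ⁅a', b⁆ := by
    have : a = (a * a'⁻¹) * a' := by group
    rw [this, commutator_central_mul_left _ _ _ ha]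
  have h2 : ⁅b, a'⁆ = ⁅b', a'⁆ := by
    have : b = (b * b'⁻¹) * b' := by group
    rw [this, commutator_central_mul_left _ _ _ hb]
  rw [h1, ← commutatorElement_inv b a', h2, commutatorElement_inv]

/-- If all finite stem extensions of the finite perfect group `G` are isomorphisms, then every homomorphism
from `G` lifts through every central extension. -/
theorem exists_lift_of_trivial_multiplier {G : Type u} {Q : Type v} [Group G] [Group Q] [Finite G]
    (hG : Group.IsPerfect G) (π : G →* Q)
    (hM : ∀ (Γ : Type u) [Group Γ] [Finite Γ] (σ : Γ →* G), Cfsg.IsStemExtension σ → σ.ker = ⊥)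
    (X : Type u) [Group X] (ξ : X →* Q) (hξs : Function.Surjective ξ)
    (hξ : ξ.ker ≤ Subgroup.center X) : ∃ η : G →* X, ξ.comp η = π := by
  let P : Subgroup (G × X) := (π.comp (MonoidHom.fst G X)).eqLocus (ξ.comp (MonoidHom.snd G X))
  have hmem : ∀ y : G × X, y ∈ P ↔ π y.1 = ξ y.2 := fun y => Iff.rfl
  let p₁ : P →* G := (MonoidHom.fst G X).comp P.subtype
  have hp₁ : ∀ y : P, p₁ y = y.1.1 := fun y => rfl
  have hp₁surj : Function.Surjective p₁ := by
    intro g
    obtain ⟨x, hx⟩ := hξs (π g)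
    exact ⟨⟨(g, x), (hmem _).mpr hx.symm⟩, rfl⟩
  have hker : p₁.ker ≤ Subgroup.center P := by
    intro y hy
    have h1 : y.1.1 = 1 := hy
    have h2 : y.1.2 ∈ Subgroup.center X := by
      apply hξ
      rw [MonoidHom.mem_ker]
      have := (hmem y.1).mp y.2
      rw [h1, map_one] at this
      exact this.symm
    rw [Subgroup.mem_center_iff]
    intro w
    apply Subtype.ext
    apply Prod.ext
    · show w.1.1 * y.1.1 = y.1.1 * w.1.1
      rw [h1, mul_one, one_mul]
    · show w.1.2 * y.1.2 = y.1.2 * w.1.2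
      exact Subgroup.mem_center_iff.mp h2 w.1.2
  have hcentral : ∀ y y' : P, p₁ y = p₁ y' → y * y'⁻¹ ∈ Subgroup.center P := by
    intro y y' hyy
    apply hker
    rw [MonoidHom.mem_ker, map_mul, map_inv, hyy, mul_inv_cancel]
  -- finitely many commutators
  obtain ⟨s, hs⟩ := hp₁surj.hasRightInverse
  have hfin : Finite (commutatorSet P) := by
    apply Set.finite_coe_iff.mpr
    apply Set.Finite.subset (Set.finite_range (fun ab : G × G => ⁅s ab.1, s ab.2⁆))
    rintro _ ⟨y₁, y₂, rfl⟩
    refine ⟨(p₁ y₁, p₁ y₂), ?_⟩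
    exact (commutator_eq_of_central y₁ y₂ (s (p₁ y₁)) (s (p₁ y₂))
      (hcentral _ _ (hs (p₁ y₁)).symm) (hcentral _ _ (hs (p₁ y₂)).symm)).symm
  let σ : commutator P →* G := p₁.comp (commutator P).subtype
  have hσsurj : Function.Surjective σ := by
    intro g
    have h1 : (commutator P).map p₁ = ⊤ := by
      rw [commutator_def, Subgroup.map_commutator, Subgroup.map_top_of_surjective p₁ hp₁surj,
        ← commutator_def, hG.commutator_eq_top]
    have h2 : g ∈ (commutator P).map p₁ := by rw [h1]; trivial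
    obtain ⟨c, hc, hcg⟩ := h2
    exact ⟨⟨c, hc⟩, hcg⟩
  have hperf : Group.IsPerfect (commutator P) := by
    rw [Subgroup.isPerfect_iff]
    apply le_antisymm
    · rw [Subgroup.commutator_le]
      intro a ha b hb
      exact Subgroup.mul_mem _ (Subgroup.mul_mem _ (Subgroup.mul_mem _ ha hb)
        (Subgroup.inv_mem _ ha)) (Subgroup.inv_mem _ hb)
    · conv_lhs => rw [commutator_eq_closure]
      rw [Subgroup.closure_le]
      rintro _ ⟨y₁, y₂, rfl⟩
      obtain ⟨c₁, hc₁⟩ := hσsurj (p₁ y₁)
      obtain ⟨c₂, hc₂⟩ := hσsurj (p₁ y₂)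
      have : ⁅y₁, y₂⁆ = ⁅(c₁ : P), (c₂ : P)⁆ :=
        commutator_eq_of_central y₁ y₂ c₁ c₂ (hcentral _ _ hc₁.symm) (hcentral _ _ hc₂.symm)
      rw [this]
      exact Subgroup.commutator_mem_commutator c₁.2 c₂.2
  have hσstem : Cfsg.IsStemExtension σ := by
    refine ⟨hσsurj, ?_, ?_⟩
    · intro y hy
      have h1 : (y : P) ∈ Subgroup.center P := hker hy
      rw [Subgroup.mem_center_iff]
      intro w
      apply Subtype.ext
      exact Subgroup.mem_center_iff.mp h1 w
    · intro y _
      rw [hperf.commutator_eq_top]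
      trivial
  have hbot := hM (commutator P) σ hσstem
  have hinj : Function.Injective σ := (MonoidHom.ker_eq_bot_iff σ).mp hbot
  let e : commutator P ≃* G := MulEquiv.ofBijective σ ⟨hinj, hσsurj⟩
  refine ⟨(MonoidHom.snd G X).comp (P.subtype.comp ((commutator P).subtype.comp e.symm.toMonoidHom)), ?_⟩
  ext g
  show ξ ((e.symm g : P).1.2) = π g
  rw [← (hmem (e.symm g : P).1).mp (e.symm g : P).2]
  have : σ (e.symm g) = g := e.apply_symm_apply g
  exact congrArg π this

end Cfsg.Agent.Lib.Helper22
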