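import Mathlib
import Cfsg.Prelude.Def_KGroupFacts
import Cfsg.Agent.Lib.Helper22.Pullback

set_option autoImplicit false

namespace Cfsg.Agent.Lib.Helper22

open scoped commutatorElement

universe u v w

/-- The group `Γ` with its multiplication twisted by the carry cocycle of a homomorphism to `ZMod n`
and a central element `z`. -/
@[ext]
structure CarryTw {Γ : Type u} [Group Γ] (n : ℕ) (ψ : Γ →* Multiplicative (ZMod n)) (z : Γ) :
    Type u where
  val : Γ

namespace CarryTw

variable {Γ : Type u} [Group Γ] {n : ℕ} {ψ : Γ →* Multiplicative (ZMod n)} {z : Γ}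

/-- the residue of an element -/
def res (ψ : Γ →* Multiplicative (ZMod n)) (g : Γ) : ℕ := (Multiplicative.toAdd (ψ g)).val

theorem res_mul [NeZero n] (g h : Γ) : res ψ (g * h) = (res ψ g + res ψ h) % n := by
  unfold res
  rw [map_mul, toAdd_mul, ZMod.val_add]

theorem res_lt [NeZero n] (g : Γ) : res ψ g < n := ZMod.val_lt _

theorem res_of_ker (g : Γ) (hg : ψ g = 1) : res ψ g = 0 := by
  unfold res
  rw [hg, toAdd_one, ZMod.val_zero]

theorem res_mul_right_ker (g k : Γ) (hk : ψ k = 1) : res ψ (g * k) = res ψ g := by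
  unfold res
  rw [map_mul, hk, mul_one]

theorem res_eq_of_eq (g h : Γ) (hgh : ψ g = ψ h) : res ψ g = res ψ h := by
  unfold res
  rw [hgh]

theorem carry_assoc (n : ℕ) (hn : 0 < n) (i j l : ℕ) :
    (i + j) / n + ((i + j) % n + l) / n = (j + l) / n + (i + (j + l) % n) / n := by
  have h1 : ∀ s l : ℕ, s / n + (s % n + l) / n = (s + l) / n := by
    intro s l
    conv_rhs => rw [← Nat.div_add_mod s n, add_assoc, Nat.mul_add_div hn]
  rw [h1, add_comm i ((j + l) % n), h1, add_comm (j + l) i, add_assoc]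

variable [NeZero n] [hz : Fact (z ∈ Subgroup.center Γ)] [hψz : Fact (ψ z = 1)]

theorem z_comm (m : ℕ) (g : Γ) : z ^ m * g = g * z ^ m :=
  (Subgroup.mem_center_iff.mp (pow_mem hz.out m) g).symm

theorem psi_zpow (m : ℕ) : ψ (z ^ m) = 1 := by rw [map_pow, hψz.out, one_pow]

instance : Mul (CarryTw n ψ z) :=
  ⟨fun x y => ⟨x.val * y.val * z ^ ((res ψ x.val + res ψ y.val) / n)⟩⟩

instance : One (CarryTw n ψ z) := ⟨⟨1⟩⟩

instance : Inv (CarryTw n ψ z) :=
  ⟨fun x => ⟨x.val⁻¹ * (z ^ ((res ψ x.val⁻¹ + res ψ x.val) / n))⁻¹⟩⟩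

theorem mul_val (x y : CarryTw n ψ z) :
    (x * y).val = x.val * y.val * z ^ ((res ψ x.val + res ψ y.val) / n) := rfl
theorem one_val : (1 : CarryTw n ψ z).val = 1 := rfl
theorem inv_val (x : CarryTw n ψ z) :
    (x⁻¹).val = x.val⁻¹ * (z ^ ((res ψ x.val⁻¹ + res ψ x.val) / n))⁻¹ := rfl

instance : Group (CarryTw n ψ z) where
  mul_assoc x y w := by
    ext
    simp only [mul_val]
    rw [res_mul_right_ker _ _ (psi_zpow _), res_mul_right_ker _ _ (psi_zpow _), res_mul, res_mul]
    rw [mul_assoc (x.val * y.val) (z ^ _) w.val, z_comm, ← mul_assoc (x.val * y.val) w.val,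
      mul_assoc (x.val * y.val * w.val), ← pow_add, ← mul_assoc x.val (y.val * w.val),
      ← mul_assoc x.val y.val, mul_assoc (x.val * y.val * w.val) (z ^ _) (z ^ _), ← pow_add,
      carry_assoc n (NeZero.pos n)]
  one_mul x := by
    ext
    simp only [mul_val, one_val, one_mul]
    rw [res_of_ker 1 (map_one ψ), zero_add, Nat.div_eq_of_lt (res_lt _), pow_zero, mul_one]
  mul_one x := by
    ext
    simp only [mul_val, one_val, mul_one]
    rw [res_of_ker 1 (map_one ψ), add_zero, Nat.div_eq_of_lt (res_lt _), pow_zero, mul_one]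
  inv_mul_cancel x := by
    ext
    simp only [mul_val, inv_val, one_val]
    rw [res_mul_right_ker _ _ (by rw [map_inv, psi_zpow, inv_one])]
    rw [mul_assoc (x.val⁻¹ * _) x.val, ← z_comm]
    group

/-- A homomorphism killing `z` is also a homomorphism on the twisted group. -/
def lift {X : Type*} [Group X] (σ : Γ →* X) (hσz : σ z = 1) : CarryTw n ψ z →* X where
  toFun x := σ x.val
  map_one' := map_one σ
  map_mul' x y := by
    show σ (x.val * y.val * z ^ _) = σ x.val * σ y.val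
    rw [map_mul, map_mul, map_pow, hσz, one_pow, mul_one]

theorem lift_apply {X : Type*} [Group X] (σ : Γ →* X) (hσz : σ z = 1) (x : CarryTw n ψ z) :
    lift σ hσz x = σ x.val := rfl

/-- On the kernel of `ψ` the twisted multiplication is the original one. -/
def ofKer : ψ.ker →* CarryTw n ψ z where
  toFun w := ⟨w.1⟩
  map_one' := rfl
  map_mul' w w' := by
    ext
    simp only [mul_val]
    rw [res_of_ker _ w.2, res_of_ker _ w'.2, Nat.zero_div, pow_zero, mul_one]
    rfl

theorem ofKer_val (w : ψ.ker) : (ofKer (n := n) (z := z) w).val = w.1 := rfl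

theorem psi_comm (x y : Γ) : ψ ⁅x, y⁆ = 1 := by
  rw [map_commutatorElement]
  exact commutatorElement_eq_one_iff_commute.mpr (Commute.all _ _)

/-- The commutator in the twisted group is the original commutator. -/
theorem comm_mk (x y : Γ) :
    ⁅(CarryTw.mk x : CarryTw n ψ z), (CarryTw.mk y : CarryTw n ψ z)⁆ =
      (CarryTw.mk ⁅x, y⁆ : CarryTw n ψ z) := by
  rw [commutatorElement_def, mul_inv_eq_iff_eq_mul, mul_inv_eq_iff_eq_mul]
  ext
  simp only [mul_val]
  rw [res_of_ker _ (psi_comm x y), zero_add, Nat.div_eq_of_lt (res_lt _), pow_zero, mul_one,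
    res_mul, res_of_ker _ (psi_comm x y), zero_add, Nat.mod_eq_of_lt (res_lt _),
    add_comm (res ψ y) (res ψ x)]
  congr 1
  rw [commutatorElement_def]
  group

theorem mk_mem_commutator (w : Γ) (hw : w ∈ commutator Γ) :
    (⟨w⟩ : CarryTw n ψ z) ∈ commutator (CarryTw n ψ z) := by
  have key : ∃ h : w ∈ ψ.ker, ofKer (n := n) (z := z) ⟨w, h⟩ ∈ commutator (CarryTw n ψ z) := by
    rw [commutator_eq_closure] at hw
    induction hw using Subgroup.closure_induction with
    | mem w hw =>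
      obtain ⟨x, y, rfl⟩ := hw
      refine ⟨psi_comm x y, ?_⟩
      have h1 : ofKer (n := n) (z := z) ⟨⁅x, y⁆, psi_comm x y⟩ =
          ⁅(CarryTw.mk x : CarryTw n ψ z), (CarryTw.mk y : CarryTw n ψ z)⁆ :=
        (comm_mk x y).symm
      rw [h1]
      exact Subgroup.commutator_mem_commutator (Subgroup.mem_top _) (Subgroup.mem_top _)
    | one => exact ⟨one_mem _, one_mem _⟩
    | mul a b _ _ ha hb =>
      obtain ⟨ha1, ha2⟩ := ha
      obtain ⟨hb1, hb2⟩ := hb
      refine ⟨mul_mem ha1 hb1, ?_⟩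
      have h1 : (⟨a * b, mul_mem ha1 hb1⟩ : ψ.ker) = ⟨a, ha1⟩ * ⟨b, hb1⟩ := rfl
      rw [h1, map_mul]
      exact mul_mem ha2 hb2
    | inv a _ ha =>
      obtain ⟨ha1, ha2⟩ := ha
      refine ⟨inv_mem ha1, ?_⟩
      have h1 : (⟨a⁻¹, inv_mem ha1⟩ : ψ.ker) = ⟨a, ha1⟩⁻¹ := rfl
      rw [h1, map_inv]
      exact inv_mem ha2
  obtain ⟨h, hk⟩ := key
  exact hk

end CarryTw

end Cfsg.Agent.Lib.Helper22
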