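import Mathlib
import Cfsg.Prelude.Def_KGroupFacts
import Cfsg.Agent.Lib.Helper22.CarryTw

set_option autoImplicit false

namespace Cfsg.Agent.Lib.Helper22

open scoped commutatorElement

universe u v w

/-- Twisting a stem extension by the carry cocycle gives a stem extension with the same kernel; an
isomorphism over `Q` with the original one forces `z` to be an `n`-th power in the kernel. -/
theorem carryTw_stem {Q : Type u} [Group Q] [Finite Q] {Γ : Type u} [Group Γ] [Finite Γ]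
    (σ : Γ →* Q) (hσ : Cfsg.IsStemExtension σ) (n : ℕ) (hn : 1 < n)
    (ψ₀ : Q →* Multiplicative (ZMod n)) (z : Γ) (hz : z ∈ σ.ker) :
    ∃ (Γ₂ : Type u) (_ : Group Γ₂) (_ : Finite Γ₂) (σ₂ : Γ₂ →* Q), Cfsg.IsStemExtension σ₂ ∧
      Nonempty (σ₂.ker ≃* σ.ker) ∧
      (∀ e : Γ ≃* Γ₂, σ₂.comp e.toMonoidHom = σ → ∀ g₀ : Γ, ψ₀ (σ g₀) = Multiplicative.ofAdd 1 →
        g₀ ^ n ∈ commutator Γ → ∃ k ∈ σ.ker, k ^ n = z) := by
  classical
  haveI : NeZero n := ⟨by omega⟩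
  let ψ : Γ →* Multiplicative (ZMod n) := ψ₀.comp σ
  have hψ : ∀ g, ψ g = ψ₀ (σ g) := fun g => rfl
  have hσz : σ z = 1 := hz
  haveI hzc : Fact (z ∈ Subgroup.center Γ) := ⟨hσ.2.1 hz⟩
  haveI hψz : Fact (ψ z = 1) := ⟨by rw [hψ, hσz, map_one]⟩
  let σ₂ : CarryTw n ψ z →* Q := CarryTw.lift σ hσz
  have hσ₂ : ∀ x : CarryTw n ψ z, σ₂ x = σ x.val := fun x => rfl
  have hψk : ∀ g : Γ, σ g = 1 → ψ g = 1 := by
    intro g hg
    rw [hψ, hg, map_one]
  haveI : Finite (CarryTw n ψ z) :=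
    Finite.of_injective (fun x : CarryTw n ψ z => x.val) (fun x y h => CarryTw.ext h)
  refine ⟨CarryTw n ψ z, inferInstance, inferInstance, σ₂, ⟨?_, ?_, ?_⟩, ?_, ?_⟩
  · intro q
    obtain ⟨g, hg⟩ := hσ.1 q
    exact ⟨⟨g⟩, hg⟩
  · intro k hk
    have hk1 : σ k.val = 1 := hk
    have hkc := Subgroup.mem_center_iff.mp (hσ.2.1 (MonoidHom.mem_ker.mpr hk1))
    rw [Subgroup.mem_center_iff]
    intro y
    ext
    simp only [CarryTw.mul_val]
    rw [CarryTw.res_of_ker _ (hψk _ hk1), add_zero, zero_add, hkc y.val]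
  · intro k hk
    have hk1 : σ k.val = 1 := hk
    exact CarryTw.mk_mem_commutator k.val (hσ.2.2 (MonoidHom.mem_ker.mpr hk1))
  · refine ⟨{
      toFun := fun k => ⟨k.1.val, k.2⟩
      invFun := fun k => ⟨⟨k.1⟩, k.2⟩
      left_inv := fun k => rfl
      right_inv := fun k => rfl
      map_mul' := ?_ }⟩
    intro k k'
    apply Subtype.ext
    show (k.1 * k'.1).val = k.1.val * k'.1.val
    rw [CarryTw.mul_val, CarryTw.res_of_ker _ (hψk _ k.2), CarryTw.res_of_ker _ (hψk _ k'.2),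
      Nat.zero_div, pow_zero, mul_one]
  · intro e he g₀ hg₀ hg₀n
    let vv : Γ → Γ := fun g => (e g).val
    have hv0 : ∀ g, σ (vv g) = σ g := by
      intro g
      have h1 := DFunLike.congr_fun he g
      exact h1
    have hvψ : ∀ g, ψ (vv g) = ψ g := by
      intro g
      rw [hψ, hψ, hv0]
    have hvres : ∀ g, CarryTw.res ψ (vv g) = CarryTw.res ψ g :=
      fun g => CarryTw.res_eq_of_eq _ _ (hvψ g)
    have hv1 : ∀ g g', vv (g * g') =
        vv g * vv g' * z ^ ((CarryTw.res ψ g + CarryTw.res ψ g') / n) := by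
      intro g g'
      show (e (g * g')).val = _
      rw [map_mul, CarryTw.mul_val]
      show vv g * vv g' * z ^ ((CarryTw.res ψ (vv g) + CarryTw.res ψ (vv g')) / n) = _
      rw [hvres, hvres]
    have hv2 : vv 1 = 1 := by
      show (e 1).val = 1
      rw [map_one]
      rfl
    have hvc : ∀ g, vv g * g⁻¹ ∈ Subgroup.center Γ := by
      intro g
      apply hσ.2.1
      rw [MonoidHom.mem_ker, map_mul, map_inv, hv0, mul_inv_cancel]
    have hv3 : ∀ x y : Γ, vv ⁅x, y⁆ = ⁅x, y⁆ := by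
      intro x y
      show (e ⁅x, y⁆).val = ⁅x, y⁆
      rw [map_commutatorElement]
      have h1 : e x = CarryTw.mk (vv x) := rfl
      have h2 : e y = CarryTw.mk (vv y) := rfl
      rw [h1, h2, CarryTw.comm_mk]
      show (⁅vv x, vv y⁆ : Γ) = ⁅x, y⁆
      exact commutator_eq_of_central _ _ _ _ (hvc x) (hvc y)
    let W : Subgroup Γ :=
      { carrier := {w | ψ w = 1 ∧ vv w = w}
        mul_mem' := by
          rintro a b ⟨ha1, ha2⟩ ⟨hb1, hb2⟩
          refine ⟨by rw [map_mul, ha1, hb1, mul_one], ?_⟩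
          rw [hv1, ha2, hb2, CarryTw.res_of_ker _ ha1, CarryTw.res_of_ker _ hb1, Nat.zero_div,
            pow_zero, mul_one]
        one_mem' := ⟨map_one ψ, hv2⟩
        inv_mem' := by
          rintro a ⟨ha1, ha2⟩
          have ha1' : ψ a⁻¹ = 1 := by rw [map_inv, ha1, inv_one]
          refine ⟨ha1', ?_⟩
          have h1 := hv1 a a⁻¹
          rw [mul_inv_cancel, hv2, ha2, CarryTw.res_of_ker _ ha1, CarryTw.res_of_ker _ ha1',
            Nat.zero_div, pow_zero, mul_one] at h1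
          exact (eq_inv_of_mul_eq_one_right h1.symm) }
    have hW : commutator Γ ≤ W := by
      rw [commutator_eq_closure, Subgroup.closure_le]
      rintro _ ⟨x, y, rfl⟩
      exact ⟨CarryTw.psi_comm x y, hv3 x y⟩
    have hres₀ : ∀ m : ℕ, CarryTw.res ψ (g₀ ^ m) = m % n := by
      intro m
      unfold CarryTw.res
      rw [map_pow, hψ, hg₀, ← ofAdd_nsmul, toAdd_ofAdd, nsmul_one, ZMod.val_natCast]
    have hres1 : CarryTw.res ψ g₀ = 1 := by
      have h1 := hres₀ 1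
      rw [pow_one, Nat.mod_eq_of_lt hn] at h1
      exact h1
    have hpow : ∀ m : ℕ, m < n → vv (g₀ ^ m) = vv g₀ ^ m := by
      intro m
      induction m with
      | zero =>
        intro _
        rw [pow_zero, pow_zero, hv2]
      | succ m ih =>
        intro hm
        rw [pow_succ, hv1, ih (by omega), hres₀, hres1, Nat.mod_eq_of_lt (by omega),
          Nat.div_eq_of_lt hm, pow_zero, mul_one, pow_succ]
    have hpn : vv (g₀ ^ n) = vv g₀ ^ n * z := by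
      obtain ⟨m, rfl⟩ : ∃ m, n = m + 1 := ⟨n - 1, by omega⟩
      rw [pow_succ, hv1, hpow m (by omega), hres₀, hres1, Nat.mod_eq_of_lt (by omega),
        Nat.div_self (by omega), pow_one, pow_succ]
    have hfix : vv (g₀ ^ n) = g₀ ^ n := (hW hg₀n).2
    obtain ⟨κ, hκ⟩ : ∃ κ, κ = vv g₀ * g₀⁻¹ := ⟨_, rfl⟩
    have hκk : κ ∈ σ.ker := by
      rw [hκ, MonoidHom.mem_ker, map_mul, map_inv, hv0, mul_inv_cancel]
    have hκc : ∀ g, g * κ = κ * g := Subgroup.mem_center_iff.mp (hσ.2.1 hκk)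
    have hvg : vv g₀ = κ * g₀ := by
      rw [hκ]
      group
    have hcomm : Commute κ g₀ := (hκc g₀).symm
    have h5 : κ ^ n * g₀ ^ n * z = g₀ ^ n := by
      rw [← hcomm.mul_pow, ← hvg, ← hpn, hfix]
    have hc2 : Commute (κ ^ n) (g₀ ^ n) := hcomm.pow_pow n n
    have h6 : g₀ ^ n * (κ ^ n * z) = g₀ ^ n * 1 := by
      rw [mul_one, ← mul_assoc, ← hc2.eq]
      exact h5
    have h7 : κ ^ n * z = 1 := mul_left_cancel h6
    refine ⟨κ⁻¹, inv_mem hκk, ?_⟩
    rw [inv_pow]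
    exact inv_eq_of_mul_eq_one_right h7

/-- If all Schur covers of `Q` are isomorphic over `Q`, the commutator quotient has order prime to
the order of the multiplier. -/
theorem coprime_of_unique_cover {Q : Type u} [Group Q] [Finite Q] {A : Type v} [CommGroup A]
    (hA : Cfsg.HasSchurMultiplier Q A)
    (H : ∀ (Γ₁ Γ₂ : Type u) [Group Γ₁] [Finite Γ₁] [Group Γ₂] [Finite Γ₂] (σ₁ : Γ₁ →* Q)
      (σ₂ : Γ₂ →* Q), Cfsg.IsStemExtension σ₁ → Cfsg.IsStemExtension σ₂ →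
      Nonempty (σ₁.ker ≃* A) → Nonempty (σ₂.ker ≃* A) →
      ∃ e : Γ₁ ≃* Γ₂, σ₂.comp e.toMonoidHom = σ₁) :
    Nat.Coprime (Nat.card (Abelianization Q)) (Nat.card A) := by
  classical
  by_contra hnc
  obtain ⟨p, hp, hpb, hpa⟩ := Nat.Prime.not_coprime_iff_dvd.mp hnc
  obtain ⟨Γ, _, _, σ, hσ, ⟨e⟩⟩ := hA.1
  haveI : Finite A := Finite.of_equiv _ e.toEquiv
  obtain ⟨ι, _, nn, hnn, ⟨eqv⟩⟩ :=
    CommGroup.equiv_prod_multiplicative_zmod_of_finite (Abelianization Q)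
  have hcard : Nat.card (Abelianization Q) = ∏ i, nn i := by
    rw [Nat.card_congr eqv.toEquiv, Nat.card_pi]
    apply Finset.prod_congr rfl
    intro i _
    rw [Nat.card_congr Multiplicative.toAdd, Nat.card_zmod]
  obtain ⟨i₀, hi₀⟩ : ∃ i, p ∣ nn i := by
    rw [hcard] at hpb
    obtain ⟨i, _, hi⟩ := (Prime.dvd_finsetProd_iff hp.prime _).mp hpb
    exact ⟨i, hi⟩
  obtain ⟨n, hn⟩ : ∃ n, n = nn i₀ := ⟨_, rfl⟩
  have hn1 : 1 < n := by
    rw [hn]
    exact hnn i₀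
  have hpn : p ∣ n := by
    rw [hn]
    exact hi₀
  let ψ₀ : Q →* Multiplicative (ZMod (nn i₀)) :=
    (Pi.evalMonoidHom _ i₀).comp (eqv.toMonoidHom.comp Abelianization.of)
  obtain ⟨q₀, hq₀⟩ : ∃ q₀ : Q, Abelianization.of q₀ =
      eqv.symm (Pi.mulSingle i₀ (Multiplicative.ofAdd 1)) := QuotientGroup.mk_surjective _
  have hψq : ψ₀ q₀ = Multiplicative.ofAdd 1 := by
    show (eqv (Abelianization.of q₀)) i₀ = _
    rw [hq₀, MulEquiv.apply_symm_apply, Pi.mulSingle_eq_same]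
  have hq₀n : q₀ ^ (nn i₀) ∈ commutator Q := by
    rw [← Abelianization.ker_of, MonoidHom.mem_ker, map_pow, hq₀, ← map_pow, ← Pi.mulSingle_pow,
      ← ofAdd_nsmul, nsmul_one, ZMod.natCast_self, ofAdd_zero, Pi.mulSingle_one, map_one]
  obtain ⟨g₀, hg₀⟩ := hσ.1 q₀
  have hcσ : (commutator Γ).map σ = commutator Q := by
    rw [commutator_def, Subgroup.map_commutator, Subgroup.map_top_of_surjective σ hσ.1,
      ← commutator_def]
  have hg₀n : g₀ ^ (nn i₀) ∈ commutator Γ := by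
    have h1 : σ (g₀ ^ (nn i₀)) ∈ commutator Q := by
      rw [map_pow, hg₀]
      exact hq₀n
    rw [← hcσ] at h1
    obtain ⟨c, hc, hcx⟩ := h1
    have h2 : c⁻¹ * g₀ ^ (nn i₀) ∈ σ.ker := by
      rw [MonoidHom.mem_ker, map_mul, map_inv, hcx, inv_mul_cancel]
    have h3 : g₀ ^ (nn i₀) = c * (c⁻¹ * g₀ ^ (nn i₀)) := by group
    rw [h3]
    exact mul_mem hc (hσ.2.2 h2)
  have hz : ∃ z ∈ σ.ker, ∀ k ∈ σ.ker, k ^ (nn i₀) ≠ z := by
    have hpK : p ∣ Nat.card σ.ker := by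
      rw [Nat.card_congr e.toEquiv]
      exact hpa
    haveI := Fact.mk hp
    obtain ⟨k₀, hk₀⟩ := exists_prime_orderOf_dvd_card' p hpK
    letI : CommGroup σ.ker :=
      { (σ.ker).toGroup with
        mul_comm := fun a b => Subtype.ext (Subgroup.mem_center_iff.mp (hσ.2.1 b.2) a.1) }
    let pw : σ.ker →* σ.ker := powMonoidHom (nn i₀)
    have hninj : ¬ Function.Injective pw := by
      intro hinj
      have h1 : pw k₀ = pw 1 := by
        show k₀ ^ (nn i₀) = 1 ^ (nn i₀)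
        rw [one_pow]
        exact orderOf_dvd_iff_pow_eq_one.mp (hk₀ ▸ hi₀)
      have h2 := hinj h1
      rw [h2, orderOf_one] at hk₀
      exact hp.one_lt.ne hk₀
    have hnsurj : ¬ Function.Surjective pw :=
      fun hs => hninj ((Finite.injective_iff_surjective).mpr hs)
    obtain ⟨z, hz⟩ := not_forall.mp hnsurj
    exact ⟨z.1, z.2, fun k hk h => hz ⟨⟨k, hk⟩, Subtype.ext h⟩⟩
  obtain ⟨z, hzk, hzn⟩ := hz
  obtain ⟨Γ₂, _, _, σ₂, hσ₂, ⟨e₂⟩, hno⟩ := carryTw_stem σ hσ (nn i₀) (hnn i₀) ψ₀ z hzk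
  obtain ⟨E, hE⟩ := H Γ Γ₂ σ σ₂ hσ hσ₂ ⟨e⟩ ⟨e₂.trans e⟩
  obtain ⟨k, hk, hkz⟩ := hno E hE g₀ (by rw [hg₀]; exact hψq) hg₀n
  exact hzn k hk hkz

end Cfsg.Agent.Lib.Helper22
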