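import Mathlib
import Cfsg.Agent.Lib.Helper22.Wielandt

/-!
Helper lemmas (helper22): a nontrivial coprime action of an `r`-group on an abelian `p`-group
of rank `d` forces `r ∣ p ^ i - 1` for some `1 ≤ i ≤ d`.
-/

namespace Cfsg.Agent.Lib.Helper22

open scoped IsMulCommutative in
theorem exists_dvd_pow_sub_one_of_coprime_action {P Z : Type*} [Group P] [IsMulCommutative P]
    [Finite P] [Group Z] [Finite Z] (p r : ℕ) [hp : Fact p.Prime] [hr : Fact r.Prime]
    (hpr : p ≠ r) (hP : IsPGroup p P) (hZ : IsPGroup r Z)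
    (φ : Z →* MulAut P) (hφ : ∃ g x, φ g x ≠ x) :
    ∃ i, 1 ≤ i ∧ i ≤ Group.rank P ∧ r ∣ p ^ i - 1 := by
  classical
  letI : MulAction Z P := MulAction.compHom P φ
  have hsmul : ∀ (g : Z) (x : P), g • x = φ g x := fun g x => rfl
  have hcop : ∀ a : ℕ, Nat.Coprime r (p ^ a) := fun a =>
    Nat.Coprime.pow_right a ((Nat.coprime_primes hr.out hp.out).mpr hpr.symm)
  -- the subgroup of p-th powers
  let Pp : Subgroup P := (powMonoidHom p : P →* P).range
  have hPp : ∀ x : P, x ^ p ∈ Pp := fun x => ⟨x, rfl⟩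
  have hPpinv : ∀ (g : Z) (y : P), y ∈ Pp → φ g y ∈ Pp := by
    rintro g _ ⟨z, rfl⟩
    exact ⟨φ g z, by simp⟩
  -- orbits of non-fixed points have size divisible by r
  have hstab : ∀ x : P, (∃ g : Z, φ g x ≠ x) → r ∣ (MulAction.stabilizer Z x).index := by
    rintro x ⟨g, hg⟩
    obtain ⟨k, hk⟩ := hZ.index (MulAction.stabilizer Z x)
    rcases Nat.eq_zero_or_pos k with h0 | hpos
    · exfalso
      rw [h0, pow_zero, Subgroup.index_eq_one] at hk
      have : g ∈ MulAction.stabilizer Z x := by
        rw [hk]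
        exact Subgroup.mem_top g
      exact hg this
    · rw [hk]
      exact dvd_pow_self r hpos.ne'
  -- the subgroup K
  let K : Subgroup P :=
    { carrier := {x | ∀ g : Z, φ g x * x⁻¹ ∈ Pp}
      one_mem' := by
        intro g
        simp only [map_one, inv_one, mul_one]
        exact Pp.one_mem
      mul_mem' := by
        intro x y hx hy g
        have e : φ g (x * y) * (x * y)⁻¹ = (φ g x * x⁻¹) * (φ g y * y⁻¹) := by
          rw [map_mul, mul_inv, mul_mul_mul_comm]
        rw [e]
        exact Pp.mul_mem (hx g) (hy g)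
      inv_mem' := by
        intro x hx g
        have e : φ g x⁻¹ * x⁻¹⁻¹ = (φ g x * x⁻¹)⁻¹ := by
          rw [map_inv, mul_inv]
        rw [e]
        exact Pp.inv_mem (hx g) }
  have hKmem : ∀ x : P, x ∈ K ↔ ∀ g : Z, φ g x * x⁻¹ ∈ Pp := fun x => Iff.rfl
  have hKinv : ∀ (h : Z) (x : P), x ∈ K → φ h x ∈ K := by
    intro h x hx
    rw [hKmem]
    intro g
    have e : φ g (φ h x) * (φ h x)⁻¹ = (φ (g * h) x * x⁻¹) * (φ h x * x⁻¹)⁻¹ := by
      rw [map_mul, MulAut.mul_apply]
      group
    rw [e]
    exact Pp.mul_mem (hx (g * h)) (Pp.inv_mem (hx h))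
  -- claim 1: K is proper
  have hKtop : K ≠ ⊤ := by
    intro hK
    have hall : ∀ (g : Z) (x : P), φ g x * x⁻¹ ∈ Pp := by
      intro g x
      have : x ∈ K := by
        rw [hK]
        exact Subgroup.mem_top x
      exact this g
    have h1a : ∀ x : P, ∃ c y : P, x = c * y ^ p ∧ ∀ g : Z, φ g c = c := by
      intro x
      by_contra hcon
      have hdvd : r ∣ Nat.card {y : P // y * x⁻¹ ∈ Pp} := by
        apply dvd_card_subtype_of_dvd_index (G := Z)
        · intro g y hy
          have e : g • y * x⁻¹ = (φ g y * y⁻¹) * (y * x⁻¹) := by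
            rw [hsmul]
            group
          rw [e]
          exact Pp.mul_mem (hall g y) hy
        · intro y hy
          apply hstab
          by_contra hfix
          push Not at hfix
          apply hcon
          obtain ⟨z, hz⟩ := hy
          refine ⟨y, z⁻¹, ?_, hfix⟩
          have hz' : z ^ p = y * x⁻¹ := hz
          rw [inv_pow, hz', mul_inv_rev, inv_inv, mul_comm x, mul_inv_cancel_left]
      have hcard : Nat.card {y : P // y * x⁻¹ ∈ Pp} = Nat.card Pp :=
        Nat.card_congr ((Equiv.mulRight x⁻¹).subtypeEquiv (fun y => Iff.rfl))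
      rw [hcard] at hdvd
      obtain ⟨a, ha⟩ := IsPGroup.iff_card.mp (hP.to_subgroup Pp)
      rw [ha] at hdvd
      have := Nat.Coprime.eq_one_of_dvd (hcop a) hdvd
      exact hr.out.one_lt.ne' this
    have h1b : ∀ (j : ℕ) (x : P), ∃ c y : P, x = c * y ^ (p ^ j) ∧ ∀ g : Z, φ g c = c := by
      intro j
      induction j with
      | zero =>
        intro x
        exact ⟨1, x, by simp, fun g => map_one _⟩
      | succ j ih =>
        intro x
        obtain ⟨c, y, hx, hc⟩ := h1a x
        obtain ⟨c', z, hy, hc'⟩ := ih y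
        refine ⟨c * c' ^ p, z, ?_, ?_⟩
        · rw [hx, hy, mul_pow, ← pow_mul, pow_succ, mul_assoc]
        · intro g
          rw [map_mul, map_pow, hc g, hc' g]
    obtain ⟨g, x, hgx⟩ := hφ
    obtain ⟨n, hn⟩ := IsPGroup.iff_card.mp hP
    obtain ⟨c, y, hx, hc⟩ := h1b n x
    apply hgx
    have hy1 : y ^ (p ^ n) = 1 := by
      rw [← hn]
      exact pow_card_eq_one'
    rw [hy1, mul_one] at hx
    rw [hx]
    exact hc g
  -- counting the complement of K
  have hdvd1 : r ∣ Nat.card {x : P // x ∉ K} := by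
    apply dvd_card_subtype_of_dvd_index (G := Z)
    · intro g x hx hgx
      apply hx
      have := hKinv g⁻¹ _ hgx
      rw [hsmul, ← MulAut.mul_apply, ← map_mul, inv_mul_cancel, map_one] at this
      exact this
    · intro x hx
      apply hstab
      by_contra hfix
      push Not at hfix
      apply hx
      rw [hKmem]
      intro g
      rw [hfix g, mul_inv_cancel]
      exact Pp.one_mem
  have hcompl : Nat.card K + Nat.card {x : P // x ∉ K} = Nat.card P := by
    have := Set.ncard_add_ncard_compl (K : Set P)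
    rw [← Nat.card_coe_set_eq, ← Nat.card_coe_set_eq] at this
    exact this
  obtain ⟨i, hi⟩ := hP.index K
  obtain ⟨a, ha⟩ := IsPGroup.iff_card.mp (hP.to_subgroup K)
  have hmul := Subgroup.card_mul_index K
  rw [hi, ha] at hmul
  rw [ha, ← hmul] at hcompl
  have hi1 : 1 ≤ i := by
    rcases Nat.eq_zero_or_pos i with h0 | hpos
    · exfalso
      rw [h0, pow_zero, Subgroup.index_eq_one] at hi
      exact hKtop hi
    · exact hpos
  refine ⟨i, hi1, ?_, ?_⟩
  · -- rank bound
    have hexp : ∀ w : P ⧸ K, w ^ p = 1 := by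
      intro w
      induction w using QuotientGroup.induction_on with
      | H x =>
        rw [← QuotientGroup.mk_pow, QuotientGroup.eq_one_iff, hKmem]
        intro g
        have e : φ g (x ^ p) * (x ^ p)⁻¹ = (φ g x * x⁻¹) ^ p := by
          rw [map_pow, ← inv_pow, ← mul_pow]
        rw [e]
        exact hPp _
    have h1 := card_dvd_exponent_pow_rank' (P ⧸ K) hexp
    have h2 : Nat.card (P ⧸ K) = p ^ i := hi
    rw [h2] at h1
    have h3 := (Nat.pow_dvd_pow_iff_le_right hp.out.one_lt).mp h1
    exact h3.trans (Group.rank_le_of_surjective (QuotientGroup.mk' K) (QuotientGroup.mk'_surjective K))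
  · have h4 : Nat.card {x : P // x ∉ K} = p ^ a * (p ^ i - 1) := by
      have h5 : p ^ a * (p ^ i - 1) = p ^ a * p ^ i - p ^ a := by
        rw [Nat.mul_sub, mul_one]
      rw [h5]
      omega
    rw [h4] at hdvd1
    exact Nat.Coprime.dvd_of_dvd_mul_left (hcop a) hdvd1

end Cfsg.Agent.Lib.Helper22
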