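import Mathlib
import Cfsg.Agent.Lib.Helper22.CoprimeAbelian
import Cfsg.Agent.Lib.Helper22.CyclicIndexTwo
import Cfsg.Agent.Lib.Helper22.TI

/-!
Helper lemmas (helper22): abelian Sylow subgroups whose normalizer equals the centralizer, and a
solvability criterion.
-/

namespace Cfsg.Agent.Lib.Helper22

/-- If `P` is an abelian Sylow `p`-subgroup and no prime divisor `r ≠ p` of `|G|` divides some
`p ^ i - 1` with `1 ≤ i ≤ rank P`, then `N_G(P) ≤ C_G(P)`. -/
theorem normalizer_le_centralizer_of_abelian_sylow {G : Type*} [Group G] [Finite G] (p : ℕ)
    [Fact p.Prime] (P : Sylow p G) (hab : IsMulCommutative (P : Subgroup G))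
    (h : ∀ r : ℕ, r.Prime → r ≠ p → r ∣ Nat.card G → ∀ i, 1 ≤ i →
      i ≤ Group.rank (P : Subgroup G) → ¬ r ∣ p ^ i - 1) :
    Subgroup.normalizer ((P : Subgroup G) : Set G)
      ≤ Subgroup.centralizer ((P : Subgroup G) : Set G) := by
  classical
  have hT : (Subgroup.centralizer ((P : Subgroup G) : Set G)).subgroupOf
      (Subgroup.normalizer ((P : Subgroup G) : Set G)) = ⊤ := by
    apply eq_top_of_sylow_le
    intro r hr
    by_cases hrp : r = p
    · subst hrp
      refine ⟨P.subtype Subgroup.le_normalizer, ?_⟩
      rw [Sylow.coe_subtype]
      intro x hx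
      rw [Subgroup.mem_subgroupOf] at hx ⊢
      rw [Subgroup.mem_centralizer_iff]
      intro y hy
      exact congrArg Subtype.val (mul_comm' (⟨y, hy⟩ : ↥(P : Subgroup G)) ⟨x, hx⟩)
    · obtain ⟨R⟩ := (inferInstance :
        Nonempty (Sylow r ↥(Subgroup.normalizer ((P : Subgroup G) : Set G))))
      refine ⟨R, ?_⟩
      by_contra hcon
      obtain ⟨g, hgR, hgC⟩ := SetLike.not_le_iff_exists.mp hcon
      rw [Subgroup.mem_subgroupOf, Subgroup.mem_centralizer_iff] at hgC
      push Not at hgC
      obtain ⟨x, hxP, hxg⟩ := hgC
      have hact : ∃ (g' : ↥(R : Subgroup ↥(Subgroup.normalizer ((P : Subgroup G) : Set G))))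
          (x' : ↥(P : Subgroup G)),
          ((normalizerConjHom (P : Subgroup G)).comp
            (R : Subgroup ↥(Subgroup.normalizer ((P : Subgroup G) : Set G))).subtype) g' x'
            ≠ x' := by
        refine ⟨⟨g, hgR⟩, ⟨x, hxP⟩, ?_⟩
        intro h'
        apply hxg
        have h'' : (g : G) * x * (g : G)⁻¹ = x := congrArg Subtype.val h'
        calc x * (g : G) = ((g : G) * x * (g : G)⁻¹) * (g : G) := by rw [h'']
          _ = (g : G) * x := by group
      obtain ⟨i, hi1, hid, hri⟩ := exists_dvd_pow_sub_one_of_coprime_action p r
        (Ne.symm hrp) P.isPGroup' R.isPGroup'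
        ((normalizerConjHom (P : Subgroup G)).comp
          (R : Subgroup ↥(Subgroup.normalizer ((P : Subgroup G) : Set G))).subtype) hact
      have hrG : r ∣ Nat.card G := by
        obtain ⟨k, hk⟩ := R.isPGroup' ⟨g, hgR⟩
        have hk' : (g : G) ^ (r ^ k) = 1 := by
          have := congrArg Subtype.val (congrArg Subtype.val hk)
          simpa using this
        obtain ⟨j, -, hj⟩ := (Nat.dvd_prime_pow hr.out).mp (orderOf_dvd_of_pow_eq_one hk')
        rcases Nat.eq_zero_or_pos j with h0 | hpos
        · exfalso
          rw [h0, pow_zero, orderOf_eq_one_iff] at hj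
          apply hxg
          rw [hj, mul_one, one_mul]
        · have h1 : r ∣ orderOf (g : G) := by
            rw [hj]
            exact dvd_pow_self r hpos.ne'
          exact h1.trans (orderOf_dvd_natCard _)
      exact h r hr.out hrp hrG i hi1 hid hri
  rw [Subgroup.subgroupOf_eq_top] at hT
  exact hT

/-- Groups all of whose Sylow subgroups for non-maximal primes are abelian of rank at most two,
and whose order is not divisible by `12`, are solvable. -/
theorem isSolvable_of_abelian_rank_two_sylow.{u} : ∀ (n : ℕ) (G : Type u) [Group G] [Finite G],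
    Nat.card G = n →
    (∀ p : ℕ, p.Prime → p ∣ Nat.card G → (∃ q : ℕ, q.Prime ∧ q ∣ Nat.card G ∧ p < q) →
      ∀ P : Sylow p G, IsMulCommutative (P : Subgroup G) ∧ Group.rank (P : Subgroup G) ≤ 2) →
    ¬ 12 ∣ Nat.card G → Group.IsSolvable G := by
  intro n
  induction n using Nat.strong_induction_on with
  | _ n ih =>
    intro G _ _ hn h h12
    by_cases h1 : Nat.card G = 1
    · haveI : Subsingleton G := (Nat.card_eq_one_iff_unique.mp h1).1
      exact Group.isSolvable_of_comm (fun a b => Subsingleton.elim _ _)
    have hp : (Nat.card G).minFac.Prime := Nat.minFac_prime h1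
    haveI : Fact (Nat.card G).minFac.Prime := ⟨hp⟩
    have hpG : (Nat.card G).minFac ∣ Nat.card G := Nat.minFac_dvd _
    have hpmin : ∀ r : ℕ, r.Prime → r ∣ Nat.card G → (Nat.card G).minFac ≤ r :=
      fun r hr hrG => Nat.minFac_le_of_dvd hr.two_le hrG
    generalize hpdef : (Nat.card G).minFac = p at hp hpG hpmin this
    by_cases hq : ∃ q : ℕ, q.Prime ∧ q ∣ Nat.card G ∧ p < q
    · obtain ⟨P⟩ := (inferInstance : Nonempty (Sylow p G))
      obtain ⟨hab, hrank⟩ := h p hp hpG hq P
      have hNC : Subgroup.normalizer ((P : Subgroup G) : Set G)
          ≤ Subgroup.centralizer ((P : Subgroup G) : Set G) := by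
        apply normalizer_le_centralizer_of_abelian_sylow p P hab
        intro r hr hrp hrG i hi1 hi2 hdvd
        have hpr : p < r := lt_of_le_of_ne (hpmin r hr hrG) (Ne.symm hrp)
        have hp2le := hp.two_le
        have hp1 : ¬ r ∣ p - 1 := by
          intro h'
          have := Nat.le_of_dvd (by omega) h'
          omega
        have hi : i = 1 ∨ i = 2 := by omega
        rcases hi with rfl | rfl
        · rw [pow_one] at hdvd
          exact hp1 hdvd
        · have e : p ^ 2 - 1 = (p - 1) * (p + 1) := by
            obtain ⟨k, rfl⟩ : ∃ k, p = k + 1 := ⟨p - 1, by omega⟩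
            have e1 : (k + 1) ^ 2 = k * (k + 1 + 1) + 1 := by ring
            rw [e1]
            simp
          rw [e] at hdvd
          rcases (Nat.Prime.dvd_mul hr).mp hdvd with h' | h'
          · exact hp1 h'
          · have hle := Nat.le_of_dvd (by omega) h'
            have hr_eq : r = p + 1 := by omega
            have hp2 : p = 2 := by
              rcases hp.eq_two_or_odd with h2 | hodd
              · exact h2
              · exfalso
                rcases hr.eq_two_or_odd with h2 | hodd'
                · omega
                · omega
            have hr3 : r = 3 := by omega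
            have h4 : ¬ 4 ∣ Nat.card G := by
              intro h4
              apply h12
              have h3G : 3 ∣ Nat.card G := hr3 ▸ hrG
              exact Nat.Coprime.mul_dvd_of_dvd_of_dvd (by norm_num : Nat.Coprime 4 3) h4 h3G
            have hPcard : Nat.card (P : Subgroup G) ∣ 2 := by
              obtain ⟨k, hk⟩ := IsPGroup.iff_card.mp P.isPGroup'
              have hdvdG : Nat.card (P : Subgroup G) ∣ Nat.card G :=
                Subgroup.card_subgroup_dvd_card _
              rw [hk, hp2] at hdvdG
              rw [hk, hp2]
              have hk1 : k ≤ 1 := by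
                by_contra hk2
                push Not at hk2
                exact h4 ((pow_dvd_pow 2 hk2).trans hdvdG)
              exact (pow_dvd_pow 2 hk1).trans (by norm_num)
            have hrank1 : Group.rank (P : Subgroup G) ≤ 1 := by
              haveI : Fact (Nat.Prime 2) := ⟨Nat.prime_two⟩
              haveI : IsCyclic (P : Subgroup G) := isCyclic_of_card_dvd_prime hPcard
              obtain ⟨g, hg⟩ := IsCyclic.exists_generator (α := (P : Subgroup G))
              have hcl : Subgroup.closure (({g} : Finset (P : Subgroup G)) : Set (P : Subgroup G))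
                  = ⊤ := by
                rw [Finset.coe_singleton, ← Subgroup.zpowers_eq_closure]
                exact (Subgroup.eq_top_iff' _).mpr hg
              have := Group.rank_le hcl
              simpa using this
            omega
      -- Burnside's transfer theorem
      have hcomp := MonoidHom.ker_transferSylow_isComplement' P hNC
      have hKcard : Nat.card (MonoidHom.transferSylow P hNC).ker * Nat.card (P : Subgroup G)
          = Nat.card G := hcomp.card_mul_card
      obtain ⟨k, hk⟩ := IsPGroup.iff_card.mp P.isPGroup'
      have hk0 : k ≠ 0 := by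
        rintro rfl
        have h2 := P.card_eq_multiplicity
        rw [hk] at h2
        have h3 : (Nat.card G).factorization p = 0 :=
          (Nat.pow_right_injective hp.two_le h2).symm
        have h4 := (Nat.factorization_eq_zero_iff _ _).mp h3
        rcases h4 with h4 | h4 | h4
        · exact h4 hp
        · exact h4 hpG
        · have : 0 < Nat.card G := Nat.card_pos
          omega
      rw [hk] at hKcard
      have hKlt : Nat.card (MonoidHom.transferSylow P hNC).ker < n := by
        rw [← hn, ← hKcard]
        have h2 : 0 < Nat.card (MonoidHom.transferSylow P hNC).ker := Nat.card_pos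
        have h3 : 2 ≤ p ^ k := by
          calc 2 ≤ p := hp.two_le
            _ ≤ p ^ k := Nat.le_self_pow hk0 p
        nlinarith
      have hKdvd : Nat.card (MonoidHom.transferSylow P hNC).ker ∣ Nat.card G :=
        Subgroup.card_subgroup_dvd_card _
      haveI hKsolv : Group.IsSolvable (MonoidHom.transferSylow P hNC).ker := by
        apply ih _ hKlt _ rfl
        · intro p' hp' hp'K hq' S
          haveI : Fact p'.Prime := ⟨hp'⟩
          obtain ⟨q', hq'1, hq'2, hq'3⟩ := hq'
          have hp'p : p' ≠ p := by
            rintro rfl
            have h2 : ¬ p' ∣ Nat.card (MonoidHom.transferSylow P hNC).ker := by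
              intro h3
              have h4 := P.card_eq_multiplicity
              rw [hk] at h4
              have h5 : k = (Nat.card G).factorization p' :=
                Nat.pow_right_injective hp'.two_le h4
              have h6 : p' ^ (k + 1) ∣ Nat.card G := by
                rw [← hKcard, pow_succ, mul_comm]
                exact Nat.mul_dvd_mul h3 dvd_rfl
              have h7 := (hp'.pow_dvd_iff_le_factorization (Nat.card_pos.ne')).mp h6
              omega
            exact h2 hp'K
          have hfac : (Nat.card G).factorization p'
              = (Nat.card (MonoidHom.transferSylow P hNC).ker).factorization p' := by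
            rw [← hKcard, Nat.factorization_mul Nat.card_pos.ne' (pow_ne_zero k hp.ne_zero),
              Nat.Prime.factorization_pow hp]
            simp [Ne.symm hp'p]
          have hScard : Nat.card ((S : Subgroup _).map
              (MonoidHom.transferSylow P hNC).ker.subtype) = p' ^ (Nat.card G).factorization p' := by
            rw [Subgroup.card_subtype, hfac]
            exact S.card_eq_multiplicity
          have h5 := h p' hp' (hp'K.trans hKdvd) ⟨q', hq'1, hq'2.trans hKdvd, hq'3⟩
            (Sylow.ofCard _ hScard)
          have h6 : IsMulCommutative ↥((S : Subgroup _).map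
              (MonoidHom.transferSylow P hNC).ker.subtype) ∧ Group.rank ↥((S : Subgroup _).map
              (MonoidHom.transferSylow P hNC).ker.subtype) ≤ 2 := h5
          obtain ⟨h7, h8⟩ := h6
          refine ⟨⟨⟨fun a b => ?_⟩⟩, ?_⟩
          · have h9 := mul_comm' (⟨(a : (MonoidHom.transferSylow P hNC).ker), ⟨a, a.2, rfl⟩⟩ :
              ↥((S : Subgroup _).map (MonoidHom.transferSylow P hNC).ker.subtype))
              ⟨(b : (MonoidHom.transferSylow P hNC).ker), ⟨b, b.2, rfl⟩⟩
            have h10 : ((a : (MonoidHom.transferSylow P hNC).ker) : G) * (b : (MonoidHom.transferSylow P hNC).ker)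
                = (b : (MonoidHom.transferSylow P hNC).ker) * (a : (MonoidHom.transferSylow P hNC).ker) :=
              congrArg Subtype.val h9
            exact Subtype.ext (Subtype.ext h10)
          · have e := (S : Subgroup _).equivMapOfInjective
              (MonoidHom.transferSylow P hNC).ker.subtype
              (MonoidHom.transferSylow P hNC).ker.subtype_injective
            exact (Group.rank_le_of_surjective e.symm.toMonoidHom e.symm.surjective).trans h8
        · exact fun h3 => h12 (h3.trans hKdvd)
      haveI : Group.IsNilpotent (P : Subgroup G) := P.isPGroup'.isNilpotent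
      exact Group.isSolvable_of_ker_le_range (MonoidHom.transferSylow P hNC).ker.subtype
        (MonoidHom.transferSylow P hNC) (by rw [Subgroup.range_subtype])
    · -- G is a p-group
      have hGp : IsPGroup p G := by
        rw [IsPGroup.iff_card]
        have h2 : ∀ q : ℕ, q.Prime → q ∣ Nat.card G → q = p := by
          intro q hq1 hq2
          by_contra hne
          apply hq
          exact ⟨q, hq1, hq2, lt_of_le_of_ne (hpmin q hq1 hq2) (Ne.symm hne)⟩
        exact ⟨_,
          Nat.eq_prime_pow_of_unique_prime_dvd Nat.card_pos.ne' (fun {q} hq1 hq2 => h2 q hq1 hq2)⟩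
      haveI : Group.IsNilpotent G := hGp.isNilpotent
      infer_instance

end Cfsg.Agent.Lib.Helper22
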