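import Mathlib
import Cfsg.Prelude.Def_KGroupFacts
import Cfsg.Agent.Lib.Helper22.Pullback

set_option autoImplicit false

namespace Cfsg.Agent.Lib.Helper22

open scoped commutatorElement

universe u v w

/-- Evaluating a product of powers of the standard generators of a product of cyclic groups. -/
theorem prod_mulSingle_zpow_apply {ι : Type} [Fintype ι] [DecidableEq ι] (n : ι → ℕ) (k : ι → ℤ) (j : ι) :
    (∏ i, (Pi.mulSingle i (Multiplicative.ofAdd (1 : ZMod (n i))) :
      (i : ι) → Multiplicative (ZMod (n i))) ^ k i) j = Multiplicative.ofAdd ((k j : ℤ) : ZMod (n j)) := by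
  have h1 : (∏ i, (Pi.mulSingle i (Multiplicative.ofAdd (1 : ZMod (n i))) :
      (i : ι) → Multiplicative (ZMod (n i))) ^ k i) j =
      ∏ i, ((Pi.mulSingle i (Multiplicative.ofAdd (1 : ZMod (n i))) :
      (i : ι) → Multiplicative (ZMod (n i))) j) ^ k i := by
    rw [Finset.prod_apply]
    rfl
  rw [h1, Finset.prod_eq_single j]
  · rw [Pi.mulSingle_eq_same, ← ofAdd_zsmul, zsmul_one]
  · intro i _ hij
    rw [Pi.mulSingle_eq_of_ne (Ne.symm hij), one_zpow]
  · intro h
    exact absurd (Finset.mem_univ j) h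

/-- A finite abelian group has a basis: elements `b i` of orders dividing `n i > 0` such that every element is
a product of powers of the `b i`, and such a product is trivial only if each exponent is divisible by `n i`. -/
theorem exists_zbasis (B : Type*) [CommGroup B] [Finite B] :
    ∃ (ι : Type) (_ : Fintype ι) (n : ι → ℕ) (b : ι → B), (∀ i, 0 < n i) ∧
      (∀ x : B, ∃ k : ι → ℤ, x = ∏ i, b i ^ k i) ∧
      (∀ k : ι → ℤ, ∏ i, b i ^ k i = 1 → ∀ i, (n i : ℤ) ∣ k i) ∧ (∀ i, b i ^ n i = 1) := by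
  classical
  obtain ⟨ι, inst, n, hn, ⟨φ⟩⟩ := CommGroup.equiv_prod_multiplicative_zmod_of_finite B
  refine ⟨ι, inst, n, fun i => φ.symm (Pi.mulSingle i (Multiplicative.ofAdd 1)),
    fun i => by have := hn i; omega, ?_, ?_, ?_⟩
  · intro x
    refine ⟨fun i => ((ZMod.cast (Multiplicative.toAdd (φ x i)) : ℤ)), ?_⟩
    apply φ.injective
    rw [map_prod]
    simp only [map_zpow, MulEquiv.apply_symm_apply]
    funext j
    rw [prod_mulSingle_zpow_apply]
    haveI : NeZero (n j) := ⟨by have := hn j; omega⟩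
    rw [ZMod.intCast_cast, ZMod.cast_id', id, ofAdd_toAdd]
  · intro k hk i
    have h2 := congrArg φ hk
    rw [map_prod, map_one] at h2
    simp only [map_zpow, MulEquiv.apply_symm_apply] at h2
    have h3 := congrFun h2 i
    rw [prod_mulSingle_zpow_apply] at h3
    have h4 : ((k i : ℤ) : ZMod (n i)) = 0 := h3
    exact (ZMod.intCast_zmod_eq_zero_iff_dvd (k i) (n i)).mp h4
  · intro i
    have h0 : (Multiplicative.ofAdd (1 : ZMod (n i))) ^ n i = 1 := by
      rw [← ofAdd_nsmul, nsmul_one, ZMod.natCast_self]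
      rfl
    have h1 : φ (φ.symm (Pi.mulSingle i (Multiplicative.ofAdd (1 : ZMod (n i)))) ^ n i) = 1 := by
      rw [map_pow, MulEquiv.apply_symm_apply, ← Pi.mulSingle_pow, h0, Pi.mulSingle_one]
    apply φ.injective
    rw [h1, map_one]

/-- The homomorphism from a free abelian group of finite rank to a commutative group with prescribed values
on the generators. -/
noncomputable def zpowProdHom {ι : Type} [Fintype ι] {A : Type*} [CommGroup A] (a : ι → A) :
    Multiplicative (ι → ℤ) →* A where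
  toFun k := ∏ i, a i ^ (Multiplicative.toAdd k i)
  map_one' := by simp
  map_mul' x y := by simp [zpow_add, Finset.prod_mul_distrib]

theorem zpowProdHom_apply {ι : Type} [Fintype ι] {A : Type*} [CommGroup A] (a : ι → A)
    (k : Multiplicative (ι → ℤ)) : zpowProdHom a k = ∏ i, a i ^ (Multiplicative.toAdd k i) := rfl

theorem comp_zpowProdHom {ι : Type} [Fintype ι] {A A' : Type*} [CommGroup A] [CommGroup A']
    (f : A →* A') (a : ι → A) : f.comp (zpowProdHom a) = zpowProdHom (fun i => f (a i)) := by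
  refine MonoidHom.ext fun k => ?_
  rw [MonoidHom.comp_apply, zpowProdHom_apply, zpowProdHom_apply, map_prod]
  simp only [map_zpow]

/-- Scaling the coordinates of a free abelian group. -/
def zscale {ι : Type} (n : ι → ℕ) : Multiplicative (ι → ℤ) →* Multiplicative (ι → ℤ) where
  toFun k := Multiplicative.ofAdd (fun i => (n i : ℤ) * Multiplicative.toAdd k i)
  map_one' := by
    apply congrArg Multiplicative.ofAdd
    funext i
    simp
  map_mul' x y := by
    apply congrArg Multiplicative.ofAdd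
    funext i
    simp [mul_add]

theorem zscale_apply {ι : Type} (n : ι → ℕ) (k : Multiplicative (ι → ℤ)) (i : ι) :
    Multiplicative.toAdd (zscale n k) i = (n i : ℤ) * Multiplicative.toAdd k i := rfl

theorem zpowProdHom_comp_zscale {ι : Type} [Fintype ι] {A : Type*} [CommGroup A] (a : ι → A) (n : ι → ℕ) :
    (zpowProdHom a).comp (zscale n) = zpowProdHom (fun i => a i ^ n i) := by
  refine MonoidHom.ext fun k => ?_
  rw [MonoidHom.comp_apply, zpowProdHom_apply, zpowProdHom_apply]
  apply Finset.prod_congr rfl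
  intro i _
  rw [zscale_apply, zpow_mul, zpow_natCast]

/-- A group with a homomorphism to a finite group with finite kernel is finite. -/
theorem finite_of_finite_ker {Γ G : Type*} [Group Γ] [Group G] [Finite G] (σ : Γ →* G)
    [Finite σ.ker] : Finite Γ := by
  classical
  let t : Γ → G × σ.ker := fun y =>
    (σ y, ⟨y * (Function.invFun σ (σ y))⁻¹, by
      rw [MonoidHom.mem_ker, map_mul, map_inv, Function.invFun_eq (f := σ) ⟨y, rfl⟩, mul_inv_cancel]⟩)
  apply Finite.of_injective t
  intro y y' h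
  have h1 : σ y = σ y' := congrArg Prod.fst h
  have h2 : y * (Function.invFun σ (σ y))⁻¹ = y' * (Function.invFun σ (σ y'))⁻¹ :=
    congrArg (fun z => (z.2 : Γ)) h
  rw [h1] at h2
  exact mul_right_cancel h2

/-- A finite group has a copy in any universe. -/
theorem exists_small_copy (X : Type w) [Group X] [Finite X] :
    ∃ (Y : Type u) (_ : Group Y) (_ : Finite Y), Nonempty (Y ≃* X) := by
  let e : ULift.{u} (Fin (Nat.card X)) ≃ X := Equiv.ulift.trans (Finite.equivFin X).symm
  letI : Group (ULift.{u} (Fin (Nat.card X))) := e.group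
  exact ⟨ULift.{u} (Fin (Nat.card X)), e.group, inferInstance, ⟨e.mulEquiv⟩⟩

/-- Transporting a stem extension along an isomorphism of the extension group. -/
theorem stem_transport {Γ₀ : Type w} {Γ : Type v} {G : Type u} [Group Γ₀] [Group Γ] [Group G]
    (σ₀ : Γ₀ →* G) (hσ₀ : Cfsg.IsStemExtension σ₀) (f : Γ ≃* Γ₀) :
    Cfsg.IsStemExtension (σ₀.comp f.toMonoidHom) ∧ Nonempty ((σ₀.comp f.toMonoidHom).ker ≃* σ₀.ker) := by
  have hker : ∀ y : Γ, y ∈ (σ₀.comp f.toMonoidHom).ker ↔ f y ∈ σ₀.ker := fun y => Iff.rfl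
  refine ⟨⟨hσ₀.1.comp f.surjective, ?_, ?_⟩, ?_⟩
  · intro y hy
    have h1 := hσ₀.2.1 ((hker y).mp hy)
    rw [Subgroup.mem_center_iff] at h1 ⊢
    intro z
    apply f.injective
    rw [map_mul, map_mul]
    exact h1 (f z)
  · intro y hy
    have h1 := hσ₀.2.2 ((hker y).mp hy)
    have h2 : (commutator Γ).map f.toMonoidHom = commutator Γ₀ := by
      rw [commutator_def, Subgroup.map_commutator,
        Subgroup.map_top_of_surjective f.toMonoidHom f.surjective, ← commutator_def]
    rw [← h2] at h1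
    obtain ⟨y', hy', hyy⟩ := h1
    have : y' = y := f.injective hyy
    rw [← this]
    exact hy'
  · let g : (σ₀.comp f.toMonoidHom).ker →* σ₀.ker :=
      (f.toMonoidHom.comp (σ₀.comp f.toMonoidHom).ker.subtype).codRestrict σ₀.ker
        (fun y => (hker y.1).mp y.2)
    have hg : ∀ y, (g y : Γ₀) = f (y : Γ) := fun y => rfl
    refine ⟨MulEquiv.ofBijective g ⟨?_, ?_⟩⟩
    · intro y y' h
      have h1 : f (y : Γ) = f (y' : Γ) := by rw [← hg, ← hg, h]
      exact Subtype.ext (f.injective h1)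
    · rintro ⟨z, hz⟩
      obtain ⟨y, rfl⟩ := f.surjective z
      exact ⟨⟨y, (hker y).mpr hz⟩, rfl⟩

/-- Stem-ification (P. Hall): a central extension `π : E → G` of finite groups gives rise to a stem extension
of `G` whose kernel is isomorphic to `ker π ∩ E'`. -/
theorem exists_stem_of_central_aux {E : Type w} {G : Type u} [Group E] [Finite E] [Group G]
    (π : E →* G) (hπ : Function.Surjective π) (hc : π.ker ≤ Subgroup.center E) :
    ∃ (Γ : Type w) (_ : Group Γ) (_ : Finite Γ) (σ : Γ →* G), Cfsg.IsStemExtension σ ∧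
      Nonempty (σ.ker ≃* ↥(π.ker ⊓ commutator E)) := by
  classical
  haveI : Finite G := Finite.of_surjective π hπ
  obtain ⟨ι, _, n, b, hn, hgen, hrel, hbn⟩ := exists_zbasis (Abelianization G)
  let Z := Multiplicative (ι → ℤ)
  let ofE : E →* Abelianization E := Abelianization.of
  let ofG : G →* Abelianization G := Abelianization.of
  let ψ' : Abelianization E →* Abelianization G := Abelianization.map π
  have hψ' : ∀ x : E, ψ' (ofE x) = ofG (π x) := fun x => Abelianization.map_of π x
  have hofE_ker : ∀ x : E, ofE x = 1 ↔ x ∈ commutator E := by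
    intro x
    rw [← MonoidHom.mem_ker, Abelianization.ker_of]
  have hofG_ker : ∀ g : G, ofG g = 1 ↔ g ∈ commutator G := by
    intro g
    rw [← MonoidHom.mem_ker, Abelianization.ker_of]
  have hcomm_map : ∀ g : G, g ∈ commutator G → ∃ w ∈ commutator E, π w = g := by
    intro g hg
    have h1 : (commutator E).map π = commutator G := by
      rw [commutator_def, Subgroup.map_commutator, Subgroup.map_top_of_surjective π hπ, ← commutator_def]
    rw [← h1] at hg
    exact hg
  have hofGs : Function.Surjective ofG := QuotientGroup.mk_surjective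
  have hofEs : Function.Surjective ofE := QuotientGroup.mk_surjective
  have hex : ∀ i, ∃ x : E, ofG (π x) = b i := by
    intro i
    obtain ⟨g, hg⟩ := hofGs (b i)
    obtain ⟨x, rfl⟩ := hπ g
    exact ⟨x, hg⟩
  choose e heb using hex
  let μ : Z →* Abelianization E := zpowProdHom (fun i => ofE (e i))
  have hψμ : ψ'.comp μ = zpowProdHom b := by
    rw [comp_zpowProdHom]
    congr 1
    funext i
    rw [hψ', heb]
  have hcw : ∀ i, ∃ c ∈ π.ker, ofE c = ofE (e i) ^ n i := by
    intro i
    have h1 : ofG (π (e i ^ n i)) = 1 := by rw [map_pow, map_pow, heb, hbn]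
    obtain ⟨w, hw, hwe⟩ := hcomm_map _ ((hofG_ker _).mp h1)
    refine ⟨e i ^ n i * w⁻¹, ?_, ?_⟩
    · rw [MonoidHom.mem_ker, map_mul, map_inv, hwe, mul_inv_cancel]
    · rw [map_mul, map_inv, (hofE_ker w).mpr hw, inv_one, mul_one, map_pow]
  choose c hcker hcof using hcw
  letI icomm : CommGroup (Subgroup.center E) :=
    { (Subgroup.center E).toGroup with
      mul_comm := fun a b => Subtype.ext (Subgroup.mem_center_iff.mp b.2 a.1) }
  let γ : Z →* Subgroup.center E :=
    zpowProdHom (A := ↥(Subgroup.center E)) (fun i => (⟨c i, hc (hcker i)⟩ : Subgroup.center E))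
  have hγker : ∀ j : Z, (γ j : E) ∈ π.ker := by
    intro j
    have h1 : γ j ∈ (π.ker).subgroupOf (Subgroup.center E) := by
      rw [zpowProdHom_apply]
      apply Subgroup.prod_mem
      intro i _
      apply Subgroup.zpow_mem
      exact Subgroup.mem_subgroupOf.mpr (hcker i)
    exact Subgroup.mem_subgroupOf.mp h1
  have hγof : ∀ j : Z, ofE (γ j : E) = μ (zscale n j) := by
    intro j
    have h1 : (ofE.comp (Subgroup.center E).subtype).comp γ = μ.comp (zscale n) := by
      rw [comp_zpowProdHom, zpowProdHom_comp_zscale]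
      congr 1
      funext i
      exact hcof i
    exact DFunLike.congr_fun h1 j
  let ν : Z →* E × Z := (((Subgroup.center E).subtype).comp γ).prod (zscale n)
  let S : Subgroup (E × Z) := (ofE.comp (MonoidHom.fst E Z)).eqLocus (μ.comp (MonoidHom.snd E Z))
  have hS : ∀ y : E × Z, y ∈ S ↔ ofE y.1 = μ y.2 := fun y => Iff.rfl
  let N : Subgroup (E × Z) := ν.range
  have hNS : N ≤ S := by
    rintro _ ⟨j, rfl⟩
    exact (hS _).mpr (hγof j)
  have hNc : ∀ y ∈ N, ∀ z : E × Z, z * y = y * z := by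
    rintro _ ⟨j, rfl⟩ z
    apply Prod.ext
    · exact Subgroup.mem_center_iff.mp (γ j).2 z.1
    · exact mul_comm _ _
  haveI hNn : (N.subgroupOf S).Normal := by
    constructor
    intro y hy z
    rw [Subgroup.mem_subgroupOf] at hy ⊢
    have h1 : ((z * y * z⁻¹ : S) : E × Z) = (y : E × Z) := by
      show (z : E × Z) * y * (z : E × Z)⁻¹ = y
      rw [hNc _ hy, mul_inv_cancel_right]
    rw [h1]; exact hy
  let Γ := S ⧸ N.subgroupOf S
  let σ₀ : S →* G := π.comp ((MonoidHom.fst E Z).comp S.subtype)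
  have hσ₀ : ∀ s : S, σ₀ s = π s.1.1 := fun s => rfl
  have hNσ : N.subgroupOf S ≤ σ₀.ker := by
    intro s hs
    rw [Subgroup.mem_subgroupOf] at hs
    obtain ⟨j, hj⟩ := hs
    rw [MonoidHom.mem_ker, hσ₀, ← hj]
    exact hγker j
  let σ : Γ →* G := QuotientGroup.lift _ σ₀ hNσ
  have hσmk : ∀ s : S, σ (QuotientGroup.mk s) = π s.1.1 := fun s => rfl
  have hlift : ∀ x : E, ∃ s : S, π s.1.1 = π x := by
    intro x
    obtain ⟨k, hk⟩ := hgen (ofG (π x))
    obtain ⟨y₀, hy₀⟩ : ∃ y₀ : E, ofE y₀ = μ (Multiplicative.ofAdd k) := hofEs _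
    have h1 : ofG (π y₀) = ofG (π x) := by
      rw [← hψ', hy₀, ← MonoidHom.comp_apply, hψμ, zpowProdHom_apply, hk]
      rfl
    have h2 : ofG (π (x * y₀⁻¹)) = 1 := by rw [map_mul, map_mul, map_inv, map_inv, h1, mul_inv_cancel]
    obtain ⟨w, hw, hwe⟩ := hcomm_map _ ((hofG_ker _).mp h2)
    refine ⟨⟨(w * y₀, Multiplicative.ofAdd k), ?_⟩, ?_⟩
    · rw [hS]
      show ofE (w * y₀) = μ (Multiplicative.ofAdd k)
      rw [map_mul, (hofE_ker w).mpr hw, one_mul, hy₀]
    · show π (w * y₀) = π x
      rw [map_mul, hwe, map_mul, map_inv, inv_mul_cancel_right]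
  have hσs : Function.Surjective σ := by
    intro g
    obtain ⟨x, rfl⟩ := hπ g
    obtain ⟨s, hs⟩ := hlift x
    exact ⟨QuotientGroup.mk s, by rw [hσmk, hs]⟩
  let D : Subgroup E := π.ker ⊓ commutator E
  have hDS : ∀ d : D, (MonoidHom.inl E Z).comp D.subtype d ∈ S := by
    intro d
    rw [hS]
    show ofE (d : E) = μ 1
    rw [map_one, (hofE_ker _).mpr d.2.2]
  let ιD : D →* S := ((MonoidHom.inl E Z).comp D.subtype).codRestrict S hDS
  have hιD : ∀ d : D, (ιD d : E × Z) = ((d : E), (1 : Z)) := fun d => rfl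
  let δ : D →* Γ := (QuotientGroup.mk' (N.subgroupOf S)).comp ιD
  have hδ : ∀ d : D, δ d = QuotientGroup.mk (ιD d) := fun d => rfl
  have hδinj : Function.Injective δ := by
    rw [injective_iff_map_eq_one]
    intro d hd
    rw [hδ, QuotientGroup.eq_one_iff, Subgroup.mem_subgroupOf, hιD] at hd
    obtain ⟨j, hj⟩ := hd
    have h1 : zscale n j = 1 := congrArg Prod.snd hj
    have h2 : j = 1 := by
      apply congrArg Multiplicative.ofAdd (a₁ := Multiplicative.toAdd j) (a₂ := 0)
      funext i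
      have h3 : Multiplicative.toAdd (zscale n j) i = 0 := by rw [h1]; rfl
      rw [zscale_apply] at h3
      have h4 : (n i : ℤ) ≠ 0 := by have := hn i; positivity
      exact (mul_eq_zero.mp h3).resolve_left h4
    have h5 : (γ j : E) = (d : E) := congrArg Prod.fst hj
    rw [h2, map_one] at h5
    exact Subtype.ext h5.symm
  have hδker : ∀ y : Γ, σ y = 1 → ∃ d : D, δ d = y := by
    intro y hy
    obtain ⟨s, rfl⟩ := QuotientGroup.mk_surjective y
    rw [hσmk] at hy
    have hsS := (hS s.1).mp s.2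
    have h1 : ∏ i, b i ^ (Multiplicative.toAdd s.1.2 i) = 1 := by
      rw [← zpowProdHom_apply, ← hψμ, MonoidHom.comp_apply, ← hsS, hψ', hy, map_one]
    have h2 := hrel _ h1
    choose j hj using h2
    have h3 : zscale n (Multiplicative.ofAdd j) = s.1.2 := by
      apply congrArg Multiplicative.ofAdd (a₂ := Multiplicative.toAdd s.1.2)
      funext i
      exact (hj i).symm
    let d₀ : E := s.1.1 * (γ (Multiplicative.ofAdd j) : E)⁻¹
    have hd₀ : d₀ ∈ D := by
      refine ⟨?_, ?_⟩
      · exact Subgroup.mul_mem _ hy (Subgroup.inv_mem _ (hγker _))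
      · apply (hofE_ker _).mp
        show ofE (s.1.1 * (γ (Multiplicative.ofAdd j) : E)⁻¹) = 1
        rw [map_mul, map_inv, hγof, h3, hsS, mul_inv_cancel]
    refine ⟨⟨d₀, hd₀⟩, ?_⟩
    rw [hδ]
    apply (QuotientGroup.eq).mpr
    rw [Subgroup.mem_subgroupOf]
    refine ⟨Multiplicative.ofAdd j, ?_⟩
    show ((γ (Multiplicative.ofAdd j) : E), zscale n (Multiplicative.ofAdd j)) =
      ((ιD ⟨d₀, hd₀⟩)⁻¹ * s : S).1
    apply Prod.ext
    · show (γ (Multiplicative.ofAdd j) : E) = (s.1.1 * (γ (Multiplicative.ofAdd j) : E)⁻¹)⁻¹ * s.1.1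
      group
    · show zscale n (Multiplicative.ofAdd j) = (1 : Z)⁻¹ * s.1.2
      rw [h3, inv_one, one_mul]
  have hδσ : ∀ d : D, σ (δ d) = 1 := by
    intro d
    rw [hδ, hσmk, hιD]
    exact d.2.1
  let δ' : D →* σ.ker := δ.codRestrict σ.ker (fun d => MonoidHom.mem_ker.mpr (hδσ d))
  have hδ'bij : Function.Bijective δ' := by
    constructor
    · intro d d' h
      exact hδinj (congrArg Subtype.val h)
    · rintro ⟨y, hy⟩
      obtain ⟨d, hd⟩ := hδker y (MonoidHom.mem_ker.mp hy)
      exact ⟨d, Subtype.ext hd⟩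
  let eqv : D ≃* σ.ker := MulEquiv.ofBijective δ' hδ'bij
  haveI : Finite σ.ker := Finite.of_equiv D eqv.toEquiv
  haveI : Finite Γ := finite_of_finite_ker σ
  have hcen : σ.ker ≤ Subgroup.center Γ := by
    intro y hy
    obtain ⟨d, rfl⟩ := hδker y (MonoidHom.mem_ker.mp hy)
    rw [Subgroup.mem_center_iff]
    intro z
    obtain ⟨s, rfl⟩ := QuotientGroup.mk_surjective z
    rw [hδ]
    show (QuotientGroup.mk (s * ιD d) : Γ) = QuotientGroup.mk (ιD d * s)
    congr 1
    apply Subtype.ext
    apply Prod.ext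
    · show s.1.1 * (d : E) = (d : E) * s.1.1
      exact Subgroup.mem_center_iff.mp (hc d.2.1) s.1.1
    · show s.1.2 * 1 = 1 * s.1.2
      rw [mul_one, one_mul]
  have hcomS : ∀ w ∈ commutator E, ∃ s : S, s ∈ commutator S ∧ (s : E × Z) = (w, 1) := by
    intro w hw
    rw [commutator_eq_closure] at hw
    induction hw using Subgroup.closure_induction with
    | mem w hw =>
      obtain ⟨x, y, rfl⟩ := hw
      obtain ⟨sx, hsx⟩ := hlift x
      obtain ⟨sy, hsy⟩ := hlift y
      refine ⟨⁅sx, sy⁆, ?_, ?_⟩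
      · rw [commutator_def]
        exact Subgroup.commutator_mem_commutator (Subgroup.mem_top _) (Subgroup.mem_top _)
      · apply Prod.ext
        · show ⁅sx.1.1, sy.1.1⁆ = ⁅x, y⁆
          apply commutator_eq_of_central
          · apply hc
            rw [MonoidHom.mem_ker, map_mul, map_inv, hsx, mul_inv_cancel]
          · apply hc
            rw [MonoidHom.mem_ker, map_mul, map_inv, hsy, mul_inv_cancel]
        · show ⁅sx.1.2, sy.1.2⁆ = 1
          rw [commutatorElement_def, mul_comm sx.1.2 sy.1.2, mul_inv_cancel_right, mul_inv_cancel]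
    | one => exact ⟨1, Subgroup.one_mem _, rfl⟩
    | mul a b _ _ iha ihb =>
      obtain ⟨sa, hsa, hsa'⟩ := iha
      obtain ⟨sb, hsb, hsb'⟩ := ihb
      refine ⟨sa * sb, Subgroup.mul_mem _ hsa hsb, ?_⟩
      show (sa : E × Z) * (sb : E × Z) = (a * b, 1)
      rw [hsa', hsb']
      apply Prod.ext
      · rfl
      · exact mul_one _
    | inv a _ iha =>
      obtain ⟨sa, hsa, hsa'⟩ := iha
      refine ⟨sa⁻¹, Subgroup.inv_mem _ hsa, ?_⟩
      show (sa : E × Z)⁻¹ = (a⁻¹, 1)
      rw [hsa']
      apply Prod.ext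
      · rfl
      · exact inv_one
  have hstem : σ.ker ≤ commutator Γ := by
    intro y hy
    obtain ⟨d, rfl⟩ := hδker y (MonoidHom.mem_ker.mp hy)
    obtain ⟨s, hs, hs'⟩ := hcomS (d : E) d.2.2
    have h1 : ιD d = s := Subtype.ext (by rw [hιD, hs'])
    rw [hδ, h1]
    have h2 : (commutator S).map (QuotientGroup.mk' (N.subgroupOf S)) ≤ commutator Γ := by
      rw [commutator_def, Subgroup.map_commutator, commutator_def]
      exact Subgroup.commutator_mono le_top le_top
    exact h2 (Subgroup.mem_map_of_mem _ hs)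
  exact ⟨Γ, inferInstance, inferInstance, σ, ⟨hσs, hcen, hstem⟩, ⟨eqv.symm⟩⟩

/-- Stem-ification, with the stem extension in the universe of the quotient group. -/
theorem exists_stem_of_central {E : Type w} {G : Type u} [Group E] [Finite E] [Group G]
    (π : E →* G) (hπ : Function.Surjective π) (hc : π.ker ≤ Subgroup.center E) :
    ∃ (Γ : Type u) (_ : Group Γ) (_ : Finite Γ) (σ : Γ →* G), Cfsg.IsStemExtension σ ∧
      Nonempty (σ.ker ≃* ↥(π.ker ⊓ commutator E)) := by
  obtain ⟨Γ₀, _, _, σ₀, hσ₀, ⟨e₀⟩⟩ := exists_stem_of_central_aux π hπ hc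
  obtain ⟨Γ, _, _, ⟨f⟩⟩ := exists_small_copy.{u, w} Γ₀
  obtain ⟨h1, ⟨e₁⟩⟩ := stem_transport σ₀ hσ₀ f
  exact ⟨Γ, inferInstance, inferInstance, σ₀.comp f.toMonoidHom, h1, ⟨e₁.trans e₀⟩⟩

/-- If `A` is the Schur multiplier of `G`, then for every finite central extension `π : E → G` the group
`ker π ∩ E'` is a homomorphic image of `A`. -/
theorem exists_surjective_of_central {E : Type w} {G : Type u} [Group E] [Finite E] [Group G]
    {A : Type v} [CommGroup A] (hA : Cfsg.HasSchurMultiplier G A)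
    (π : E →* G) (hπ : Function.Surjective π) (hc : π.ker ≤ Subgroup.center E) :
    ∃ f : A →* ↥(π.ker ⊓ commutator E), Function.Surjective f := by
  obtain ⟨Γ, _, _, σ, hσ, ⟨e⟩⟩ := exists_stem_of_central π hπ hc
  obtain ⟨g, hg⟩ := hA.2 Γ σ hσ
  exact ⟨e.toMonoidHom.comp g, e.surjective.comp hg⟩

end Cfsg.Agent.Lib.Helper22
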