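import Mathlib
import Cfsg.Prelude.Def_KGroupFacts
import Cfsg.Agent.Lib.Helper22.StemOfCentral

set_option autoImplicit false

namespace Cfsg.Agent.Lib.Helper22

open scoped commutatorElement

universe u v w

/-- If the commutator quotient of `Q` has order prime to the order of the Schur multiplier, any two
Schur covers of `Q` are isomorphic over `Q`. -/
theorem exists_iso_over_of_coprime {Q : Type u} [Group Q] [Finite Q] {A : Type v} [CommGroup A]
    (hA : Cfsg.HasSchurMultiplier Q A)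
    (hcop : Nat.Coprime (Nat.card (Abelianization Q)) (Nat.card A))
    {Γ₁ Γ₂ : Type u} [Group Γ₁] [Finite Γ₁] [Group Γ₂] [Finite Γ₂] (σ₁ : Γ₁ →* Q) (σ₂ : Γ₂ →* Q)
    (hσ₁ : Cfsg.IsStemExtension σ₁) (hσ₂ : Cfsg.IsStemExtension σ₂)
    (hk₁ : Nonempty (σ₁.ker ≃* A)) (hk₂ : Nonempty (σ₂.ker ≃* A)) :
    ∃ e : Γ₁ ≃* Γ₂, σ₂.comp e.toMonoidHom = σ₁ := by
  classical
  obtain ⟨e₁⟩ := hk₁
  obtain ⟨e₂⟩ := hk₂
  haveI : Finite A := Finite.of_equiv _ e₁.toEquiv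
  let P : Subgroup (Γ₁ × Γ₂) :=
    (σ₁.comp (MonoidHom.fst Γ₁ Γ₂)).eqLocus (σ₂.comp (MonoidHom.snd Γ₁ Γ₂))
  have hP : ∀ y : Γ₁ × Γ₂, y ∈ P ↔ σ₁ y.1 = σ₂ y.2 := fun y => Iff.rfl
  let p₁ : P →* Γ₁ := (MonoidHom.fst Γ₁ Γ₂).comp P.subtype
  let p₂ : P →* Γ₂ := (MonoidHom.snd Γ₁ Γ₂).comp P.subtype
  have hp₁s : Function.Surjective p₁ := by
    intro g
    obtain ⟨x, hx⟩ := hσ₂.1 (σ₁ g)
    exact ⟨⟨(g, x), (hP _).mpr hx.symm⟩, rfl⟩
  have hp₂s : Function.Surjective p₂ := by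
    intro g
    obtain ⟨x, hx⟩ := hσ₁.1 (σ₂ g)
    exact ⟨⟨(x, g), (hP _).mpr hx⟩, rfl⟩
  let φ : P →* Q := σ₁.comp p₁
  have hφ₁ : ∀ x : P, φ x = σ₁ (p₁ x) := fun x => rfl
  have hφ₂ : ∀ x : P, φ x = σ₂ (p₂ x) := fun x => (hP x.1).mp x.2
  have hφs : Function.Surjective φ := hσ₁.1.comp hp₁s
  have hφc : φ.ker ≤ Subgroup.center P := by
    intro y hy
    have h1 : σ₁ (p₁ y) = 1 := hy
    have h2 : σ₂ (p₂ y) = 1 := by
      rw [← hφ₂]
      exact hy
    have h3 : p₁ y ∈ Subgroup.center Γ₁ := hσ₁.2.1 h1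
    have h4 : p₂ y ∈ Subgroup.center Γ₂ := hσ₂.2.1 h2
    rw [Subgroup.mem_center_iff]
    intro z
    apply Subtype.ext
    apply Prod.ext
    · exact Subgroup.mem_center_iff.mp h3 z.1.1
    · exact Subgroup.mem_center_iff.mp h4 z.1.2
  obtain ⟨f, hf⟩ := exists_surjective_of_central hA φ hφs hφc
  have hc₁ : (commutator P).map p₁ = commutator Γ₁ := by
    rw [commutator_def, Subgroup.map_commutator, Subgroup.map_top_of_surjective p₁ hp₁s,
      ← commutator_def]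
  have hc₂ : (commutator P).map p₂ = commutator Γ₂ := by
    rw [commutator_def, Subgroup.map_commutator, Subgroup.map_top_of_surjective p₂ hp₂s,
      ← commutator_def]
  let r₁ : ↥(φ.ker ⊓ commutator P) → σ₁.ker := fun d => ⟨p₁ d.1, d.2.1⟩
  let r₂ : ↥(φ.ker ⊓ commutator P) → σ₂.ker := fun d => ⟨p₂ d.1, by
    rw [MonoidHom.mem_ker, ← hφ₂]
    exact d.2.1⟩
  have hr₁ : Function.Surjective r₁ := by
    intro k
    have h1 : (k : Γ₁) ∈ (commutator P).map p₁ := by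
      rw [hc₁]
      exact hσ₁.2.2 k.2
    obtain ⟨w, hw, hwk⟩ := h1
    have h2 : w ∈ φ.ker := by
      rw [MonoidHom.mem_ker, hφ₁, hwk]
      exact k.2
    exact ⟨⟨w, h2, hw⟩, Subtype.ext hwk⟩
  have hr₂ : Function.Surjective r₂ := by
    intro k
    have h1 : (k : Γ₂) ∈ (commutator P).map p₂ := by
      rw [hc₂]
      exact hσ₂.2.2 k.2
    obtain ⟨w, hw, hwk⟩ := h1
    have h2 : w ∈ φ.ker := by
      rw [MonoidHom.mem_ker, hφ₂, hwk]
      exact k.2
    exact ⟨⟨w, h2, hw⟩, Subtype.ext hwk⟩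
  have hcard₁ : Nat.card ↥(φ.ker ⊓ commutator P) ≤ Nat.card σ₁.ker := by
    calc Nat.card ↥(φ.ker ⊓ commutator P) ≤ Nat.card A := Nat.card_le_card_of_surjective f hf
      _ = Nat.card σ₁.ker := (Nat.card_congr e₁.toEquiv).symm
  have hcard₂ : Nat.card ↥(φ.ker ⊓ commutator P) ≤ Nat.card σ₂.ker := by
    calc Nat.card ↥(φ.ker ⊓ commutator P) ≤ Nat.card A := Nat.card_le_card_of_surjective f hf
      _ = Nat.card σ₂.ker := (Nat.card_congr e₂.toEquiv).symm
  have hrb₁ : Function.Bijective r₁ := hr₁.bijective_of_nat_card_le hcard₁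
  have hrb₂ : Function.Bijective r₂ := hr₂.bijective_of_nat_card_le hcard₂
  have hI₁ : ∀ y : P, y ∈ φ.ker → y ∈ commutator P → p₁ y = 1 → y = 1 := by
    intro y h1 h2 h3
    have h4 : r₁ ⟨y, h1, h2⟩ = r₁ ⟨1, one_mem _⟩ := by
      apply Subtype.ext
      show p₁ y = p₁ 1
      rw [h3, map_one]
    exact congrArg Subtype.val (hrb₁.1 h4)
  have hI₂ : ∀ y : P, y ∈ φ.ker → y ∈ commutator P → p₂ y = 1 → y = 1 := by
    intro y h1 h2 h3
    have h4 : r₂ ⟨y, h1, h2⟩ = r₂ ⟨1, one_mem _⟩ := by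
      apply Subtype.ext
      show p₂ y = p₂ 1
      rw [h3, map_one]
    exact congrArg Subtype.val (hrb₂.1 h4)
  have hS₁ : ∀ k : Γ₁, σ₁ k = 1 → ∃ d : P, d ∈ commutator P ∧ p₁ d = k := by
    intro k hk
    obtain ⟨d, hd⟩ := hr₁ ⟨k, hk⟩
    exact ⟨d.1, d.2.2, congrArg Subtype.val hd⟩
  have hS₂ : ∀ k : Γ₂, σ₂ k = 1 → ∃ d : P, d ∈ commutator P ∧ p₂ d = k := by
    intro k hk
    obtain ⟨d, hd⟩ := hr₂ ⟨k, hk⟩
    exact ⟨d.1, d.2.2, congrArg Subtype.val hd⟩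
  let ab : P →* Abelianization P := Abelianization.of
  have hab : ∀ w : P, w ∈ commutator P → ab w = 1 := by
    intro w hw
    rw [← MonoidHom.mem_ker, Abelianization.ker_of]
    exact hw
  let S : Subgroup P :=
    ((powMonoidHom (Nat.card (Abelianization Q)) : Abelianization P →* Abelianization P).comp ab).ker
  have hS : ∀ x : P, x ∈ S ↔ ab x ^ Nat.card (Abelianization Q) = 1 := fun x => Iff.rfl
  have hF1 : commutator P ≤ S := by
    intro w hw
    rw [hS, hab w hw, one_pow]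
  have hF2 : ∀ x : P, x ∈ φ.ker → x ^ Nat.card A = 1 := by
    intro x hx
    have h1 : σ₁ (p₁ x) = 1 := hx
    have h2 : σ₂ (p₂ x) = 1 := by
      rw [← hφ₂]
      exact hx
    have h3 : (p₁ x) ^ Nat.card A = 1 := by
      have h5 := pow_card_eq_one' (G := σ₁.ker) (x := ⟨p₁ x, h1⟩)
      rw [Nat.card_congr e₁.toEquiv] at h5
      exact congrArg Subtype.val h5
    have h4 : (p₂ x) ^ Nat.card A = 1 := by
      have h5 := pow_card_eq_one' (G := σ₂.ker) (x := ⟨p₂ x, h2⟩)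
      rw [Nat.card_congr e₂.toEquiv] at h5
      exact congrArg Subtype.val h5
    apply Subtype.ext
    apply Prod.ext
    · exact h3
    · exact h4
  have hF3 : ∀ x : P, x ∈ S → x ∈ φ.ker → x ∈ commutator P := by
    intro x hxS hxk
    have h1 : ab x ^ Nat.card (Abelianization Q) = 1 := (hS x).mp hxS
    have h2 : ab x ^ Nat.card A = 1 := by rw [← map_pow, hF2 x hxk, map_one]
    have h3 := pow_gcd_eq_one.mpr ⟨h1, h2⟩
    have h4 : Nat.gcd (Nat.card (Abelianization Q)) (Nat.card A) = 1 := hcop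
    rw [h4, pow_one] at h3
    rw [← Abelianization.ker_of]
    exact h3
  have hcφ : (commutator P).map φ = commutator Q := by
    rw [commutator_def, Subgroup.map_commutator, Subgroup.map_top_of_surjective φ hφs,
      ← commutator_def]
  have hbez : (1 : ℤ) = (Nat.card (Abelianization Q) : ℤ) *
      Nat.gcdA (Nat.card (Abelianization Q)) (Nat.card A) +
      (Nat.card A : ℤ) * Nat.gcdB (Nat.card (Abelianization Q)) (Nat.card A) := by
    have h1 := Nat.gcd_eq_gcd_ab (Nat.card (Abelianization Q)) (Nat.card A)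
    rw [show Nat.gcd (Nat.card (Abelianization Q)) (Nat.card A) = 1 from hcop] at h1
    exact_mod_cast h1
  have hF4 : ∀ x : P, ∃ s ∈ S, ∃ k ∈ φ.ker, x = s * k := by
    intro x
    have h1 : φ (x ^ Nat.card (Abelianization Q)) ∈ commutator Q := by
      rw [← Abelianization.ker_of, MonoidHom.mem_ker, map_pow, map_pow]
      exact pow_card_eq_one'
    rw [← hcφ] at h1
    obtain ⟨c, hc, hcx⟩ := h1
    have hk₀ : x ^ Nat.card (Abelianization Q) * c⁻¹ ∈ φ.ker := by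
      rw [MonoidHom.mem_ker, map_mul, map_inv, hcx, mul_inv_cancel]
    have hk₀ab : ab (x ^ Nat.card (Abelianization Q) * c⁻¹) = ab x ^ Nat.card (Abelianization Q) := by
      rw [map_mul, map_inv, hab c hc, inv_one, mul_one, map_pow]
    generalize x ^ Nat.card (Abelianization Q) * c⁻¹ = k₀ at hk₀ hk₀ab
    have hk : k₀ ^ Nat.gcdA (Nat.card (Abelianization Q)) (Nat.card A) ∈ φ.ker := zpow_mem hk₀ _
    have h2 : k₀ ^ ((Nat.card A : ℤ) * Nat.gcdB (Nat.card (Abelianization Q)) (Nat.card A)) = 1 := by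
      rw [zpow_mul, zpow_natCast, hF2 k₀ hk₀, one_zpow]
    have h3 : (k₀ ^ Nat.gcdA (Nat.card (Abelianization Q)) (Nat.card A)) ^
        Nat.card (Abelianization Q) = k₀ := by
      have h4 : Nat.gcdA (Nat.card (Abelianization Q)) (Nat.card A) *
          (Nat.card (Abelianization Q) : ℤ) =
          1 - (Nat.card A : ℤ) * Nat.gcdB (Nat.card (Abelianization Q)) (Nat.card A) := by
        linarith [hbez]
      rw [← zpow_natCast, ← zpow_mul, h4, zpow_sub, zpow_one, h2, inv_one, mul_one]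
    refine ⟨x * (k₀ ^ Nat.gcdA (Nat.card (Abelianization Q)) (Nat.card A))⁻¹, ?_,
      k₀ ^ Nat.gcdA (Nat.card (Abelianization Q)) (Nat.card A), hk, by group⟩
    rw [hS, map_mul, map_inv, mul_pow, inv_pow, ← map_pow ab (k₀ ^ _), h3, hk₀ab, mul_inv_cancel]
  let q₁ : S →* Γ₁ := p₁.comp S.subtype
  let q₂ : S →* Γ₂ := p₂.comp S.subtype
  have hq₁ : Function.Bijective q₁ := by
    constructor
    · rw [injective_iff_map_eq_one]
      intro s hs
      have hs1 : p₁ s.1 = 1 := hs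
      have hsk : s.1 ∈ φ.ker := by
        rw [MonoidHom.mem_ker, hφ₁, hs1, map_one]
      exact Subtype.ext (hI₁ s.1 hsk (hF3 s.1 s.2 hsk) hs1)
    · intro y
      obtain ⟨x, rfl⟩ := hp₁s y
      obtain ⟨s, hs, k, hk, rfl⟩ := hF4 x
      obtain ⟨d, hd, hdk⟩ := hS₁ (p₁ k) hk
      refine ⟨⟨s * d, mul_mem hs (hF1 hd)⟩, ?_⟩
      show p₁ (s * d) = p₁ (s * k)
      rw [map_mul, map_mul, hdk]
  have hq₂ : Function.Bijective q₂ := by
    constructor
    · rw [injective_iff_map_eq_one]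
      intro s hs
      have hs1 : p₂ s.1 = 1 := hs
      have hsk : s.1 ∈ φ.ker := by
        rw [MonoidHom.mem_ker, hφ₂, hs1, map_one]
      exact Subtype.ext (hI₂ s.1 hsk (hF3 s.1 s.2 hsk) hs1)
    · intro y
      obtain ⟨x, rfl⟩ := hp₂s y
      obtain ⟨s, hs, k, hk, rfl⟩ := hF4 x
      have hk2 : σ₂ (p₂ k) = 1 := by
        rw [← hφ₂]
        exact hk
      obtain ⟨d, hd, hdk⟩ := hS₂ (p₂ k) hk2
      refine ⟨⟨s * d, mul_mem hs (hF1 hd)⟩, ?_⟩
      show p₂ (s * d) = p₂ (s * k)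
      rw [map_mul, map_mul, hdk]
  let E₁ : S ≃* Γ₁ := MulEquiv.ofBijective q₁ hq₁
  let E₂ : S ≃* Γ₂ := MulEquiv.ofBijective q₂ hq₂
  refine ⟨E₁.symm.trans E₂, ?_⟩
  apply MonoidHom.ext
  intro y
  obtain ⟨s, rfl⟩ := E₁.surjective y
  show σ₂ (E₂ (E₁.symm (E₁ s))) = σ₁ (E₁ s)
  rw [MulEquiv.symm_apply_apply]
  show σ₂ (p₂ s.1) = σ₁ (p₁ s.1)
  exact (hφ₂ s.1).symm

end Cfsg.Agent.Lib.Helper22
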