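import Mathlib

set_option autoImplicit false

namespace Cfsg.Agent.Lib.Helper22

universe u v w

/-- The abelianization of a free group of rank `n` is torsion-free. -/
theorem freeAb_pow_injective (n p : ℕ) (hp : p ≠ 0) :
    Function.Injective (powMonoidHom p :
      Abelianization (FreeGroup (Fin n)) →* Abelianization (FreeGroup (Fin n))) := by
  let E : Abelianization (FreeGroup (Fin n)) ≃* Multiplicative (Fin n →₀ ℤ) :=
    AddEquiv.toMultiplicativeRight (FreeAbelianGroup.equivFinsupp (Fin n))
  intro z z' h
  have h1 : z ^ p = z' ^ p := h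
  have h2 : E z ^ p = E z' ^ p := by rw [← map_pow, ← map_pow, h1]
  have h3 : p • Multiplicative.toAdd (E z) = p • Multiplicative.toAdd (E z') := by
    have h4 := congrArg Multiplicative.toAdd h2
    rwa [toAdd_pow, toAdd_pow] at h4
  have h4 := nsmul_right_injective hp h3
  exact E.injective (Multiplicative.toAdd.injective h4)

/-- The `p`-th powers have index `p ^ n` in the abelianization of a free group of rank `n`. -/
theorem freeAb_powRange_index (n p : ℕ) (hp : p.Prime) :
    (powMonoidHom p :
      Abelianization (FreeGroup (Fin n)) →* Abelianization (FreeGroup (Fin n))).range.index = p ^ n := by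
  haveI : NeZero p := ⟨hp.ne_zero⟩
  let E : Abelianization (FreeGroup (Fin n)) ≃* Multiplicative (Fin n →₀ ℤ) :=
    AddEquiv.toMultiplicativeRight (FreeAbelianGroup.equivFinsupp (Fin n))
  let ρ : Abelianization (FreeGroup (Fin n)) →* Multiplicative (Fin n → ZMod p) :=
    { toFun := fun z => Multiplicative.ofAdd (fun i => ((Multiplicative.toAdd (E z) i : ℤ) : ZMod p))
      map_one' := by
        rw [map_one]
        apply Multiplicative.toAdd.injective
        funext i
        show (((0 : Fin n →₀ ℤ) i : ℤ) : ZMod p) = 0
        rw [Finsupp.zero_apply, Int.cast_zero]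
      map_mul' := fun z z' => by
        rw [map_mul]
        apply Multiplicative.toAdd.injective
        funext i
        show (((Multiplicative.toAdd (E z) + Multiplicative.toAdd (E z')) i : ℤ) : ZMod p) =
          ((Multiplicative.toAdd (E z) i : ℤ) : ZMod p) + ((Multiplicative.toAdd (E z') i : ℤ) : ZMod p)
        rw [Finsupp.add_apply, Int.cast_add] }
  have hρ : ∀ z i, Multiplicative.toAdd (ρ z) i = ((Multiplicative.toAdd (E z) i : ℤ) : ZMod p) :=
    fun z i => rfl
  have hsurj : Function.Surjective ρ := by
    intro c
    refine ⟨E.symm (Multiplicative.ofAdd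
      (Finsupp.equivFunOnFinite.symm (fun i => ((Multiplicative.toAdd c i).val : ℤ)))), ?_⟩
    apply Multiplicative.toAdd.injective
    funext i
    rw [hρ, MulEquiv.apply_symm_apply, toAdd_ofAdd]
    show (((Multiplicative.toAdd c i).val : ℤ) : ZMod p) = _
    rw [Int.cast_natCast, ZMod.natCast_zmod_val]
  have hker : ρ.ker = (powMonoidHom p :
      Abelianization (FreeGroup (Fin n)) →* Abelianization (FreeGroup (Fin n))).range := by
    ext z
    rw [MonoidHom.mem_ker]
    constructor
    · intro hz
      have h1 : ∀ i, (p : ℤ) ∣ Multiplicative.toAdd (E z) i := by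
        intro i
        rw [← ZMod.intCast_zmod_eq_zero_iff_dvd, ← hρ, hz]
        rfl
      choose y hy using h1
      refine ⟨E.symm (Multiplicative.ofAdd (Finsupp.equivFunOnFinite.symm y)), ?_⟩
      apply E.injective
      show E ((E.symm (Multiplicative.ofAdd (Finsupp.equivFunOnFinite.symm y))) ^ p) = E z
      rw [map_pow, MulEquiv.apply_symm_apply]
      apply Multiplicative.toAdd.injective
      rw [toAdd_pow, toAdd_ofAdd]
      ext i
      rw [Finsupp.smul_apply, hy i]
      show p • y i = (p : ℤ) * y i
      rw [nsmul_eq_mul]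
    · rintro ⟨w, rfl⟩
      apply Multiplicative.toAdd.injective
      funext i
      rw [hρ]
      show ((Multiplicative.toAdd (E (w ^ p)) i : ℤ) : ZMod p) = 0
      rw [map_pow, toAdd_pow, Finsupp.smul_apply, nsmul_eq_mul, Int.cast_mul, Int.cast_natCast,
        ZMod.natCast_self, zero_mul]
  rw [← hker, Subgroup.index_ker, MonoidHom.range_eq_top.mpr hsurj, Subgroup.card_top,
    Nat.card_congr Multiplicative.toAdd, Nat.card_fun, Nat.card_zmod, Nat.card_fin]

end Cfsg.Agent.Lib.Helper22
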