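import Mathlib

set_option autoImplicit false

namespace Cfsg.Agent.Lib.Helper22

universe u v w

/-- In a commutative group generated by a finite set `S`, the index of the subgroup of `p`-th powers
divides `p ^ |S|`. -/
theorem powRange_index_dvd_of_closure {M : Type*} [CommGroup M] (p : ℕ) (S : Finset M)
    (hS : Subgroup.closure (S : Set M) = ⊤) :
    (powMonoidHom p : M →* M).range.index ∣ p ^ S.card := by
  haveI : Group.FG M := Group.fg_iff.mpr ⟨S, hS, S.finite_toSet⟩
  haveI : Group.FG (M ⧸ (powMonoidHom p : M →* M).range) :=
    Group.fg_of_surjective (QuotientGroup.mk'_surjective _)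
  have h1 : Nat.card (M ⧸ (powMonoidHom p : M →* M).range) ∣
      p ^ Group.rank (M ⧸ (powMonoidHom p : M →* M).range) :=
    card_dvd_exponent_pow_rank' _ (by
      intro x
      obtain ⟨y, rfl⟩ := QuotientGroup.mk_surjective x
      rw [← QuotientGroup.mk_pow, QuotientGroup.eq_one_iff]
      exact ⟨y, rfl⟩)
  have h2 : Group.rank (M ⧸ (powMonoidHom p : M →* M).range) ≤ Group.rank M :=
    Group.rank_le_of_surjective (QuotientGroup.mk' _) (QuotientGroup.mk'_surjective _)
  have h3 : Group.rank M ≤ S.card := Group.rank_le hS
  rw [Subgroup.index_eq_card]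
  exact h1.trans (pow_dvd_pow p (h2.trans h3))

theorem powRange_prod {K Y : Type*} [CommGroup K] [CommGroup Y] (p : ℕ) :
    (powMonoidHom p : K × Y →* K × Y).range =
      ((powMonoidHom p : K →* K).range).prod ((powMonoidHom p : Y →* Y).range) := by
  ext ⟨k, y⟩
  constructor
  · rintro ⟨⟨a, b⟩, h⟩
    have h1 : a ^ p = k := congrArg Prod.fst h
    have h2 : b ^ p = y := congrArg Prod.snd h
    exact ⟨⟨a, h1⟩, ⟨b, h2⟩⟩
  · rintro ⟨⟨a, h1⟩, ⟨b, h2⟩⟩
    exact ⟨(a, b), Prod.ext h1 h2⟩

/-- In a commutative group `Z` with injective `p`-th power map and `[Z : Z^p] = p ^ n`, every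
subgroup of finite index also has `[R : R^p] = p ^ n`. -/
theorem powRange_index_of_finiteIndex {Z : Type*} [CommGroup Z] (p n : ℕ)
    (hinj : Function.Injective (powMonoidHom p : Z →* Z))
    (hZ : (powMonoidHom p : Z →* Z).range.index = p ^ n) (R : Subgroup Z) (hR : R.index ≠ 0) :
    (powMonoidHom p : R →* R).range.index = p ^ n := by
  have h1 : (R.map (powMonoidHom p : Z →* Z)).relIndex R * R.index =
      (R.map (powMonoidHom p : Z →* Z)).index := Subgroup.relIndex_mul_index (by
    rintro _ ⟨x, hx, rfl⟩
    exact pow_mem hx p)
  have h2 : (R.map (powMonoidHom p : Z →* Z)).relIndex ((⊤ : Subgroup Z).map (powMonoidHom p : Z →* Z)) *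
      ((⊤ : Subgroup Z).map (powMonoidHom p : Z →* Z)).index =
      (R.map (powMonoidHom p : Z →* Z)).index :=
    Subgroup.relIndex_mul_index (Subgroup.map_mono le_top)
  rw [Subgroup.relIndex_map_map_of_injective R ⊤ hinj, Subgroup.relIndex_top_right,
    ← MonoidHom.range_eq_map, hZ] at h2
  have h3 : (R.map (powMonoidHom p : Z →* Z)).relIndex R = p ^ n := by
    have h4 : (R.map (powMonoidHom p : Z →* Z)).relIndex R * R.index = p ^ n * R.index := by
      rw [h1, ← h2, mul_comm]
    exact Nat.eq_of_mul_eq_mul_right (Nat.pos_of_ne_zero hR) h4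
  have h4 : (powMonoidHom p : R →* R).range = (R.map (powMonoidHom p : Z →* Z)).subgroupOf R := by
    ext ⟨y, hy⟩
    rw [Subgroup.mem_subgroupOf]
    constructor
    · rintro ⟨x, hx⟩
      exact ⟨x.1, x.2, congrArg Subtype.val hx⟩
    · rintro ⟨x, hx, hxy⟩
      exact ⟨⟨x, hx⟩, Subtype.ext hxy⟩
  rw [h4]
  exact h3

/-- A finite abelian group in which the `p`-th powers have index at most `p ^ d` for every prime `p`
can be generated by `d` elements. -/
theorem rank_le_of_powRange_index_le : ∀ (d : ℕ) (K : Type u) [CommGroup K] [Finite K],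
    (∀ p : ℕ, p.Prime → (powMonoidHom p : K →* K).range.index ≤ p ^ d) → Group.rank K ≤ d := by
  intro d
  induction d with
  | zero =>
    intro K _ _ h
    have hcard : Nat.card K = 1 := by
      by_contra hne
      obtain ⟨p, hp, hpK⟩ := Nat.exists_prime_and_dvd hne
      have h1 := h p hp
      rw [pow_zero] at h1
      have h2 : (powMonoidHom p : K →* K).range.index = 1 := by
        have h3 : (powMonoidHom p : K →* K).range.index ≠ 0 := Subgroup.index_ne_zero_of_finite
        omega
      rw [Subgroup.index_eq_one, MonoidHom.range_eq_top] at h2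
      have hinj : Function.Injective (powMonoidHom p : K →* K) :=
        Finite.injective_iff_surjective.mpr h2
      haveI := Fact.mk hp
      obtain ⟨k, hk⟩ := exists_prime_orderOf_dvd_card' p hpK
      have h4 : (powMonoidHom p : K →* K) k = (powMonoidHom p : K →* K) 1 := by
        show k ^ p = 1 ^ p
        rw [one_pow, ← hk, pow_orderOf_eq_one]
      have h5 := hinj h4
      rw [h5, orderOf_one] at hk
      exact hp.one_lt.ne hk
    haveI : Subsingleton K := (Nat.card_eq_one_iff_unique.mp hcard).1
    have h6 : Subgroup.closure ((∅ : Finset K) : Set K) = ⊤ := Subsingleton.elim _ _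
    exact Group.rank_le h6
  | succ d ih =>
    intro K _ _ h
    classical
    obtain ⟨g, hg⟩ := Monoid.exists_orderOf_eq_exponent (G := K)
      ⟨Nat.card K, Nat.card_pos, fun _ => pow_card_eq_one'⟩
    have hK' : ∀ p : ℕ, p.Prime →
        (powMonoidHom p : K ⧸ Subgroup.zpowers g →* K ⧸ Subgroup.zpowers g).range.index ≤ p ^ d := by
      intro p hp
      have hmap : (powMonoidHom p : K ⧸ Subgroup.zpowers g →* K ⧸ Subgroup.zpowers g).range =
          ((powMonoidHom p : K →* K).range).map (QuotientGroup.mk' (Subgroup.zpowers g)) := by
        ext x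
        constructor
        · rintro ⟨y, rfl⟩
          obtain ⟨z, rfl⟩ := QuotientGroup.mk_surjective y
          exact ⟨z ^ p, ⟨z, rfl⟩, rfl⟩
        · rintro ⟨_, ⟨z, rfl⟩, rfl⟩
          exact ⟨QuotientGroup.mk z, rfl⟩
      have hidx : (powMonoidHom p : K ⧸ Subgroup.zpowers g →* K ⧸ Subgroup.zpowers g).range.index =
          ((powMonoidHom p : K →* K).range ⊔ Subgroup.zpowers g).index := by
        rw [hmap, Subgroup.index_map, QuotientGroup.ker_mk',
          MonoidHom.range_eq_top.mpr (QuotientGroup.mk'_surjective _), Subgroup.index_top, mul_one]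
      rw [hidx]
      by_cases hpK : p ∣ Nat.card K
      · -- `g` is not a `p`-th power
        have hgp : g ∉ (powMonoidHom p : K →* K).range := by
          rintro ⟨k, hk⟩
          have hk' : k ^ p = g := hk
          haveI := Fact.mk hp
          obtain ⟨c, hc⟩ := exists_prime_orderOf_dvd_card' p hpK
          have h1 : p ∣ orderOf g := by
            rw [hg, ← hc]
            exact Monoid.order_dvd_exponent c
          have h2 : orderOf g = orderOf k / Nat.gcd (orderOf k) p := by
            rw [← hk']
            exact orderOf_pow k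
          have h3 : p ∣ orderOf k := dvd_trans h1 (by rw [← hk']; exact orderOf_pow_dvd p)
          have h4 : Nat.gcd (orderOf k) p = p := Nat.gcd_eq_right h3
          rw [h4] at h2
          have h5 : orderOf k ∣ orderOf g := by
            rw [hg]
            exact Monoid.order_dvd_exponent k
          have h6 : orderOf k = orderOf g * p := by
            rw [h2, Nat.div_mul_cancel h3]
          have hpos : 0 < orderOf g := orderOf_pos g
          rw [h6] at h5
          have h7 : orderOf g * p ≤ orderOf g := Nat.le_of_dvd hpos h5
          nlinarith [hp.two_le]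
        -- the index of the `p`-th powers is a power of `p`
        have hpg : IsPGroup p (K ⧸ (powMonoidHom p : K →* K).range) := by
          intro x
          obtain ⟨y, rfl⟩ := QuotientGroup.mk_surjective x
          refine ⟨1, ?_⟩
          rw [pow_one, ← QuotientGroup.mk_pow, QuotientGroup.eq_one_iff]
          exact ⟨y, rfl⟩
        haveI := Fact.mk hp
        obtain ⟨j, hj⟩ := IsPGroup.iff_card.mp hpg
        rw [← Subgroup.index_eq_card] at hj
        have hle : (powMonoidHom p : K →* K).range ≤
            (powMonoidHom p : K →* K).range ⊔ Subgroup.zpowers g := le_sup_left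
        have hdvd := Subgroup.index_dvd_of_le hle
        rw [hj] at hdvd
        obtain ⟨i, hi, hi2⟩ := (Nat.dvd_prime_pow hp).mp hdvd
        rw [hi2]
        have hjd : j ≤ d + 1 := by
          have h1 := h p hp
          rw [hj] at h1
          exact (Nat.pow_le_pow_iff_right hp.one_lt).mp h1
        have hij : i ≠ j := by
          intro hij
          rw [hij, ← hj] at hi2
          -- equal indices with containment give equality
          have h1 : (powMonoidHom p : K →* K).range ⊔ Subgroup.zpowers g =
              (powMonoidHom p : K →* K).range := by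
            apply le_antisymm _ hle
            have h2 := Subgroup.relIndex_mul_index hle
            rw [hi2] at h2
            have h3 : ((powMonoidHom p : K →* K).range).relIndex
                ((powMonoidHom p : K →* K).range ⊔ Subgroup.zpowers g) = 1 := by
              have h4 : (powMonoidHom p : K →* K).range.index ≠ 0 := Subgroup.index_ne_zero_of_finite
              have h5 : ((powMonoidHom p : K →* K).range).relIndex
                  ((powMonoidHom p : K →* K).range ⊔ Subgroup.zpowers g) *
                  (powMonoidHom p : K →* K).range.index = 1 * (powMonoidHom p : K →* K).range.index := by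
                rw [one_mul]
                exact h2
              exact Nat.eq_of_mul_eq_mul_right (Nat.pos_of_ne_zero h4) h5
            exact Subgroup.relIndex_eq_one.mp h3
          apply hgp
          rw [← h1]
          exact (le_sup_right : Subgroup.zpowers g ≤ _) (Subgroup.mem_zpowers g)
        have hid : i ≤ d := by omega
        exact Nat.pow_le_pow_right hp.pos hid
      · have hcop : (Nat.card K).Coprime p := (Nat.Coprime.symm ((Nat.Prime.coprime_iff_not_dvd hp).mpr hpK))
        have hsurj : Function.Surjective (powMonoidHom p : K →* K) := (powCoprime hcop).surjective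
        rw [MonoidHom.range_eq_top.mpr hsurj, top_sup_eq, Subgroup.index_top]
        exact Nat.one_le_pow _ _ hp.pos
    have hrank := ih (K ⧸ Subgroup.zpowers g) hK'
    obtain ⟨S', hS'card, hS'⟩ := Group.rank_spec (K ⧸ Subgroup.zpowers g)
    have hlift : ∀ y ∈ Subgroup.closure (S' : Set (K ⧸ Subgroup.zpowers g)),
        ∃ s ∈ Subgroup.closure ((insert g (S'.image Quotient.out) : Finset K) : Set K),
          (QuotientGroup.mk s : K ⧸ Subgroup.zpowers g) = y := by
      intro y hy
      induction hy using Subgroup.closure_induction with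
      | mem y hy =>
        refine ⟨Quotient.out y, Subgroup.subset_closure ?_, QuotientGroup.out_eq' y⟩
        rw [Finset.coe_insert, Finset.coe_image]
        exact Set.mem_insert_of_mem _ ⟨y, hy, rfl⟩
      | one => exact ⟨1, one_mem _, rfl⟩
      | mul a b _ _ ha hb =>
        obtain ⟨s, hs, rfl⟩ := ha
        obtain ⟨t, ht, rfl⟩ := hb
        exact ⟨s * t, mul_mem hs ht, rfl⟩
      | inv a _ ha =>
        obtain ⟨s, hs, rfl⟩ := ha
        exact ⟨s⁻¹, inv_mem hs, rfl⟩
    have hgen : Subgroup.closure ((insert g (S'.image Quotient.out) : Finset K) : Set K) = ⊤ := by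
      rw [eq_top_iff]
      intro x _
      obtain ⟨s, hs, hsx⟩ := hlift (QuotientGroup.mk x) (by rw [hS']; exact Subgroup.mem_top _)
      have h1 : s⁻¹ * x ∈ Subgroup.zpowers g := QuotientGroup.eq.mp hsx
      have h2 : Subgroup.zpowers g ≤
          Subgroup.closure ((insert g (S'.image Quotient.out) : Finset K) : Set K) := by
        rw [Subgroup.zpowers_le]
        apply Subgroup.subset_closure
        rw [Finset.coe_insert]
        exact Set.mem_insert _ _
      have h3 : x = s * (s⁻¹ * x) := by group
      rw [h3]
      exact mul_mem hs (h2 h1)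
    calc Group.rank K ≤ (insert g (S'.image Quotient.out)).card := Group.rank_le hgen
      _ ≤ (S'.image Quotient.out).card + 1 := Finset.card_insert_le _ _
      _ ≤ S'.card + 1 := Nat.add_le_add_right Finset.card_image_le 1
      _ ≤ d + 1 := by omega

end Cfsg.Agent.Lib.Helper22
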