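import Mathlib
import Cfsg.Prelude.Def_KGroupFacts
import Cfsg.Agent.Lib.Helper22.Pullback
import Cfsg.Agent.Lib.Helper22.RankBound
import Cfsg.Agent.Lib.Helper22.FreeAb

set_option autoImplicit false

namespace Cfsg.Agent.Lib.Helper22

open scoped commutatorElement

universe u v

/-- The kernel of a finite stem extension of a finite group presented by `n` generators and `r`
relators can be generated by `r - n` elements. -/
theorem rank_ker_le_of_presented (n : ℕ) (rels : Finset (FreeGroup (Fin n)))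
    [Finite (PresentedGroup (rels : Set (FreeGroup (Fin n))))]
    {Γ : Type u} [Group Γ] [Finite Γ]
    (σ : Γ →* PresentedGroup (rels : Set (FreeGroup (Fin n)))) (hσ : Cfsg.IsStemExtension σ) :
    Group.rank σ.ker ≤ rels.card - n := by
  classical
  obtain ⟨hsurj, hcen, hcomm⟩ := hσ
  let π : FreeGroup (Fin n) →* PresentedGroup (rels : Set (FreeGroup (Fin n))) :=
    PresentedGroup.mk (rels : Set (FreeGroup (Fin n)))
  have hπs : Function.Surjective π := PresentedGroup.mk_surjective _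
  let γ : Fin n → Γ := fun i => Function.surjInv hsurj (π (FreeGroup.of i))
  have hγ : ∀ i, σ (γ i) = π (FreeGroup.of i) := fun i => Function.surjInv_eq hsurj _
  let φ : FreeGroup (Fin n) →* Γ := FreeGroup.lift γ
  have hσφ : σ.comp φ = π := by
    apply FreeGroup.ext_hom
    intro i
    show σ (FreeGroup.lift γ (FreeGroup.of i)) = π (FreeGroup.of i)
    rw [FreeGroup.lift_apply_of, hγ]
  have hσφ' : ∀ x, σ (φ x) = π x := fun x => DFunLike.congr_fun hσφ x
  have hdecomp : ∀ g : Γ, ∃ x : FreeGroup (Fin n), g * (φ x)⁻¹ ∈ σ.ker := by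
    intro g
    obtain ⟨x, hx⟩ := hπs (σ g)
    refine ⟨x, ?_⟩
    rw [MonoidHom.mem_ker, map_mul, map_inv, hσφ', hx, mul_inv_cancel]
  have hcommle : commutator Γ ≤ (commutator (FreeGroup (Fin n))).map φ := by
    rw [commutator_eq_closure, Subgroup.closure_le]
    rintro _ ⟨a, b, rfl⟩
    obtain ⟨x, hx⟩ := hdecomp a
    obtain ⟨y, hy⟩ := hdecomp b
    have h1 : ⁅a, b⁆ = ⁅φ x, φ y⁆ :=
      commutator_eq_of_central a b (φ x) (φ y) (hcen hx) (hcen hy)
    rw [h1, ← map_commutatorElement]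
    refine Subgroup.mem_map_of_mem φ ?_
    rw [commutator_def]
    exact Subgroup.commutator_mem_commutator (Subgroup.mem_top x) (Subgroup.mem_top y)
  let R : Subgroup (FreeGroup (Fin n)) := Subgroup.normalClosure (rels : Set (FreeGroup (Fin n)))
  haveI hRn : R.Normal := Subgroup.normalClosure_normal
  have hR_iff : ∀ x : FreeGroup (Fin n), x ∈ R ↔ π x = 1 :=
    fun x => PresentedGroup.mk_eq_one_iff.symm
  have hφker : ∀ x : FreeGroup (Fin n), x ∈ R → φ x ∈ σ.ker := by
    intro x hx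
    rw [MonoidHom.mem_ker, hσφ']
    exact (hR_iff x).mp hx
  let α : FreeGroup (Fin n) →* Abelianization (FreeGroup (Fin n)) := Abelianization.of
  let Rbar : Subgroup (Abelianization (FreeGroup (Fin n))) := R.map α
  letI : CommGroup σ.ker :=
    { (inferInstance : Group σ.ker) with
      mul_comm := fun a b => Subtype.ext (Subgroup.mem_center_iff.mp (hcen b.2) a.1) }
  let Ψ : ↥R →* ↥σ.ker × ↥Rbar :=
    MonoidHom.prod ((φ.comp R.subtype).codRestrict σ.ker (fun x => hφker x.1 x.2))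
      ((α.comp R.subtype).codRestrict Rbar (fun x => Subgroup.mem_map_of_mem α x.2))
  have hΨ1 : ∀ (x : FreeGroup (Fin n)) (hx : x ∈ R), ((Ψ ⟨x, hx⟩).1 : Γ) = φ x := fun x hx => rfl
  have hΨ2 : ∀ (x : FreeGroup (Fin n)) (hx : x ∈ R),
      ((Ψ ⟨x, hx⟩).2 : Abelianization (FreeGroup (Fin n))) = α x := fun x hx => rfl
  have hconj : ∀ (x : FreeGroup (Fin n)) (hx : x ∈ R) (g : FreeGroup (Fin n))
      (hg : g * x * g⁻¹ ∈ R), Ψ ⟨g * x * g⁻¹, hg⟩ = Ψ ⟨x, hx⟩ := by
    intro x hx g hg
    refine Prod.ext (Subtype.ext ?_) (Subtype.ext ?_)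
    · rw [hΨ1, hΨ1, map_mul, map_mul, map_inv]
      have hc := Subgroup.mem_center_iff.mp (hcen (hφker x hx)) (φ g)
      rw [hc, mul_inv_cancel_right]
    · rw [hΨ2, hΨ2, map_mul, map_mul, map_inv, mul_comm (α g) (α x), mul_inv_cancel_right]
  let S : Finset (↥σ.ker × ↥Rbar) :=
    rels.attach.image (fun w => Ψ ⟨w.1, Subgroup.subset_normalClosure (Finset.mem_coe.mpr w.2)⟩)
  have hScard : S.card ≤ rels.card := by
    refine Finset.card_image_le.trans ?_
    rw [Finset.card_attach]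
  let N : Subgroup (FreeGroup (Fin n)) :=
    ((Subgroup.closure (S : Set (↥σ.ker × ↥Rbar))).comap Ψ).map R.subtype
  haveI hNn : N.Normal := by
    refine ⟨fun x hx g => ?_⟩
    obtain ⟨y, hy, rfl⟩ := hx
    refine ⟨⟨g * y.1 * g⁻¹, hRn.conj_mem y.1 y.2 g⟩, ?_, rfl⟩
    show Ψ ⟨g * y.1 * g⁻¹, _⟩ ∈ Subgroup.closure (S : Set (↥σ.ker × ↥Rbar))
    rw [hconj y.1 y.2 g _]
    exact hy
  have hRN : R ≤ N := by
    refine Subgroup.normalClosure_le_normal ?_
    intro w hw
    refine ⟨⟨w, Subgroup.subset_normalClosure hw⟩, ?_, rfl⟩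
    refine Subgroup.subset_closure ?_
    exact Finset.mem_coe.mpr (Finset.mem_image.mpr ⟨⟨w, Finset.mem_coe.mp hw⟩,
      Finset.mem_attach _ _, rfl⟩)
  have hA : ∀ y : ↥R, Ψ y ∈ Subgroup.closure (S : Set (↥σ.ker × ↥Rbar)) := by
    intro y
    obtain ⟨y', hy', h⟩ := hRN y.2
    have : y' = y := Subtype.ext h
    rw [← this]
    exact hy'
  have hB : ∀ k : ↥σ.ker, ((k, 1) : ↥σ.ker × ↥Rbar) ∈
      Subgroup.closure (S : Set (↥σ.ker × ↥Rbar)) := by
    intro k
    obtain ⟨x, hx, hxk⟩ := hcommle (hcomm k.2)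
    have hxR : x ∈ R := by
      rw [hR_iff, ← hσφ', hxk]
      exact k.2
    have h1 : Ψ ⟨x, hxR⟩ = (k, 1) := by
      refine Prod.ext (Subtype.ext ?_) (Subtype.ext ?_)
      · rw [hΨ1]
        exact hxk
      · rw [hΨ2]
        have h2 : x ∈ (Abelianization.of : FreeGroup (Fin n) →* _).ker := by
          rw [Abelianization.ker_of]
          exact hx
        exact MonoidHom.mem_ker.mp h2
    rw [← h1]
    exact hA _
  have hS : Subgroup.closure (S : Set (↥σ.ker × ↥Rbar)) = ⊤ := by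
    rw [eq_top_iff]
    rintro ⟨k, ⟨r, ⟨x, hx, rfl⟩⟩⟩ _
    have h1 := hA ⟨x, hx⟩
    have h2 := hB (k * (Ψ ⟨x, hx⟩).1⁻¹)
    have h3 := mul_mem h2 h1
    have h4 : ((k * (Ψ ⟨x, hx⟩).1⁻¹, 1) : ↥σ.ker × ↥Rbar) * Ψ ⟨x, hx⟩ =
        (k, ⟨α x, Subgroup.mem_map_of_mem α hx⟩) := by
      refine Prod.ext ?_ ?_
      · show k * (Ψ ⟨x, hx⟩).1⁻¹ * (Ψ ⟨x, hx⟩).1 = k
        rw [inv_mul_cancel_right]
      · show (1 : ↥Rbar) * (Ψ ⟨x, hx⟩).2 = _
        rw [one_mul]
        exact Subtype.ext (hΨ2 x hx)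
    rw [h4] at h3
    exact h3
  have hRidx : Rbar.index ≠ 0 := by
    let Ω : Abelianization (FreeGroup (Fin n)) →*
        Abelianization (PresentedGroup (rels : Set (FreeGroup (Fin n)))) := Abelianization.map π
    have hle : Ω.ker ≤ Rbar := by
      intro z hz
      obtain ⟨x, rfl⟩ := QuotientGroup.mk_surjective z
      have h1 : Ω (α x) = Abelianization.of (π x) := Abelianization.map_of π x
      have h2 : π x ∈ commutator (PresentedGroup (rels : Set (FreeGroup (Fin n)))) := by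
        rw [← Abelianization.ker_of, MonoidHom.mem_ker, ← h1]
        exact hz
      have h3 : commutator (PresentedGroup (rels : Set (FreeGroup (Fin n)))) =
          (commutator (FreeGroup (Fin n))).map π := by
        rw [map_commutator_eq, MonoidHom.range_eq_top.mpr hπs, commutator_def]
      rw [h3] at h2
      obtain ⟨c, hc, hcx⟩ := h2
      have h4 : x * c⁻¹ ∈ R := by
        rw [hR_iff, map_mul, map_inv, hcx, mul_inv_cancel]
      have h5 : α c = 1 := by
        have h6 : c ∈ (Abelianization.of : FreeGroup (Fin n) →* _).ker := by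
          rw [Abelianization.ker_of]
          exact hc
        exact MonoidHom.mem_ker.mp h6
      have h7 : α x = α (x * c⁻¹) := by
        rw [map_mul, map_inv, h5, inv_one, mul_one]
      show α x ∈ Rbar
      rw [h7]
      exact Subgroup.mem_map_of_mem α h4
    have hΩ : Ω.ker.index ≠ 0 := by
      rw [Subgroup.index_ker]
      exact Nat.card_pos.ne'
    have hdvd := Subgroup.index_dvd_of_le hle
    intro h0
    rw [h0] at hdvd
    exact hΩ (Nat.eq_zero_of_zero_dvd hdvd)
  have hcount : ∀ p : ℕ, p.Prime →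
      (powMonoidHom p : ↥σ.ker →* ↥σ.ker).range.index * p ^ n ∣ p ^ rels.card := by
    intro p hp
    have h1 := powRange_index_dvd_of_closure p S hS
    rw [powRange_prod, Subgroup.index_prod] at h1
    have h2 : (powMonoidHom p : ↥Rbar →* ↥Rbar).range.index = p ^ n :=
      powRange_index_of_finiteIndex p n (freeAb_pow_injective n p hp.ne_zero)
        (freeAb_powRange_index n p hp) Rbar hRidx
    rw [h2] at h1
    exact h1.trans (pow_dvd_pow p hScard)
  have hn : n ≤ rels.card := by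
    have h1 := hcount 2 Nat.prime_two
    have h2 : 2 ^ n ∣ 2 ^ rels.card := (Dvd.intro_left _ rfl).trans h1
    exact (Nat.pow_dvd_pow_iff_le_right (by norm_num : 1 < 2)).mp h2
  have hfin : ∀ p : ℕ, p.Prime →
      (powMonoidHom p : ↥σ.ker →* ↥σ.ker).range.index ≤ p ^ (rels.card - n) := by
    intro p hp
    have h1 := hcount p hp
    have h2 : p ^ rels.card = p ^ (rels.card - n) * p ^ n := by
      rw [← pow_add, Nat.sub_add_cancel hn]
    rw [h2] at h1
    exact Nat.le_of_dvd (pow_pos hp.pos _) (Nat.dvd_of_mul_dvd_mul_right (pow_pos hp.pos _) h1)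
  have hfinal := rank_le_of_powRange_index_le (rels.card - n) (↥σ.ker) hfin
  exact hfinal

end Cfsg.Agent.Lib.Helper22
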