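import Mathlib
import Cfsg.Prelude.Def_KGroupFacts

set_option autoImplicit false

namespace Cfsg.Agent.Lib.Helper22

open QuaternionGroup DihedralGroup
open scoped commutatorElement

/-- The reduction map `ZMod (2 n) → ZMod n`. -/
noncomputable def redHom (n : ℕ) : ZMod (2 * n) →+* ZMod n :=
  ZMod.castHom (dvd_mul_left n 2) (ZMod n)

theorem redHom_natCast_self (n : ℕ) : redHom n (n : ZMod (2 * n)) = 0 := by
  rw [map_natCast]; exact ZMod.natCast_self n

theorem redHom_surj (n : ℕ) [NeZero n] (k : ZMod n) : ∃ i : ZMod (2 * n), redHom n i = k :=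
  ⟨(k.val : ZMod (2 * n)), by rw [map_natCast]; exact ZMod.natCast_zmod_val k⟩

theorem redHom_eq_zero (n : ℕ) [NeZero n] (i : ZMod (2 * n)) (h : redHom n i = 0) :
    i = 0 ∨ i = (n : ZMod (2 * n)) := by
  have hi : ((i.val : ℕ) : ZMod (2 * n)) = i := ZMod.natCast_zmod_val i
  have h1 : ((i.val : ℕ) : ZMod n) = 0 := by
    rw [← hi, map_natCast] at h; exact h
  have h2 : n ∣ i.val := (ZMod.natCast_eq_zero_iff _ _).mp h1
  have h3 : i.val < 2 * n := ZMod.val_lt i
  obtain ⟨k, hk⟩ := h2
  have hnpos : 0 < n := Nat.pos_of_ne_zero (NeZero.ne n)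
  have hk2 : k < 2 := by
    by_contra hcon
    push Not at hcon
    have : 2 * n ≤ n * k := by
      calc 2 * n = n * 2 := by ring
        _ ≤ n * k := Nat.mul_le_mul_left n hcon
    omega
  interval_cases k
  · left; rw [← hi, hk]; simp
  · right; rw [← hi, hk]; simp

/-- The natural map from the dicyclic group of order `4 n` onto the dihedral group of order `2 n`. -/
noncomputable def quatToDihedral (n : ℕ) : QuaternionGroup n →* DihedralGroup n where
  toFun
    | a i => r (redHom n i)
    | xa i => sr (redHom n i)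
  map_one' := by
    change r (redHom n 0) = 1
    rw [map_zero]; rfl
  map_mul' := by
    rintro (i | i) (j | j)
    · simp only [a_mul_a, r_mul_r, map_add]
    · simp only [a_mul_xa, r_mul_sr, map_sub]
    · simp only [xa_mul_a, sr_mul_r, map_add]
    · simp only [xa_mul_xa, sr_mul_sr, map_add, map_sub, redHom_natCast_self, zero_add]

theorem quatToDihedral_a (n : ℕ) (i : ZMod (2 * n)) : quatToDihedral n (a i) = r (redHom n i) := rfl

theorem quatToDihedral_xa (n : ℕ) (i : ZMod (2 * n)) : quatToDihedral n (xa i) = sr (redHom n i) := rfl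

theorem quatToDihedral_surjective (n : ℕ) [NeZero n] : Function.Surjective (quatToDihedral n) := by
  rintro (k | k)
  · obtain ⟨i, hi⟩ := redHom_surj n k
    exact ⟨a i, by rw [quatToDihedral_a, hi]⟩
  · obtain ⟨i, hi⟩ := redHom_surj n k
    exact ⟨xa i, by rw [quatToDihedral_xa, hi]⟩

theorem mem_ker_quatToDihedral (n : ℕ) [NeZero n] (x : QuaternionGroup n)
    (hx : x ∈ (quatToDihedral n).ker) : x = 1 ∨ x = a (n : ZMod (2 * n)) := by
  rw [MonoidHom.mem_ker] at hx
  rcases x with i | i
  · rw [quatToDihedral_a, DihedralGroup.one_def] at hx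
    have h0 : redHom n i = 0 := by injection hx
    rcases redHom_eq_zero n i h0 with h | h
    · left; rw [h]; rfl
    · right; rw [h]
  · rw [quatToDihedral_xa, DihedralGroup.one_def] at hx
    cases hx

theorem a_n_mem_center (n : ℕ) : (a (n : ZMod (2 * n)) : QuaternionGroup n) ∈ Subgroup.center (QuaternionGroup n) := by
  rw [Subgroup.mem_center_iff]
  have h2 : (n : ZMod (2 * n)) + (n : ZMod (2 * n)) = 0 := by
    have : ((2 * n : ℕ) : ZMod (2 * n)) = 0 := ZMod.natCast_self (2 * n)
    rw [← this]; push_cast; ring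
  rintro (j | j)
  · simp only [a_mul_a, add_comm]
  · simp only [a_mul_xa, xa_mul_a]
    congr 1
    have : (n : ZMod (2 * n)) = - (n : ZMod (2 * n)) := eq_neg_of_add_eq_zero_left h2
    rw [sub_eq_add_neg, ← this]

theorem a_n_mem_commutator (n : ℕ) (hn : Even n) :
    (a (n : ZMod (2 * n)) : QuaternionGroup n) ∈ commutator (QuaternionGroup n) := by
  obtain ⟨m, hm⟩ := hn
  have h2 : (n : ZMod (2 * n)) + (n : ZMod (2 * n)) = 0 := by
    have : ((2 * n : ℕ) : ZMod (2 * n)) = 0 := ZMod.natCast_self (2 * n)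
    rw [← this]; push_cast; ring
  have key : (a (n : ZMod (2 * n)) : QuaternionGroup n) = ⁅(xa 0 : QuaternionGroup n), a (-(m : ZMod (2 * n)))⁆ := by
    rw [commutatorElement_def]
    have hinv1 : (xa (0 : ZMod (2 * n)) : QuaternionGroup n)⁻¹ = xa (n : ZMod (2 * n)) := by
      rw [inv_eq_iff_mul_eq_one, xa_mul_xa]
      simp [h2]
    have hinv2 : (a (-(m : ZMod (2 * n))) : QuaternionGroup n)⁻¹ = a (m : ZMod (2 * n)) := by
      rw [inv_eq_iff_mul_eq_one, a_mul_a]
      simp
    rw [hinv1, hinv2]
    simp only [xa_mul_a, xa_mul_xa, a_mul_a]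
    congr 1
    have hnm : (n : ZMod (2 * n)) = (m : ZMod (2 * n)) + (m : ZMod (2 * n)) := by
      rw [hm]; push_cast; ring
    linear_combination (-1 : ZMod (2 * n)) * h2 + hnm
  rw [key, commutator_def]
  exact Subgroup.commutator_mem_commutator (Subgroup.mem_top _) (Subgroup.mem_top _)

theorem quatToDihedral_isStem (n : ℕ) [NeZero n] (hn : Even n) :
    Cfsg.IsStemExtension (quatToDihedral n) := by
  refine ⟨quatToDihedral_surjective n, ?_, ?_⟩
  · intro x hx
    rcases mem_ker_quatToDihedral n x hx with h | h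
    · rw [h]; exact Subgroup.one_mem _
    · rw [h]; exact a_n_mem_center n
  · intro x hx
    rcases mem_ker_quatToDihedral n x hx with h | h
    · rw [h]; exact Subgroup.one_mem _
    · rw [h]; exact a_n_mem_commutator n hn

theorem card_ker_quatToDihedral (n : ℕ) [NeZero n] : Nat.card (quatToDihedral n).ker = 2 := by
  have h1 : Nat.card (quatToDihedral n).ker * (quatToDihedral n).ker.index = Nat.card (QuaternionGroup n) :=
    Subgroup.card_mul_index _
  have h2 : (quatToDihedral n).ker.index = Nat.card (DihedralGroup n) := by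
    rw [Subgroup.index_ker, MonoidHom.range_eq_top.mpr (quatToDihedral_surjective n), Subgroup.card_top]
  have h3 : Nat.card (QuaternionGroup n) = 4 * n := by
    rw [Nat.card_eq_fintype_card, QuaternionGroup.card]
  rw [h2, DihedralGroup.nat_card, h3] at h1
  have hnpos : 0 < n := Nat.pos_of_ne_zero (NeZero.ne n)
  have : Nat.card (quatToDihedral n).ker * (2 * n) = 2 * (2 * n) := by rw [h1]; ring
  exact Nat.eq_of_mul_eq_mul_right (by omega) this

end Cfsg.Agent.Lib.Helper22
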