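import Mathlib
import Cfsg.Prelude.Def_KGroupFacts

set_option autoImplicit false

namespace Cfsg.Agent.Lib.Helper22

open scoped commutatorElement

/-- In a finite group generated by `α`, `ξ` and a central subgroup `A`, with `ξ α ξ⁻¹ α ∈ A` and
`α ^ n` commuting with `ξ`, the order of the commutator subgroup divides `n`. -/
theorem card_commutator_dvd_of_dihedral_like {Γ : Type*} [Group Γ] [Finite Γ] (A : Subgroup Γ)
    (hA : A ≤ Subgroup.center Γ) (α ξ : Γ)
    (hgen : Subgroup.closure (({α, ξ} : Set Γ) ∪ (A : Set Γ)) = ⊤)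
    (hz : ξ * α * ξ⁻¹ * α ∈ A) (n : ℕ) (hn : Commute (α ^ n) ξ) :
    Nat.card (commutator Γ) ∣ n := by
  have hzc := Subgroup.mem_center_iff.mp (hA hz)
  have hβα : (ξ * α * ξ⁻¹) * α = α * (ξ * α * ξ⁻¹) := by
    have h := hzc α
    have h' : α * (ξ * α * ξ⁻¹) * α = (ξ * α * ξ⁻¹) * α * α := by
      calc α * (ξ * α * ξ⁻¹) * α = α * (ξ * α * ξ⁻¹ * α) := by group
        _ = (ξ * α * ξ⁻¹ * α) * α := h
        _ = (ξ * α * ξ⁻¹) * α * α := by group
    exact (mul_right_cancel h').symm
  have hβξ : ξ * (ξ * α * ξ⁻¹) * ξ⁻¹ = α := by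
    have h := hzc ξ
    have h' : ξ * (ξ * α * ξ⁻¹) * ξ⁻¹ * (ξ * α * ξ⁻¹) = α * (ξ * α * ξ⁻¹) := by
      calc ξ * (ξ * α * ξ⁻¹) * ξ⁻¹ * (ξ * α * ξ⁻¹) = ξ * (ξ * α * ξ⁻¹ * α) * ξ⁻¹ := by group
        _ = (ξ * α * ξ⁻¹ * α) * ξ * ξ⁻¹ := by rw [h]
        _ = (ξ * α * ξ⁻¹) * α := by group
        _ = α * (ξ * α * ξ⁻¹) := hβα
    exact mul_right_cancel h'
  obtain ⟨β, hβ⟩ : ∃ β, β = ξ * α * ξ⁻¹ := ⟨_, rfl⟩
  rw [← hβ] at hβα hβξ
  obtain ⟨c, hc⟩ : ∃ c, c = β * α⁻¹ := ⟨_, rfl⟩
  have hcomm : Commute β α := hβα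
  have hcn : c ^ n = 1 := by
    rw [hc, (hcomm.inv_right).mul_pow]
    have h1 : β ^ n = α ^ n := by
      rw [hβ, conj_pow]
      calc ξ * α ^ n * ξ⁻¹ = (α ^ n * ξ) * ξ⁻¹ := by rw [hn.eq]
        _ = α ^ n := by group
    rw [h1, inv_pow, mul_inv_cancel]
  have hαc : α * c * α⁻¹ = c := by
    have h1 : Commute α c := by
      rw [hc]
      exact (hcomm.symm).mul_right (Commute.refl α).inv_right
    calc α * c * α⁻¹ = c * α * α⁻¹ := by rw [h1.eq]
      _ = c := by group
  have hξc : ξ * c * ξ⁻¹ = c⁻¹ := by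
    calc ξ * c * ξ⁻¹ = (ξ * β * ξ⁻¹) * (ξ * α * ξ⁻¹)⁻¹ := by rw [hc]; group
      _ = α * β⁻¹ := by rw [hβξ, ← hβ]
      _ = c⁻¹ := by rw [hc]; group
  -- every conjugate of c is c or its inverse
  have hconj : ∀ g : Γ, g * c * g⁻¹ = c ∨ g * c * g⁻¹ = c⁻¹ := by
    intro g
    have hg : g ∈ Subgroup.closure (({α, ξ} : Set Γ) ∪ (A : Set Γ)) := by rw [hgen]; trivial
    induction hg using Subgroup.closure_induction with
    | mem x hx =>
      rcases hx with hx | hx
      · rcases hx with rfl | hx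
        · left; exact hαc
        · rw [Set.mem_singleton_iff] at hx
          subst hx
          right; exact hξc
      · left
        have := Subgroup.mem_center_iff.mp (hA hx) c
        calc x * c * x⁻¹ = c * x * x⁻¹ := by rw [this]
          _ = c := by group
    | one => left; group
    | mul x y _ _ hx hy =>
      have e : x * y * c * (x * y)⁻¹ = x * (y * c * y⁻¹) * x⁻¹ := by group
      rw [e]
      rcases hy with hy | hy
      · rw [hy]; exact hx
      · rw [hy]
        have e2 : x * c⁻¹ * x⁻¹ = (x * c * x⁻¹)⁻¹ := by group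
        rw [e2]
        rcases hx with hx | hx
        · rw [hx]; right; rfl
        · rw [hx]; left; group
    | inv x _ hx =>
      rcases hx with hx | hx
      · left
        calc x⁻¹ * c * x⁻¹⁻¹ = x⁻¹ * (x * c * x⁻¹) * x := by rw [hx]; group
          _ = c := by group
      · right
        have hx' : x * c⁻¹ * x⁻¹ = c := by
          have e2 : x * c⁻¹ * x⁻¹ = (x * c * x⁻¹)⁻¹ := by group
          rw [e2, hx, inv_inv]
        calc x⁻¹ * c * x⁻¹⁻¹ = x⁻¹ * (x * c⁻¹ * x⁻¹) * x := by rw [hx']; group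
          _ = c⁻¹ := by group
  have hNle : Subgroup.normalClosure ({c} : Set Γ) ≤ Subgroup.zpowers c := by
    unfold Subgroup.normalClosure
    rw [Subgroup.closure_le]
    intro x hx
    rw [Group.mem_conjugatesOfSet_iff] at hx
    obtain ⟨a, ha, hax⟩ := hx
    rw [Set.mem_singleton_iff] at ha
    subst ha
    rw [isConj_iff] at hax
    obtain ⟨g, hg⟩ := hax
    rcases hconj g with h | h
    · rw [← hg, h]; exact Subgroup.mem_zpowers a
    · rw [← hg, h]; exact Subgroup.inv_mem _ (Subgroup.mem_zpowers a)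
  have hcN : c ∈ Subgroup.normalClosure ({c} : Set Γ) :=
    Subgroup.subset_normalClosure (Set.mem_singleton c)
  have hcomN : commutator Γ ≤ Subgroup.normalClosure ({c} : Set Γ) := by
    apply Subgroup.Normal.quotient_commutative_iff_commutator_le.mp
    let π := QuotientGroup.mk' (Subgroup.normalClosure ({c} : Set Γ))
    have hk : Subgroup.closure (π '' (({α, ξ} : Set Γ) ∪ (A : Set Γ))) = ⊤ := by
      rw [← MonoidHom.map_closure, hgen]
      exact Subgroup.map_top_of_surjective π (QuotientGroup.mk'_surjective _)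
    have hξα : π ξ * π α = π α * π ξ := by
      rw [← commutatorElement_eq_one_iff_mul_comm, ← map_commutatorElement]
      show π ⁅ξ, α⁆ = 1
      rw [QuotientGroup.mk'_apply, QuotientGroup.eq_one_iff, commutatorElement_def]
      have : ξ * α * ξ⁻¹ * α⁻¹ = c := by rw [hc, hβ]
      rw [this]; exact hcN
    have hcomm' : ∀ x ∈ π '' (({α, ξ} : Set Γ) ∪ (A : Set Γ)),
        ∀ y ∈ π '' (({α, ξ} : Set Γ) ∪ (A : Set Γ)), x * y = y * x := by
      rintro _ ⟨g, hg, rfl⟩ _ ⟨h, hh, rfl⟩
      rcases hg with hg | hg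
      · rcases hh with hh | hh
        · rcases hg with rfl | hg
          · rcases hh with rfl | hh
            · rfl
            · rw [Set.mem_singleton_iff] at hh; subst hh; exact hξα.symm
          · rw [Set.mem_singleton_iff] at hg; subst hg
            rcases hh with rfl | hh
            · exact hξα
            · rw [Set.mem_singleton_iff] at hh; subst hh; rfl
        · rw [← map_mul, ← map_mul, Subgroup.mem_center_iff.mp (hA hh) g]
      · rw [← map_mul, ← map_mul, ← Subgroup.mem_center_iff.mp (hA hg) h]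
    have hcl := Subgroup.isMulCommutative_closure hcomm'
    refine ⟨⟨fun x y => ?_⟩⟩
    have hx : x ∈ Subgroup.closure (π '' (({α, ξ} : Set Γ) ∪ (A : Set Γ))) := by rw [hk]; trivial
    have hy : y ∈ Subgroup.closure (π '' (({α, ξ} : Set Γ) ∪ (A : Set Γ))) := by rw [hk]; trivial
    have := mul_comm' (⟨x, hx⟩ : Subgroup.closure (π '' (({α, ξ} : Set Γ) ∪ (A : Set Γ)))) ⟨y, hy⟩
    exact congrArg Subtype.val this
  calc Nat.card (commutator Γ) ∣ Nat.card (Subgroup.normalClosure ({c} : Set Γ)) :=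
        Subgroup.card_dvd_of_le hcomN
    _ ∣ Nat.card (Subgroup.zpowers c) := Subgroup.card_dvd_of_le hNle
    _ = orderOf c := Nat.card_zpowers c
    _ ∣ n := orderOf_dvd_of_pow_eq_one hcn

/-- For a stem extension, the order of the kernel times the order of the commutator subgroup of the
quotient is the order of the commutator subgroup. -/
theorem card_ker_mul_card_commutator {Γ Q : Type*} [Group Γ] [Group Q] [Finite Γ] (σ : Γ →* Q)
    (hσ : Cfsg.IsStemExtension σ) :
    Nat.card σ.ker * Nat.card (commutator Q) = Nat.card (commutator Γ) := by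
  obtain ⟨hsurj, -, hcomm⟩ := hσ
  let f : commutator Γ →* Q := σ.comp (commutator Γ).subtype
  have hrange : f.range = commutator Q := by
    rw [MonoidHom.range_comp, Subgroup.range_subtype, commutator_def, commutator_def,
      Subgroup.map_commutator, Subgroup.map_top_of_surjective σ hsurj]
  have hker : f.ker = σ.ker.subgroupOf (commutator Γ) := by
    rw [← MonoidHom.comap_ker]; rfl
  have h1 : Nat.card f.ker * f.ker.index = Nat.card (commutator Γ) := Subgroup.card_mul_index _
  rw [Subgroup.index_ker, hrange, hker] at h1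
  rw [← h1, Nat.card_congr (Subgroup.subgroupOfEquivOfLe hcomm).toEquiv]

/-- If the images of `α`, `ξ` generate the quotient then `α`, `ξ` and the kernel generate the group. -/
theorem closure_union_ker_eq_top {Γ Q : Type*} [Group Γ] [Group Q] (σ : Γ →* Q) (α ξ : Γ)
    (h : Subgroup.closure ({σ α, σ ξ} : Set Q) = ⊤) :
    Subgroup.closure (({α, ξ} : Set Γ) ∪ (σ.ker : Set Γ)) = ⊤ := by
  have hmap : (Subgroup.closure (({α, ξ} : Set Γ) ∪ (σ.ker : Set Γ))).map σ = ⊤ := by
    rw [eq_top_iff, ← h, MonoidHom.map_closure]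
    apply Subgroup.closure_mono
    rintro x hx
    rcases hx with rfl | hx
    · exact ⟨α, Or.inl (Or.inl rfl), rfl⟩
    · rw [Set.mem_singleton_iff] at hx
      subst hx
      exact ⟨ξ, Or.inl (Or.inr rfl), rfl⟩
  have hker : σ.ker ≤ Subgroup.closure (({α, ξ} : Set Γ) ∪ (σ.ker : Set Γ)) := by
    intro x hx
    exact Subgroup.subset_closure (Or.inr hx)
  have := Subgroup.comap_map_eq σ (Subgroup.closure (({α, ξ} : Set Γ) ∪ (σ.ker : Set Γ)))
  rw [hmap, Subgroup.comap_top, sup_of_le_left hker] at this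
  exact this.symm

end Cfsg.Agent.Lib.Helper22
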