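import Mathlib
import Cfsg.Prelude.Def_KGroupFacts
import Cfsg.Agent.Lib.Helper22.StemTwoGen
import Cfsg.Agent.Lib.Helper22.DihedralCover

set_option autoImplicit false

namespace Cfsg.Agent.Lib.Helper22

open scoped commutatorElement

section Quat

open QuaternionGroup

theorem quat_closure_eq_top (n : ℕ) [NeZero n] :
    Subgroup.closure ({a 1, xa 0} : Set (QuaternionGroup n)) = ⊤ := by
  rw [eq_top_iff]
  intro x _
  have ha1 : (a 1 : QuaternionGroup n) ∈ Subgroup.closure ({a 1, xa 0} : Set (QuaternionGroup n)) :=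
    Subgroup.subset_closure (Or.inl rfl)
  have hx0 : (xa 0 : QuaternionGroup n) ∈ Subgroup.closure ({a 1, xa 0} : Set (QuaternionGroup n)) :=
    Subgroup.subset_closure (Or.inr rfl)
  have hai : ∀ i : ZMod (2 * n), (a i : QuaternionGroup n) ∈
      Subgroup.closure ({a 1, xa 0} : Set (QuaternionGroup n)) := by
    intro i
    have : (a i : QuaternionGroup n) = (a 1) ^ i.val := by
      rw [a_one_pow, ZMod.natCast_zmod_val]
    rw [this]
    exact Subgroup.pow_mem _ ha1 _
  rcases x with i | i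
  · exact hai i
  · have : (xa i : QuaternionGroup n) = xa 0 * a i := by rw [xa_mul_a, zero_add]
    rw [this]
    exact Subgroup.mul_mem _ hx0 (hai i)

theorem quat_inv_a (n : ℕ) (i : ZMod (2 * n)) : (a i : QuaternionGroup n)⁻¹ = a (-i) := by
  apply inv_eq_of_mul_eq_one_right
  rw [a_mul_a, add_neg_cancel]; rfl

theorem quat_conj_a (n : ℕ) (j : ZMod (2 * n)) :
    (xa 0 : QuaternionGroup n) * a j * (xa 0)⁻¹ = a (-j) := by
  have e : (xa 0 : QuaternionGroup n) * a j = a (-j) * xa 0 := by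
    rw [xa_mul_a, a_mul_xa]; congr 1; ring
  rw [e, mul_inv_cancel_right]

theorem quat_sq_mem_commutator (n : ℕ) :
    (a 1 : QuaternionGroup n) ^ 2 ∈ commutator (QuaternionGroup n) := by
  have key : (a 1 : QuaternionGroup n) ^ 2 = ⁅(xa 0 : QuaternionGroup n), a (-1)⁆ := by
    rw [commutatorElement_def, quat_conj_a, quat_inv_a, neg_neg, sq]
  rw [key, commutator_def]
  exact Subgroup.commutator_mem_commutator (Subgroup.mem_top _) (Subgroup.mem_top _)

theorem quat_dvd_card_commutator (n : ℕ) [NeZero n] :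
    n ∣ Nat.card (commutator (QuaternionGroup n)) := by
  have h1 : orderOf ((a 1 : QuaternionGroup n) ^ 2) = n := by
    rw [orderOf_pow, orderOf_a_one]
    have : Nat.gcd (2 * n) 2 = 2 := Nat.gcd_eq_right (dvd_mul_right 2 n)
    rw [this, Nat.mul_div_cancel_left n (by norm_num)]
  have h2 : orderOf (⟨(a 1 : QuaternionGroup n) ^ 2, quat_sq_mem_commutator n⟩ :
      commutator (QuaternionGroup n)) = n := by
    rw [Subgroup.orderOf_mk]; exact h1
  have h3 := orderOf_dvd_natCard (⟨(a 1 : QuaternionGroup n) ^ 2, quat_sq_mem_commutator n⟩ :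
      commutator (QuaternionGroup n))
  rw [h2] at h3
  exact h3

/-- Every finite stem extension of a dicyclic group is an isomorphism. -/
theorem quat_stem_ker_eq_bot (n : ℕ) [NeZero n] {Γ : Type*} [Group Γ] [Finite Γ]
    (σ : Γ →* QuaternionGroup n) (hσ : Cfsg.IsStemExtension σ) : σ.ker = ⊥ := by
  have hσ' := hσ
  obtain ⟨hsurj, hcen, hcomm⟩ := hσ
  obtain ⟨α, hα⟩ := hsurj (a 1)
  obtain ⟨ξ, hξ⟩ := hsurj (xa 0)
  have hgen : Subgroup.closure (({α, ξ} : Set Γ) ∪ (σ.ker : Set Γ)) = ⊤ := by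
    apply closure_union_ker_eq_top
    rw [hα, hξ]
    exact quat_closure_eq_top n
  have hz : ξ * α * ξ⁻¹ * α ∈ σ.ker := by
    rw [MonoidHom.mem_ker, map_mul, map_mul, map_mul, map_inv, hα, hξ, quat_conj_a, a_mul_a,
      neg_add_cancel]
    rfl
  have hn : Commute (α ^ n) ξ := by
    have h1 : α ^ n * (ξ ^ 2)⁻¹ ∈ σ.ker := by
      rw [MonoidHom.mem_ker, map_mul, map_inv, map_pow, map_pow, hα, hξ, xa_sq, a_one_pow,
        mul_inv_cancel]
    have h2 := Subgroup.mem_center_iff.mp (hcen h1) ξ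
    have h3 : α ^ n = (α ^ n * (ξ ^ 2)⁻¹) * ξ ^ 2 := by group
    rw [h3]
    exact Commute.mul_left h2.symm ((Commute.refl ξ).pow_left 2)
  have hdvd := card_commutator_dvd_of_dihedral_like σ.ker hcen α ξ hgen hz n hn
  have hmul := card_ker_mul_card_commutator σ hσ'
  have hq := quat_dvd_card_commutator n
  have hpos : 0 < Nat.card (commutator (QuaternionGroup n)) := Nat.card_pos
  have h1 : Nat.card σ.ker * Nat.card (commutator (QuaternionGroup n)) ∣
      1 * Nat.card (commutator (QuaternionGroup n)) := by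
    rw [hmul, one_mul]
    exact hdvd.trans hq
  have h2 : Nat.card σ.ker ∣ 1 := Nat.dvd_of_mul_dvd_mul_right hpos h1
  exact Subgroup.card_eq_one.mp (Nat.dvd_one.mp h2)

end Quat

section Dih

open DihedralGroup

theorem dih_closure_eq_top (n : ℕ) [NeZero n] :
    Subgroup.closure ({r 1, sr 0} : Set (DihedralGroup n)) = ⊤ := by
  rw [eq_top_iff]
  intro x _
  have hr1 : (r 1 : DihedralGroup n) ∈ Subgroup.closure ({r 1, sr 0} : Set (DihedralGroup n)) :=
    Subgroup.subset_closure (Or.inl rfl)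
  have hs0 : (sr 0 : DihedralGroup n) ∈ Subgroup.closure ({r 1, sr 0} : Set (DihedralGroup n)) :=
    Subgroup.subset_closure (Or.inr rfl)
  have hri : ∀ i : ZMod n, (r i : DihedralGroup n) ∈
      Subgroup.closure ({r 1, sr 0} : Set (DihedralGroup n)) := by
    intro i
    have : (r i : DihedralGroup n) = (r 1) ^ i.val := by
      rw [r_one_pow, ZMod.natCast_zmod_val]
    rw [this]
    exact Subgroup.pow_mem _ hr1 _
  rcases x with i | i
  · exact hri i
  · have : (sr i : DihedralGroup n) = sr 0 * r i := by rw [sr_mul_r, zero_add]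
    rw [this]
    exact Subgroup.mul_mem _ hs0 (hri i)

theorem dih_sq_mem_commutator (n : ℕ) :
    (r 1 : DihedralGroup n) ^ 2 ∈ commutator (DihedralGroup n) := by
  have key : (r 1 : DihedralGroup n) ^ 2 = ⁅(sr 0 : DihedralGroup n), r (-1)⁆ := by
    rw [commutatorElement_def, inv_sr, inv_r, sr_mul_r, sr_mul_sr, r_mul_r, sq, r_mul_r]
    congr 1; ring
  rw [key, commutator_def]
  exact Subgroup.commutator_mem_commutator (Subgroup.mem_top _) (Subgroup.mem_top _)

theorem dih_dvd_card_commutator (n : ℕ) [NeZero n] :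
    n / Nat.gcd n 2 ∣ Nat.card (commutator (DihedralGroup n)) := by
  have h1 : orderOf ((r 1 : DihedralGroup n) ^ 2) = n / Nat.gcd n 2 := by
    rw [orderOf_pow, orderOf_r_one]
  have h2 : orderOf (⟨(r 1 : DihedralGroup n) ^ 2, dih_sq_mem_commutator n⟩ :
      commutator (DihedralGroup n)) = n / Nat.gcd n 2 := by
    rw [Subgroup.orderOf_mk]; exact h1
  have h3 := orderOf_dvd_natCard (⟨(r 1 : DihedralGroup n) ^ 2, dih_sq_mem_commutator n⟩ :
      commutator (DihedralGroup n))
  rw [h2] at h3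
  exact h3

/-- The kernel of a finite stem extension of a dihedral group is small. -/
theorem dih_stem_card_ker (n : ℕ) [NeZero n] {Γ : Type*} [Group Γ] [Finite Γ]
    (σ : Γ →* DihedralGroup n) (hσ : Cfsg.IsStemExtension σ) :
    Nat.card σ.ker * (n / Nat.gcd n 2) ∣ n := by
  have hσ' := hσ
  obtain ⟨hsurj, hcen, hcomm⟩ := hσ
  obtain ⟨α, hα⟩ := hsurj (r 1)
  obtain ⟨ξ, hξ⟩ := hsurj (sr 0)
  have hgen : Subgroup.closure (({α, ξ} : Set Γ) ∪ (σ.ker : Set Γ)) = ⊤ := by
    apply closure_union_ker_eq_top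
    rw [hα, hξ]
    exact dih_closure_eq_top n
  have hz : ξ * α * ξ⁻¹ * α ∈ σ.ker := by
    rw [MonoidHom.mem_ker, map_mul, map_mul, map_mul, map_inv, hα, hξ, inv_sr, sr_mul_r,
      sr_mul_sr, r_mul_r]
    have : (0 : ZMod n) - (0 + 1) + 1 = 0 := by ring
    rw [this]; rfl
  have hn : Commute (α ^ n) ξ := by
    have h1 : α ^ n ∈ σ.ker := by
      rw [MonoidHom.mem_ker, map_pow, hα, r_one_pow_n]
    exact (Subgroup.mem_center_iff.mp (hcen h1) ξ).symm
  have hdvd := card_commutator_dvd_of_dihedral_like σ.ker hcen α ξ hgen hz n hn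
  have hmul := card_ker_mul_card_commutator σ hσ'
  have hq := dih_dvd_card_commutator n
  calc Nat.card σ.ker * (n / Nat.gcd n 2) ∣ Nat.card σ.ker * Nat.card (commutator (DihedralGroup n)) :=
        Nat.mul_dvd_mul_left _ hq
    _ = Nat.card (commutator Γ) := hmul
    _ ∣ n := hdvd

end Dih

end Cfsg.Agent.Lib.Helper22
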