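import Mathlib
import Cfsg.Prelude.Def_KGroupFacts

set_option autoImplicit false

namespace Cfsg.Agent.Lib.Helper22

open scoped commutatorElement

universe u v w

/-- The representation of a central extension `Δ` of `Q` induced from a linear character of the
kernel, as a monoid homomorphism into matrices, together with a linearly independent family
spanning its image. -/
theorem exists_induced_rep_span {Δ Q : Type*} [Group Δ] [Group Q] [Finite Q] (τ : Δ →* Q)
    (hτ : Function.Surjective τ) (hc : τ.ker ≤ Subgroup.center Δ) (lam : τ.ker →* ℂˣ) :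
    ∃ (M : Δ →* Matrix (Fin (Nat.card Q)) (Fin (Nat.card Q)) ℂ),
      (∀ l : τ.ker, M l = ((lam l : ℂˣ) : ℂ) • (1 : Matrix (Fin (Nat.card Q)) (Fin (Nat.card Q)) ℂ)) ∧
      ∃ b : Fin (Nat.card Q) → Matrix (Fin (Nat.card Q)) (Fin (Nat.card Q)) ℂ,
        LinearIndependent ℂ b ∧ (∀ i, ∃ g, b i = M g) ∧ (∀ g, ∃ (c : ℂ) (i : _), M g = c • b i) := by
  classical
  let m := Nat.card Q
  let eq : Q ≃ Fin m := Finite.equivFin Q
  let s : Fin m → Δ := fun i => Function.surjInv hτ (eq.symm i)
  have hs : ∀ i, τ (s i) = eq.symm i := fun i => Function.surjInv_eq hτ _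
  let lamt : Δ → ℂ := fun x => if h : x ∈ τ.ker then ((lam ⟨x, h⟩ : ℂˣ) : ℂ) else 0
  have lamt_in : ∀ x (h : x ∈ τ.ker), lamt x = ((lam ⟨x, h⟩ : ℂˣ) : ℂ) := fun x h => dif_pos h
  have lamt_out : ∀ x, x ∉ τ.ker → lamt x = 0 := fun x h => dif_neg h
  have lamt_mul : ∀ x y, y ∈ τ.ker → lamt (x * y) = lamt x * lamt y := by
    intro x y hy
    by_cases hx : x ∈ τ.ker
    · rw [lamt_in _ (mul_mem hx hy), lamt_in _ hx, lamt_in _ hy, ← Units.val_mul, ← map_mul]
      rfl
    · have hxy : x * y ∉ τ.ker := fun h => hx ((Subgroup.mul_mem_cancel_right _ hy).mp h)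
      rw [lamt_out _ hxy, lamt_out _ hx, zero_mul]
  let M : Δ → Matrix (Fin m) (Fin m) ℂ := fun g => Matrix.of fun i j => lamt ((s i)⁻¹ * g * s j)
  have hM : ∀ g i j, M g i j = lamt ((s i)⁻¹ * g * s j) := fun g i j => rfl
  have hdiag : ∀ i j, lamt ((s i)⁻¹ * s j) = if i = j then 1 else 0 := by
    intro i j
    by_cases hij : i = j
    · subst hij
      rw [if_pos rfl, inv_mul_cancel, lamt_in _ (one_mem _)]
      have h1 : (⟨1, one_mem _⟩ : τ.ker) = 1 := rfl
      rw [h1, map_one, Units.val_one]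
    · rw [if_neg hij]
      apply lamt_out
      rw [MonoidHom.mem_ker, map_mul, map_inv, hs, hs, inv_mul_eq_one]
      intro h
      exact hij (eq.symm.injective h)
  have hM1 : M 1 = 1 := by
    ext i j
    rw [hM, mul_one, hdiag, Matrix.one_apply]
  have hMmul : ∀ g h, M (g * h) = M g * M h := by
    intro g h
    ext i j
    rw [Matrix.mul_apply]
    have hk0 : (s (eq (τ h * eq.symm j)))⁻¹ * h * s j ∈ τ.ker := by
      rw [MonoidHom.mem_ker, map_mul, map_mul, map_inv, hs, hs, Equiv.symm_apply_apply]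
      group
    rw [Finset.sum_eq_single (eq (τ h * eq.symm j))]
    · rw [hM, hM, hM, ← lamt_mul _ _ hk0]
      congr 1
      group
    · intro k _ hk
      rw [hM _ k j, lamt_out, mul_zero]
      rw [MonoidHom.mem_ker, map_mul, map_mul, map_inv, hs, hs]
      intro h'
      apply hk
      have h2 : eq.symm k = τ h * eq.symm j := by
        rw [mul_assoc, inv_mul_eq_one] at h'
        exact h'
      rw [← h2, Equiv.apply_symm_apply]
    · intro h'
      exact absurd (Finset.mem_univ _) h'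
  let Mh : Δ →* Matrix (Fin m) (Fin m) ℂ := { toFun := M, map_one' := hM1, map_mul' := hMmul }
  have hMh : ∀ g, Mh g = M g := fun g => rfl
  have hMker : ∀ l : τ.ker, Mh l = ((lam l : ℂˣ) : ℂ) • (1 : Matrix (Fin m) (Fin m) ℂ) := by
    intro l
    ext i j
    rw [hMh, hM, Matrix.smul_apply, Matrix.one_apply]
    have hcomm : (s i)⁻¹ * (l : Δ) * s j = (s i)⁻¹ * s j * l := by
      have h1 := Subgroup.mem_center_iff.mp (hc l.2) (s j)
      rw [mul_assoc, mul_assoc, h1]
    rw [hcomm, lamt_mul _ _ l.2, hdiag, lamt_in _ l.2]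
    split_ifs <;> simp
  refine ⟨Mh, hMker, fun i => Mh (s i), ?_, fun i => ⟨s i, rfl⟩, ?_⟩
  · rw [Fintype.linearIndependent_iff]
    intro c hc0 i₀
    have hj1 : s (eq 1) ∈ τ.ker := by
      rw [MonoidHom.mem_ker, hs, Equiv.symm_apply_apply]
    have h1 := congrFun (congrFun hc0 i₀) (eq 1)
    rw [Matrix.sum_apply, Matrix.zero_apply] at h1
    rw [Finset.sum_eq_single i₀] at h1
    · rw [Matrix.smul_apply, hMh, hM, inv_mul_cancel, one_mul, lamt_in _ hj1, smul_eq_mul] at h1
      rcases mul_eq_zero.mp h1 with h2 | h2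
      · exact h2
      · exact absurd h2 (Units.ne_zero _)
    · intro i _ hi
      rw [Matrix.smul_apply, hMh, hM, lamt_out, smul_zero]
      rw [MonoidHom.mem_ker, map_mul, map_mul, map_inv, hs, hs, hs, Equiv.symm_apply_apply, mul_one,
        inv_mul_eq_one]
      intro h
      exact hi (eq.symm.injective h).symm
    · intro h'
      exact absurd (Finset.mem_univ _) h'
  · intro g
    have hk : (s (eq (τ g)))⁻¹ * g ∈ τ.ker := by
      rw [MonoidHom.mem_ker, map_mul, map_inv, hs, Equiv.symm_apply_apply, inv_mul_cancel]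
    refine ⟨((lam ⟨_, hk⟩ : ℂˣ) : ℂ), eq (τ g), ?_⟩
    have h1 : g = s (eq (τ g)) * ((s (eq (τ g)))⁻¹ * g) := by group
    have h2 : Mh g = Mh (s (eq (τ g))) * Mh ((s (eq (τ g)))⁻¹ * g) := by
      rw [← map_mul, ← h1]
    rw [h2, hMker ⟨_, hk⟩, Matrix.mul_smul, mul_one]

/-- The square of the exponent of the kernel of a finite stem extension of `Q` divides `|Q|`. -/
theorem exponent_sq_dvd_card {Q : Type*} [Group Q] [Finite Q] {Γ : Type*} [Group Γ] [Finite Γ]
    (σ : Γ →* Q) (hσ : Cfsg.IsStemExtension σ) :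
    Monoid.exponent σ.ker ^ 2 ∣ Nat.card Q := by
  classical
  letI : CommGroup σ.ker :=
    { (σ.ker).toGroup with
      mul_comm := fun a b => Subtype.ext (Subgroup.mem_center_iff.mp (hσ.2.1 b.2) a.1) }
  obtain ⟨ed⟩ := CommGroup.monoidHom_mulEquiv_of_hasEnoughRootsOfUnity σ.ker ℂ
  haveI : Finite (σ.ker →* ℂˣ) := Finite.of_equiv _ ed.symm.toEquiv
  have hexp : Monoid.exponent (σ.ker →* ℂˣ) = Monoid.exponent σ.ker :=
    Monoid.exponent_eq_of_mulEquiv ed
  have hex : Monoid.ExponentExists (σ.ker →* ℂˣ) :=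
    ⟨Nat.card (σ.ker →* ℂˣ), Nat.card_pos, fun g => pow_card_eq_one'⟩
  obtain ⟨lam, hlam⟩ := Monoid.exists_orderOf_eq_exponent (G := σ.ker →* ℂˣ) hex
  obtain ⟨M, hMk, b, hb, hbM, hMb⟩ := exists_induced_rep_span σ hσ.1 hσ.2.1 lam
  let F : MonoidAlgebra ℂ Γ →ₐ[ℂ] Matrix (Fin (Nat.card Q)) (Fin (Nat.card Q)) ℂ :=
    MonoidAlgebra.lift ℂ _ Γ M
  have hF : ∀ g, F (MonoidAlgebra.of ℂ Γ g) = M g := MonoidAlgebra.lift_of M
  haveI : IsSemisimpleRing F.range :=
    RingHom.isSemisimpleRing_of_surjective (F.rangeRestrict : MonoidAlgebra ℂ Γ →+* F.range)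
      F.rangeRestrict_surjective
  have hspan : Subalgebra.toSubmodule F.range = Submodule.span ℂ (Set.range b) := by
    apply le_antisymm
    · rintro _ ⟨x, rfl⟩
      show F x ∈ Submodule.span ℂ (Set.range b)
      induction x using MonoidAlgebra.induction_on with
      | of g =>
        obtain ⟨c, i, hci⟩ := hMb g
        rw [hF, hci]
        exact Submodule.smul_mem _ _ (Submodule.subset_span ⟨i, rfl⟩)
      | add x y hx hy =>
        rw [map_add]
        exact Submodule.add_mem _ hx hy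
      | smul r x hx =>
        rw [map_smul]
        exact Submodule.smul_mem _ _ hx
    · rw [Submodule.span_le]
      rintro _ ⟨i, rfl⟩
      obtain ⟨g, hg⟩ := hbM i
      exact ⟨MonoidAlgebra.of ℂ Γ g, by rw [hg]; exact hF g⟩
  have hdim : Module.finrank ℂ F.range = Nat.card Q := by
    have h1 : Module.finrank ℂ (Subalgebra.toSubmodule F.range) = Nat.card Q := by
      rw [hspan, finrank_span_eq_card hb, Fintype.card_fin]
    exact h1
  obtain ⟨n, d, hd, ⟨Φ⟩⟩ := IsSemisimpleRing.exists_algEquiv_pi_matrix_of_isAlgClosed ℂ F.range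
  have hdim2 : Nat.card Q = ∑ i, d i ^ 2 := by
    rw [← hdim, Φ.toLinearEquiv.finrank_eq, Module.finrank_pi_fintype]
    apply Finset.sum_congr rfl
    intro i _
    rw [Module.finrank_matrix, Fintype.card_fin, Module.finrank_self, mul_one, sq]
  have hdvd : ∀ i, Monoid.exponent σ.ker ∣ d i := by
    intro i
    let R : Γ →* Matrix (Fin (d i)) (Fin (d i)) ℂ :=
      { toFun := fun g => Φ (F.rangeRestrict (MonoidAlgebra.of ℂ Γ g)) i
        map_one' := by
          rw [map_one, map_one, map_one]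
          rfl
        map_mul' := fun x y => by
          rw [map_mul, map_mul, map_mul]
          rfl }
    have hR : ∀ g, R g = Φ (F.rangeRestrict (MonoidAlgebra.of ℂ Γ g)) i := fun g => rfl
    have hRk : ∀ k : σ.ker, R k = ((lam k : ℂˣ) : ℂ) • (1 : Matrix (Fin (d i)) (Fin (d i)) ℂ) := by
      intro k
      have h1 : F.rangeRestrict (MonoidAlgebra.of ℂ Γ (k : Γ)) =
          algebraMap ℂ F.range ((lam k : ℂˣ) : ℂ) := by
        apply Subtype.ext
        show F (MonoidAlgebra.of ℂ Γ (k : Γ)) = _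
        rw [hF, hMk, Subalgebra.coe_algebraMap, Algebra.algebraMap_eq_smul_one]
      rw [hR, h1, AlgEquiv.commutes, Pi.algebraMap_apply, Algebra.algebraMap_eq_smul_one]
    let D : Γ →* ℂˣ := (Matrix.detMonoidHom.comp R).toHomUnits
    have hD : ∀ g, ((D g : ℂˣ) : ℂ) = Matrix.det (R g) := fun g => rfl
    have hD1 : ∀ k : σ.ker, D k = 1 := by
      intro k
      have h1 : (k : Γ) ∈ D.ker := Abelianization.commutator_subset_ker D (hσ.2.2 k.2)
      exact h1
    have hpow : lam ^ d i = 1 := by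
      apply MonoidHom.ext
      intro k
      show lam k ^ d i = 1
      apply Units.ext
      have h1 := hD k
      rw [hD1 k, hRk k, Matrix.det_smul, Matrix.det_one, mul_one, Fintype.card_fin] at h1
      rw [Units.val_pow_eq_pow_val, ← h1]
    rw [← hexp, ← hlam]
    exact orderOf_dvd_of_pow_eq_one hpow
  rw [hdim2]
  apply Finset.dvd_sum
  intro i _
  exact pow_dvd_pow_of_dvd (hdvd i) 2

end Cfsg.Agent.Lib.Helper22
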