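import Mathlib
import Cfsg.Agent.Lib.Helper22.FP1

set_option autoImplicit false

namespace Cfsg.Agent.Lib.Helper22.FP

open Polynomial

universe u

theorem pow_inv_mem {p : ℕ} [Fact p.Prime] {W : Type u} [AddCommGroup W] [Module (ZMod p) W]
    (x : Module.End (ZMod p) W) (S : Submodule (ZMod p) W)
    (hS : ∀ s ∈ S, x s ∈ S) : ∀ (n : ℕ), ∀ s ∈ S, (x ^ n) s ∈ S := by
  intro n
  induction n with
  | zero => intro s hs; simpa using hs
  | succ n ih =>
    intro s hs
    rw [pow_succ, Module.End.mul_apply]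
    exact ih _ (hS s hs)

theorem restrict_pow_coe {p : ℕ} [Fact p.Prime] {W : Type u} [AddCommGroup W] [Module (ZMod p) W]
    (x : Module.End (ZMod p) W) (S : Submodule (ZMod p) W)
    (hS : ∀ s ∈ S, x s ∈ S) :
    ∀ (n : ℕ) (s : S), (((x.restrict hS : Module.End (ZMod p) S) ^ n) s : W) = (x ^ n) s := by
  intro n
  induction n with
  | zero => intro s; simp
  | succ n ih =>
    intro s
    rw [pow_succ, Module.End.mul_apply, pow_succ, Module.End.mul_apply, ih,
      LinearMap.coe_restrict_apply]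

theorem orth_inv {p : ℕ} [Fact p.Prime] {W : Type u} [AddCommGroup W] [Module (ZMod p) W]
    (B : LinearMap.BilinForm (ZMod p) W) (x : Module.End (ZMod p) W) (h : ℕ) (hh : 0 < h)
    (hxh : x ^ h = 1) (hBx : ∀ u v, B (x u) (x v) = B u v) (S : Submodule (ZMod p) W)
    (hS : ∀ s ∈ S, x s ∈ S) : ∀ w ∈ B.orthogonal S, x w ∈ B.orthogonal S := by
  intro w hw
  rw [LinearMap.BilinForm.mem_orthogonal_iff] at hw ⊢
  intro s hs
  have h1 : x ((x ^ (h - 1)) s) = s := by
    rw [← Module.End.mul_apply, ← pow_succ', Nat.sub_add_cancel hh, hxh, Module.End.one_apply]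
  rw [← h1, hBx]
  exact hw _ (pow_inv_mem x S hS _ s hs)

theorem restr_hyps {p : ℕ} [Fact p.Prime] {W : Type u} [AddCommGroup W] [Module (ZMod p) W]
    (B : LinearMap.BilinForm (ZMod p) W) (x : Module.End (ZMod p) W) (h : ℕ)
    (hrefl : B.IsRefl) (hxh : x ^ h = 1) (hBx : ∀ u v, B (x u) (x v) = B u v)
    (hfree : ∀ (k : ℕ) (v : W), (x ^ k) v = v → v ≠ 0 → h ∣ k)
    (S : Submodule (ZMod p) W) (hS : ∀ s ∈ S, x s ∈ S) (hd : Disjoint S (B.orthogonal S)) :
    (B.restrict S).Nondegenerate ∧ (B.restrict S).IsRefl ∧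
    (x.restrict hS : Module.End (ZMod p) S) ^ h = 1 ∧
    (∀ u v, B.restrict S (x.restrict hS u) (x.restrict hS v) = B.restrict S u v) ∧
    (∀ (k : ℕ) (v : S), ((x.restrict hS : Module.End (ZMod p) S) ^ k) v = v → v ≠ 0 → h ∣ k) := by
  refine ⟨B.nondegenerate_restrict_of_disjoint_orthogonal hrefl hd, ?_, ?_, ?_, ?_⟩
  · intro u v huv
    exact hrefl (u : W) (v : W) huv
  · ext s
    rw [restrict_pow_coe, hxh]; rfl
  · intro u v
    exact hBx u v
  · intro k v hv hv0
    apply hfree k v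
    · rw [← restrict_pow_coe x S hS, hv]
    · intro h0; exact hv0 (Subtype.ext h0)

theorem sympl_ind {p : ℕ} [Fact p.Prime] (h : ℕ) (hh : 0 < h) (hcop : h.Coprime p)
    (h2 : ¬ h ∣ 2) :
    ∀ k : ℕ, ∀ (W : Type u) [AddCommGroup W] [Module (ZMod p) W] [Finite W]
      (B : LinearMap.BilinForm (ZMod p) W) (x : Module.End (ZMod p) W),
      B.Nondegenerate → B.IsRefl → x ^ h = 1 → (∀ u v, B (x u) (x v) = B u v) →
      (∀ (k : ℕ) (v : W), (x ^ k) v = v → v ≠ 0 → h ∣ k) →
      Module.finrank (ZMod p) W = k →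
      ∃ n, k = 2 * n ∧ ((p : ZMod h) ^ n = 1 ∨ (p : ZMod h) ^ n = -1) := by
  intro k
  induction k using Nat.strong_induction_on with
  | _ k ih =>
  intro W _ _ _ B x hB hrefl hxh hBx hfree hfin
  by_cases hk : k = 0
  · exact ⟨0, by omega, Or.inl (pow_zero _)⟩
  have hp := (Fact.out : p.Prime)
  have key : ∀ (U0 : Submodule (ZMod p) W) (a : ℕ), (∀ s ∈ U0, x s ∈ U0) →
      Disjoint U0 (B.orthogonal U0) → Module.finrank (ZMod p) U0 = 2 * a → 0 < a →
      ((p : ZMod h) ^ a = 1 ∨ (p : ZMod h) ^ a = -1) →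
      ∃ n, k = 2 * n ∧ ((p : ZMod h) ^ n = 1 ∨ (p : ZMod h) ^ n = -1) := by
    intro U0 a hU0 hd hfa ha hsign
    have hO := orth_inv B x h hh hxh hBx U0 hU0
    have hd' : Disjoint (B.orthogonal U0) (B.orthogonal (B.orthogonal U0)) := by
      rw [LinearMap.BilinForm.orthogonal_orthogonal hB hrefl]; exact hd.symm
    obtain ⟨r1, r2, r3, r4, r5⟩ := restr_hyps B x h hrefl hxh hBx hfree (B.orthogonal U0) hO hd'
    have hf1 := LinearMap.BilinForm.finrank_orthogonal hB U0
    have hle : Module.finrank (ZMod p) U0 ≤ Module.finrank (ZMod p) W := Submodule.finrank_le U0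
    obtain ⟨n', hn', hs'⟩ := ih (k - 2 * a) (by omega) (↥(B.orthogonal U0)) (B.restrict _)
      (x.restrict hO) r1 r2 r3 r4 r5 (by rw [hf1, hfa, hfin])
    refine ⟨a + n', by omega, ?_⟩
    rw [pow_add]
    rcases hsign with e1 | e1 <;> rcases hs' with e2 | e2 <;> rw [e1, e2] <;> simp
  haveI : Nontrivial W := Module.nontrivial_of_finrank_pos (R := ZMod p) (by omega)
  obtain ⟨S, ⟨hS0, hSinv⟩, hSmin⟩ := exists_minimal_of_wellFoundedLT
    (fun S : Submodule (ZMod p) W => S ≠ ⊥ ∧ ∀ s ∈ S, x s ∈ S)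
    ⟨⊤, top_ne_bot, fun s _ => Submodule.mem_top⟩
  haveI : Nontrivial S := (Submodule.nontrivial_iff_ne_bot).mpr hS0
  have hxS : (x.restrict hSinv : Module.End (ZMod p) S) ^ h = 1 := by
    ext s; rw [restrict_pow_coe, hxh]; rfl
  have hordS : ∀ k : ℕ, (x.restrict hSinv : Module.End (ZMod p) S) ^ k = 1 → h ∣ k := by
    intro k hk
    obtain ⟨s, hs⟩ := exists_ne (0 : S)
    apply hfree k s
    · rw [← restrict_pow_coe x S hSinv, hk]; rfl
    · intro h0; exact hs (Subtype.ext h0)
  have hirrS : ∀ T' : Submodule (ZMod p) S,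
      T' ≤ T'.comap (x.restrict hSinv : Module.End (ZMod p) S) → T' = ⊥ ∨ T' = ⊤ := by
    intro T' hT'
    by_cases hT0 : T'.map S.subtype = ⊥
    · left
      rw [eq_bot_iff]
      intro t ht
      have : (t : W) ∈ T'.map S.subtype := ⟨t, ht, rfl⟩
      rw [hT0, Submodule.mem_bot] at this
      exact (Submodule.mem_bot _).mpr (Subtype.ext this)
    · right
      have hle : T'.map S.subtype ≤ S := by
        rintro _ ⟨t, _, rfl⟩; exact t.2
      have hinv : ∀ s ∈ T'.map S.subtype, x s ∈ T'.map S.subtype := by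
        rintro _ ⟨t, ht, rfl⟩
        exact ⟨x.restrict hSinv t, hT' ht, rfl⟩
      have hSle := hSmin ⟨hT0, hinv⟩ hle
      rw [eq_top_iff]
      intro s _
      obtain ⟨t, ht, hts⟩ := hSle s.2
      have : t = s := Subtype.ext hts
      rw [← this]; exact ht
  obtain ⟨hc1, hc2⟩ := irr_core (x.restrict hSinv : Module.End (ZMod p) S) h hh hxS hordS hirrS
  have hSpos : 0 < Module.finrank (ZMod p) S := Module.finrank_pos
  have hOinv := orth_inv B x h hh hxh hBx S hSinv
  by_cases hI : S ⊓ B.orthogonal S = ⊥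
  · have hd : Disjoint S (B.orthogonal S) := disjoint_iff.mpr hI
    obtain ⟨r1, r2, r3, r4, r5⟩ := restr_hyps B x h hrefl hxh hBx hfree S hSinv hd
    rcases hc2 (B.restrict S) r1 r4 with h2' | ⟨j, hj, hdj⟩
    · exact absurd h2' h2
    · apply key S j hSinv hd hj (by omega)
      right
      have h1 : ((p ^ j + 1 : ℕ) : ZMod h) = 0 := (ZMod.natCast_eq_zero_iff _ _).mpr hdj
      push_cast at h1
      exact eq_neg_of_add_eq_zero_left h1
  · have hSle : S ≤ B.orthogonal S := by
      have hle : S ⊓ B.orthogonal S ≤ S := inf_le_left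
      have hinv : ∀ s ∈ S ⊓ B.orthogonal S, x s ∈ S ⊓ B.orthogonal S := by
        intro s hs
        exact ⟨hSinv s hs.1, hOinv s hs.2⟩
      exact (hSmin ⟨hI, hinv⟩ hle).trans inf_le_right
    have hne : ((h : ℕ) : ZMod p) ≠ 0 := by
      rw [Ne, ZMod.natCast_eq_zero_iff]
      intro hdvd
      exact hp.one_lt.ne' (Nat.Coprime.eq_one_of_dvd hcop.symm hdvd)
    have hss : x.IsSemisimple := by
      apply Module.End.isSemisimple_of_squarefree_aeval_eq_zero (p := X ^ h - 1)
      · exact (X_pow_sub_one_separable_iff.mpr hne).squarefree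
      · simp [hxh]
    obtain ⟨T, hTinv, hcompl⟩ := (Module.End.isSemisimple_iff.mp hss) (B.orthogonal S)
      (fun s hs => hOinv s hs)
    have hTinv' : ∀ t ∈ T, x t ∈ T := fun t ht => hTinv ht
    have hUinv : ∀ u ∈ S ⊔ T, x u ∈ S ⊔ T := by
      intro u hu
      obtain ⟨s, hs, t, ht, rfl⟩ := Submodule.mem_sup.mp hu
      rw [map_add]
      exact Submodule.add_mem_sup (hSinv s hs) (hTinv' t ht)
    have hUd : Disjoint (S ⊔ T) (B.orthogonal (S ⊔ T)) := by
      rw [Submodule.disjoint_def]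
      intro u hu hu'
      obtain ⟨s, hs, t, ht, rfl⟩ := Submodule.mem_sup.mp hu
      rw [LinearMap.BilinForm.mem_orthogonal_iff] at hu'
      have ht0 : t = 0 := by
        have hmem : t ∈ B.orthogonal S ⊓ T := by
          refine ⟨?_, ht⟩
          show t ∈ B.orthogonal S
          rw [LinearMap.BilinForm.mem_orthogonal_iff]
          intro s' hs'
          have h1 := hu' s' (Submodule.mem_sup_left hs')
          rw [map_add] at h1
          have h2 : B s' s = 0 := (hSle hs) s' hs'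
          rw [h2, zero_add] at h1
          exact h1
        rw [hcompl.inf_eq_bot] at hmem
        exact (Submodule.mem_bot _).mp hmem
      subst ht0
      rw [add_zero] at hu' ⊢
      apply hB.2 s
      intro w
      have hw : w ∈ B.orthogonal S ⊔ T := by rw [hcompl.sup_eq_top]; exact Submodule.mem_top
      obtain ⟨a, ha, b, hb, rfl⟩ := Submodule.mem_sup.mp hw
      rw [map_add, LinearMap.add_apply, hu' b (Submodule.mem_sup_right hb), add_zero]
      exact hrefl s a (ha s hs)
    have hfT : Module.finrank (ZMod p) T = Module.finrank (ZMod p) S := by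
      have h1 := Submodule.finrank_add_eq_of_isCompl hcompl
      have h2 := LinearMap.BilinForm.finrank_orthogonal hB S
      have h3 : Module.finrank (ZMod p) S ≤ Module.finrank (ZMod p) W := Submodule.finrank_le S
      omega
    have hfU : Module.finrank (ZMod p) ↥(S ⊔ T) = 2 * Module.finrank (ZMod p) S := by
      have h1 := Submodule.finrank_sup_add_finrank_inf_eq S T
      have h2 : S ⊓ T = ⊥ := by
        rw [eq_bot_iff]
        intro s hs
        have hmem : s ∈ B.orthogonal S ⊓ T := ⟨hSle hs.1, hs.2⟩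
        rw [hcompl.inf_eq_bot] at hmem
        exact hmem
      rw [h2, finrank_bot, add_zero, hfT] at h1
      omega
    apply key (S ⊔ T) (Module.finrank (ZMod p) S) hUinv hUd hfU hSpos
    left
    have h1 : ((p ^ Module.finrank (ZMod p) S - 1 : ℕ) : ZMod h) = 0 :=
      (ZMod.natCast_eq_zero_iff _ _).mpr hc1
    rw [Nat.cast_sub (Nat.one_le_pow _ _ hp.pos)] at h1
    push_cast at h1
    exact sub_eq_zero.mp h1

theorem sign_to_dvd {p : ℕ} (hp : 0 < p) (h n : ℕ)
    (hs : (p : ZMod h) ^ n = 1 ∨ (p : ZMod h) ^ n = -1) :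
    h ∣ p ^ n + 1 ∨ h ∣ p ^ n - 1 := by
  rcases hs with e | e
  · right
    rw [← ZMod.natCast_eq_zero_iff, Nat.cast_sub (Nat.one_le_pow _ _ hp)]
    push_cast; rw [e, sub_self]
  · left
    rw [← ZMod.natCast_eq_zero_iff]
    push_cast; rw [e]; simp

end Cfsg.Agent.Lib.Helper22.FP
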