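import Mathlib
import Cfsg.Prelude.Def_Transfer
import Cfsg.Agent.Lib.Helper28.ESDecomp
import Cfsg.Agent.Lib.Helper22.FP2

set_option autoImplicit false

namespace Cfsg.Agent.Lib.Helper22.FP

universe u v

theorem bridge {P : Type u} [Group P] {p : ℕ} [Fact p.Prime]
    {V : Type v} [AddCommGroup V] [Module (ZMod p) V] [Finite V]
    (π : P → V) (hπmul : ∀ a b, π (a * b) = π a + π b) (hπsurj : Function.Surjective π)
    (hπker : ∀ a, π a = 0 ↔ a ∈ Subgroup.center P)
    (c : P → P → ZMod p)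
    (hc1 : ∀ a a' b, c (a * a') b = c a b + c a' b)
    (hc2 : ∀ a b b', c a (b * b') = c a b + c a b')
    (hc0 : ∀ a b, c a b = 0 ↔ a * b = b * a)
    (θ : P →* P) (hθc : ∀ a b, c (θ a) (θ b) = c a b) (h n : ℕ) (hh : 0 < h)
    (hcop : h.Coprime p) (h2 : ¬ h ∣ 2)
    (hV : Nat.card V = p ^ (2 * n))
    (hθh : ∀ a, (θ^[h]) a = a)
    (hcen : ∀ a ∈ Subgroup.center P, θ a = a)
    (hzp : ∀ a ∈ Subgroup.center P, a ^ p = 1)
    (hfix : ∀ k : ℕ, ¬ h ∣ k → ∀ a, (θ^[k]) a = a → a ∈ Subgroup.center P) :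
    h ∣ p ^ n + 1 ∨ h ∣ p ^ n - 1 := by
  classical
  have hp := (Fact.out : p.Prime)
  have hπ1 : π 1 = 0 := (hπker 1).mpr (Subgroup.one_mem _)
  have hcz1 : ∀ z ∈ Subgroup.center P, ∀ b, c z b = 0 := fun z hz b =>
    (hc0 z b).mpr ((Subgroup.mem_center_iff.mp hz b).symm)
  have hcz2 : ∀ z ∈ Subgroup.center P, ∀ a, c a z = 0 := fun z hz a =>
    (hc0 a z).mpr (Subgroup.mem_center_iff.mp hz a)
  have hπeq : ∀ a b, π a = π b → a⁻¹ * b ∈ Subgroup.center P := by
    intro a b hab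
    rw [← hπker, hπmul, ← hab, ← hπmul, inv_mul_cancel, hπ1]
  obtain ⟨s, hs⟩ : ∃ s : V → P, ∀ v, π (s v) = v :=
    ⟨Function.surjInv hπsurj, Function.surjInv_eq hπsurj⟩
  have hcwd : ∀ a a' b b', π a = π a' → π b = π b' → c a b = c a' b' := by
    intro a a' b b' ha hb
    obtain ⟨z, hz⟩ : ∃ z, z = a⁻¹ * a' := ⟨_, rfl⟩
    obtain ⟨w, hw⟩ : ∃ w, w = b⁻¹ * b' := ⟨_, rfl⟩
    have hzc : z ∈ Subgroup.center P := hz ▸ hπeq a a' ha
    have hwc : w ∈ Subgroup.center P := hw ▸ hπeq b b' hb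
    have e1 : a' = a * z := by rw [hz]; group
    have e2 : b' = b * w := by rw [hw]; group
    rw [e1, e2, hc1, hc2, hc2, hcz1 z hzc b, hcz1 z hzc w, hcz2 w hwc a]
    simp
  have hBadd1 : ∀ v v' w, c (s (v + v')) (s w) = c (s v) (s w) + c (s v') (s w) := by
    intro v v' w
    rw [← hc1]
    apply hcwd _ _ _ _ _ rfl
    rw [hπmul, hs, hs, hs]
  have hBadd2 : ∀ v w w', c (s v) (s (w + w')) = c (s v) (s w) + c (s v) (s w') := by
    intro v w w'
    rw [← hc2]
    apply hcwd _ _ _ _ rfl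
    rw [hπmul, hs, hs, hs]
  obtain ⟨B, hBdef⟩ : ∃ B : LinearMap.BilinForm (ZMod p) V, ∀ v w, B v w = c (s v) (s w) := by
    refine ⟨LinearMap.mk₂ (ZMod p) (fun v w => c (s v) (s w)) hBadd1 ?_ hBadd2 ?_, fun v w => rfl⟩
    · intro r v w
      exact ZMod.map_smul (AddMonoidHom.mk' (fun v => c (s v) (s w))
        (fun v v' => hBadd1 v v' w)) r v
    · intro r v w
      exact ZMod.map_smul (AddMonoidHom.mk' (fun w => c (s v) (s w))
        (fun w w' => hBadd2 v w w')) r w
  have hBπ : ∀ a b, B (π a) (π b) = c a b := by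
    intro a b
    rw [hBdef]
    exact hcwd _ _ _ _ (hs _) (hs _)
  have hθwd : ∀ a a', π a = π a' → π (θ a) = π (θ a') := by
    intro a a' ha
    obtain ⟨z, hz⟩ : ∃ z, z = a⁻¹ * a' := ⟨_, rfl⟩
    have hzc : z ∈ Subgroup.center P := hz ▸ hπeq a a' ha
    have e1 : a' = a * z := by rw [hz]; group
    rw [e1, map_mul, hcen z hzc, hπmul, (hπker z).mpr hzc, add_zero]
  obtain ⟨x, hxdef⟩ : ∃ x : Module.End (ZMod p) V, ∀ a, x (π a) = π (θ a) := by
    have hadd : ∀ v v', π (θ (s (v + v'))) = π (θ (s v)) + π (θ (s v')) := by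
      intro v v'
      rw [← hπmul, ← map_mul]
      apply hθwd
      rw [hπmul, hs, hs, hs]
    refine ⟨(AddMonoidHom.mk' (fun v => π (θ (s v))) hadd).toZModLinearMap p, ?_⟩
    intro a
    show π (θ (s (π a))) = π (θ a)
    exact hθwd _ _ (hs _)
  have hxpow : ∀ (k : ℕ) a, (x ^ k) (π a) = π ((θ^[k]) a) := by
    intro k
    induction k with
    | zero => intro a; simp
    | succ k ih =>
      intro a
      rw [pow_succ, Module.End.mul_apply, hxdef, ih, Function.iterate_succ_apply]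
  have hBnd : B.Nondegenerate := by
    constructor
    · intro v hv
      obtain ⟨a, rfl⟩ := hπsurj v
      rw [hπker, Subgroup.mem_center_iff]
      intro b
      have h1 := hv (π b)
      rw [hBπ, hc0] at h1
      exact h1.symm
    · intro w hw
      obtain ⟨b, rfl⟩ := hπsurj w
      rw [hπker, Subgroup.mem_center_iff]
      intro a
      have h1 := hw (π a)
      rw [hBπ, hc0] at h1
      exact h1
  have hBrefl : B.IsRefl := by
    intro v w hvw
    obtain ⟨a, rfl⟩ := hπsurj v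
    obtain ⟨b, rfl⟩ := hπsurj w
    rw [hBπ, hc0] at hvw ⊢
    exact hvw.symm
  have hxh : x ^ h = 1 := by
    ext v
    obtain ⟨a, rfl⟩ := hπsurj v
    rw [hxpow, hθh]; rfl
  have hBx : ∀ u v, B (x u) (x v) = B u v := by
    intro u v
    obtain ⟨a, rfl⟩ := hπsurj u
    obtain ⟨b, rfl⟩ := hπsurj v
    rw [hxdef, hxdef, hBπ, hBπ, hθc]
  have hkz : ∀ (i : ℕ) (b : P), b ∈ Subgroup.center P → (θ^[i]) b = b := by
    intro i
    induction i with
    | zero => intro b _; rfl
    | succ i ihi => intro b hb; rw [Function.iterate_succ_apply, hcen b hb, ihi b hb]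
  have hkmul : ∀ (i : ℕ) (b b' : P), (θ^[i]) (b * b') = (θ^[i]) b * (θ^[i]) b' := by
    intro i
    induction i with
    | zero => intro b b'; rfl
    | succ i ihi =>
      intro b b'
      rw [Function.iterate_succ_apply, Function.iterate_succ_apply,
        Function.iterate_succ_apply, map_mul, ihi]
  have hfree : ∀ (k : ℕ) (v : V), (x ^ k) v = v → v ≠ 0 → h ∣ k := by
    intro k v hv hv0
    obtain ⟨a, rfl⟩ := hπsurj v
    by_contra hk
    apply hv0
    rw [hπker]
    apply hfix k hk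
    rw [hxpow] at hv
    obtain ⟨z, hz⟩ : ∃ z, z = a⁻¹ * (θ^[k]) a := ⟨_, rfl⟩
    have hzc : z ∈ Subgroup.center P := hz ▸ hπeq _ _ hv.symm
    have hθk : (θ^[k]) a = a * z := by rw [hz]; group
    have hθkz : ∀ j : ℕ, ((θ^[k])^[j]) a = a * z ^ j := by
      intro j
      induction j with
      | zero => simp
      | succ j ih =>
        rw [Function.iterate_succ_apply', ih, hkmul, hkz _ _ (Subgroup.pow_mem _ hzc j), hθk,
          mul_assoc, ← pow_succ']
    have h1 : a * z ^ h = a := by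
      rw [← hθkz, ← Function.iterate_mul, mul_comm, Function.iterate_mul]
      exact Function.iterate_fixed (hθh a) k
    have hzh : z ^ h = 1 := by
      have := mul_left_cancel (h1.trans (mul_one a).symm)
      exact this
    have hz1 : z = 1 := by
      rw [← orderOf_eq_one_iff]
      have d1 : orderOf z ∣ h := orderOf_dvd_of_pow_eq_one hzh
      have d2 : orderOf z ∣ p := orderOf_dvd_of_pow_eq_one (hzp z hzc)
      have d3 : orderOf z ∣ Nat.gcd h p := Nat.dvd_gcd d1 d2
      rw [Nat.Coprime] at hcop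
      rw [hcop] at d3
      exact Nat.dvd_one.mp d3
    rw [hθk, hz1, mul_one]
  have hfr : Module.finrank (ZMod p) V = 2 * n := by
    letI : Fintype V := Fintype.ofFinite V
    have h1 : Nat.card V = p ^ Module.finrank (ZMod p) V := by
      rw [Nat.card_eq_fintype_card, Module.card_eq_pow_finrank (K := ZMod p), ZMod.card]
    rw [hV] at h1
    exact (Nat.pow_right_injective hp.two_le h1).symm
  obtain ⟨n', hn', hs'⟩ := sympl_ind h hh hcop h2 (2 * n) V B x hBnd hBrefl hxh hBx hfree hfr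
  have hnn : n' = n := by omega
  subst hnn
  exact sign_to_dvd hp.pos h n' hs'

end Cfsg.Agent.Lib.Helper22.FP
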