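import Mathlib
import Cfsg.Prelude.Def_Transfer
import Cfsg.Agent.Lib.Helper28.ESDecomp
import Cfsg.Agent.Lib.Helper22.FP3

set_option autoImplicit false

namespace Cfsg.Agent.Lib.Helper22.FP

open scoped commutatorElement

universe u

theorem es_abstract {P : Type u} [Group P] [Finite P] {p : ℕ} [Fact p.Prime]
    (hP : Cfsg.IsExtraspecial p P) (n : ℕ) (hn : Nat.card P = p ^ (2 * n + 1))
    (θ : P →* P) (h : ℕ) (hh : 0 < h) (hcop : h.Coprime p) (h2 : ¬ h ∣ 2)
    (hθh : ∀ a, (θ^[h]) a = a)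
    (hcen : ∀ a ∈ Subgroup.center P, θ a = a)
    (hfix : ∀ k : ℕ, ¬ h ∣ k → ∀ a, (θ^[k]) a = a → a ∈ Subgroup.center P) :
    h ∣ p ^ n + 1 ∨ h ∣ p ^ n - 1 := by
  classical
  have hp := (Fact.out : p.Prime)
  obtain ⟨⟨hPp, hfrat, hcomm⟩, hZ⟩ := hP
  have hcc : ∀ a b : P, ⁅a, b⁆ ∈ Subgroup.center P := by
    intro a b
    rw [← hcomm, commutator_def]
    exact Subgroup.commutator_mem_commutator (Subgroup.mem_top a) (Subgroup.mem_top b)
  have hpow : ∀ a : P, a ^ p ∈ Subgroup.center P := by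
    intro a; rw [← hfrat]; exact Cfsg.Agent.Lib.Helper28.pow_mem_frattini hPp a
  have hcardM : Nat.card (Multiplicative (ZMod p)) = p := by
    rw [Nat.card_eq_fintype_card, Fintype.card_multiplicative, ZMod.card]
  obtain ⟨ι⟩ : Nonempty (Subgroup.center P ≃* Multiplicative (ZMod p)) :=
    ⟨mulEquivOfPrimeCardEq hZ hcardM⟩
  have hmul1 : ∀ a a' b : P, ⁅a * a', b⁆ = ⁅a, b⁆ * ⁅a', b⁆ := by
    intro a a' b
    have hzc := Subgroup.mem_center_iff.mp (hcc a' b)
    calc ⁅a * a', b⁆ = a * ⁅a', b⁆ * (b * a⁻¹ * b⁻¹) := by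
          simp only [commutatorElement_def]; group
      _ = ⁅a', b⁆ * a * (b * a⁻¹ * b⁻¹) := by rw [hzc a]
      _ = ⁅a', b⁆ * ⁅a, b⁆ := by simp only [commutatorElement_def]; group
      _ = ⁅a, b⁆ * ⁅a', b⁆ := (hzc _).symm
  have hmul2 : ∀ a b b' : P, ⁅a, b * b'⁆ = ⁅a, b⁆ * ⁅a, b'⁆ := by
    intro a b b'
    have hzc := Subgroup.mem_center_iff.mp (hcc a b')
    calc ⁅a, b * b'⁆ = (a * b * a⁻¹) * ⁅a, b'⁆ * b⁻¹ := by
          simp only [commutatorElement_def]; group
      _ = ⁅a, b'⁆ * (a * b * a⁻¹) * b⁻¹ := by rw [hzc (a * b * a⁻¹)]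
      _ = ⁅a, b'⁆ * ⁅a, b⁆ := by simp only [commutatorElement_def]; group
      _ = ⁅a, b⁆ * ⁅a, b'⁆ := (hzc _).symm
  obtain ⟨c, hcdef⟩ : ∃ c : P → P → ZMod p,
      ∀ a b, c a b = (ι ⟨⁅a, b⁆, hcc a b⟩).toAdd := ⟨_, fun a b => rfl⟩
  have hc1 : ∀ a a' b, c (a * a') b = c a b + c a' b := by
    intro a a' b
    rw [hcdef, hcdef, hcdef, ← toAdd_mul, ← map_mul]
    congr 2
    exact Subtype.ext (hmul1 a a' b)
  have hc2 : ∀ a b b', c a (b * b') = c a b + c a b' := by
    intro a b b'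
    rw [hcdef, hcdef, hcdef, ← toAdd_mul, ← map_mul]
    congr 2
    exact Subtype.ext (hmul2 a b b')
  have hc0 : ∀ a b, c a b = 0 ↔ a * b = b * a := by
    intro a b
    rw [hcdef, ← commutatorElement_eq_one_iff_mul_comm]
    constructor
    · intro h0
      have h1 : ι ⟨⁅a, b⁆, hcc a b⟩ = 1 := Multiplicative.toAdd.injective h0
      have h3 : (⟨⁅a, b⁆, hcc a b⟩ : Subgroup.center P) = 1 :=
        ι.injective (h1.trans (map_one ι).symm)
      exact congrArg Subtype.val h3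
    · intro h0
      have h3 : (⟨⁅a, b⁆, hcc a b⟩ : Subgroup.center P) = 1 := Subtype.ext h0
      rw [h3, map_one]; rfl
  have hθc : ∀ a b, c (θ a) (θ b) = c a b := by
    intro a b
    rw [hcdef, hcdef]
    congr 2
    apply Subtype.ext
    show ⁅θ a, θ b⁆ = ⁅a, b⁆
    rw [← map_commutatorElement, hcen _ (hcc a b)]
  have hzp : ∀ a ∈ Subgroup.center P, a ^ p = 1 := by
    intro a ha
    have h1 : (⟨a, ha⟩ : Subgroup.center P) ^ Nat.card (Subgroup.center P) = 1 :=
      pow_card_eq_one'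
    rw [hZ] at h1
    exact congrArg Subtype.val h1
  letI cg : CommGroup (P ⧸ Subgroup.center P) :=
    { (inferInstance : Group (P ⧸ Subgroup.center P)) with
      mul_comm := by
        intro u v
        induction u using QuotientGroup.induction_on with
        | H a =>
        induction v using QuotientGroup.induction_on with
        | H b =>
        show ((a * b : P) : P ⧸ Subgroup.center P) = ((b * a : P) : P ⧸ Subgroup.center P)
        rw [QuotientGroup.eq]
        have h1 := hcc b⁻¹ a⁻¹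
        rw [commutatorElement_def] at h1
        have e : (a * b)⁻¹ * (b * a) = b⁻¹ * a⁻¹ * b⁻¹⁻¹ * a⁻¹⁻¹ := by group
        rw [e]; exact h1 }
  letI md : Module (ZMod p) (Additive (P ⧸ Subgroup.center P)) :=
    AddCommGroup.zmodModule (by
      intro v
      obtain ⟨a, ha⟩ := QuotientGroup.mk_surjective v.toMul
      have h1 : ((a ^ p : P) : P ⧸ Subgroup.center P) = 1 :=
        (QuotientGroup.eq_one_iff _).mpr (hpow a)
      have h2 : v = Additive.ofMul (a : P ⧸ Subgroup.center P) := by rw [ha]; rfl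
      rw [h2, ← ofMul_pow, ← QuotientGroup.mk_pow, h1]; rfl)
  have hV : Nat.card (Additive (P ⧸ Subgroup.center P)) = p ^ (2 * n) := by
    have h1 := Subgroup.card_eq_card_quotient_mul_card_subgroup (Subgroup.center P)
    rw [hn, hZ, pow_succ] at h1
    have h2 := Nat.eq_of_mul_eq_mul_right hp.pos h1
    rw [h2]
    exact Nat.card_congr Additive.toMul
  refine bridge (P := P) (V := Additive (P ⧸ Subgroup.center P))
    (fun a : P => Additive.ofMul (QuotientGroup.mk a : P ⧸ Subgroup.center P))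
    (fun a b => rfl) ?_ ?_ c hc1 hc2 hc0 θ hθc
    h n hh hcop h2 hV hθh hcen hzp hfix
  · intro v
    obtain ⟨a, ha⟩ := QuotientGroup.mk_surjective v.toMul
    exact ⟨a, congrArg Additive.ofMul ha⟩
  · intro a
    exact QuotientGroup.eq_one_iff a

end Cfsg.Agent.Lib.Helper22.FP
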