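import Mathlib

set_option autoImplicit false

namespace Cfsg.Agent.Lib.Helper22.FQ

open Polynomial

theorem irrF_core {F : Type*} [Field F] [Fintype F] {W : Type*} [AddCommGroup W] [Module F W]
    [FiniteDimensional F W] [Nontrivial W] (x : Module.End F W) (h : ℕ) (hh : 0 < h)
    (hx : x ^ h = 1) (hord : ∀ k : ℕ, x ^ k = 1 → h ∣ k)
    (hirr : ∀ S : Submodule F W, S ≤ S.comap x → S = ⊥ ∨ S = ⊤) :
    (∀ B : LinearMap.BilinForm F W, B.Nondegenerate → (∀ u v, B (x u) (x v) = B u v) →
      h ∣ 2 ∨ ∃ j, Module.finrank F W = 2 * j ∧ h ∣ Fintype.card F ^ j + 1) ∧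
    (∀ j, Module.finrank F W = 2 * j → h ∣ Fintype.card F ^ j + 1 →
      ∃ B : LinearMap.BilinForm F W, B.Nondegenerate ∧ ∀ u v, B (x u) (x v) = B u v) := by
  classical
  have hint : IsIntegral F x := IsIntegral.of_finite F x
  obtain ⟨m, hmdef⟩ : ∃ m, m = minpoly F x := ⟨_, rfl⟩
  have hm0 : m ≠ 0 := hmdef ▸ minpoly.ne_zero hint
  have hmx : aeval x m = 0 := hmdef ▸ minpoly.aeval _ _
  have hdvd : ∀ f : F[X], aeval x f = 0 → m ∣ f := fun f hf => hmdef ▸ minpoly.dvd _ _ hf
  have hcomm : ∀ f : F[X], aeval x f * x = x * aeval x f := fun f => by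
    have h1 : aeval x (f * X) = aeval x f * x := by rw [map_mul, aeval_X]
    have h2 : aeval x (X * f) = x * aeval x f := by rw [map_mul, aeval_X]
    rw [← h1, ← h2, mul_comm]
  have hker : ∀ f : F[X], ∀ w : W, w ≠ 0 → aeval x f w = 0 → aeval x f = 0 := by
    intro f w hw hfw
    have hinv : LinearMap.ker (aeval x f) ≤ (LinearMap.ker (aeval x f)).comap x := by
      intro u hu
      rw [Submodule.mem_comap, LinearMap.mem_ker]
      rw [LinearMap.mem_ker] at hu
      have := LinearMap.congr_fun (hcomm f) u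
      rw [Module.End.mul_apply, Module.End.mul_apply, hu, map_zero] at this
      exact this
    rcases hirr _ hinv with hk | hk
    · exfalso; apply hw
      have : w ∈ LinearMap.ker (aeval x f) := hfw
      rw [hk] at this; exact (Submodule.mem_bot _).mp this
    · exact LinearMap.ker_eq_top.mp hk
  have hmirr : Irreducible m := by
    refine ⟨hmdef ▸ minpoly.not_isUnit _ _, ?_⟩
    intro f g hfg
    have hf0 : f ≠ 0 := by rintro rfl; rw [zero_mul] at hfg; exact hm0 hfg
    have hg0 : g ≠ 0 := by rintro rfl; rw [mul_zero] at hfg; exact hm0 hfg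
    have h0 : aeval x f * aeval x g = 0 := by rw [← map_mul, ← hfg]; exact hmx
    by_cases hg : aeval x g = 0
    · left
      have h1 : m ∣ g := hdvd g hg
      have h2 : Associated (g * f) g :=
        associated_of_dvd_dvd (by rw [mul_comm, ← hfg]; exact h1) (dvd_mul_right g f)
      exact isUnit_of_associated_mul h2 hg0
    · right
      have hf : aeval x f = 0 := by
        obtain ⟨w, hw⟩ : ∃ w, aeval x g w ≠ 0 := by
          by_contra hcon
          apply hg
          ext w
          by_contra hw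
          exact hcon ⟨w, hw⟩
        apply hker f (aeval x g w) hw
        have := LinearMap.congr_fun h0 w
        rwa [Module.End.mul_apply] at this
      have h1 : m ∣ f := hdvd f hf
      have h2 : Associated (f * g) f :=
        associated_of_dvd_dvd (by rw [← hfg]; exact h1) (dvd_mul_right f g)
      exact isUnit_of_associated_mul h2 hf0
  haveI : Fact (Irreducible m) := ⟨hmirr⟩
  haveI : Module.Finite F (AdjoinRoot m) := (AdjoinRoot.powerBasis hm0).finite
  haveI : Finite (AdjoinRoot m) := Module.finite_of_finite F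
  obtain ⟨φ, hφα⟩ : ∃ φ : AdjoinRoot m →ₐ[F] Module.End F W,
      φ (AdjoinRoot.root m) = x := by
    have hI : ∀ a : F[X], a ∈ Ideal.span {m} → (aeval x) a = 0 := by
      intro a ha
      obtain ⟨c, rfl⟩ := Ideal.mem_span_singleton.mp ha
      rw [map_mul, hmx, zero_mul]
    refine ⟨Ideal.Quotient.liftₐ (Ideal.span {m}) (aeval x) hI, ?_⟩
    have hroot : AdjoinRoot.root m = Ideal.Quotient.mk (Ideal.span {m}) X := rfl
    rw [hroot]
    exact aeval_X x
  obtain ⟨α, hαdef⟩ : ∃ a, a = AdjoinRoot.root m := ⟨_, rfl⟩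
  rw [← hαdef] at hφα
  obtain ⟨v₀, hv₀⟩ := exists_ne (0 : W)
  have hφinj : ∀ l : AdjoinRoot m, φ l v₀ = 0 → l = 0 := by
    intro l hl
    by_contra hne
    have h1 : φ (l⁻¹ * l) v₀ = v₀ := by rw [inv_mul_cancel₀ hne, map_one]; rfl
    rw [map_mul, Module.End.mul_apply, hl, map_zero] at h1
    exact hv₀ h1.symm
  have hαpow : ∀ k : ℕ, α ^ k = 1 → h ∣ k := by
    intro k hk
    apply hord
    have := congrArg φ hk
    rwa [map_pow, hφα, map_one] at this
  have hαh : α ^ h = 1 := by
    have h1 : φ (α ^ h - 1) v₀ = 0 := by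
      rw [map_sub, map_pow, hφα, hx, map_one, sub_self]; rfl
    exact sub_eq_zero.mp (hφinj _ h1)
  have hα0 : α ≠ 0 := by
    intro h0
    rw [h0, zero_pow hh.ne'] at hαh
    exact zero_ne_one hαh
  obtain ⟨ψ, hψ⟩ : ∃ ψ : AdjoinRoot m →ₗ[F] W, ∀ l, ψ l = φ l v₀ :=
    ⟨(LinearMap.applyₗ v₀).comp φ.toLinearMap, fun l => rfl⟩
  have hψinj : Function.Injective ψ := by
    rw [← LinearMap.ker_eq_bot, LinearMap.ker_eq_bot']
    intro l hl; rw [hψ] at hl; exact hφinj l hl
  have hψsurj : Function.Surjective ψ := by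
    rw [← LinearMap.range_eq_top]
    have hinv : LinearMap.range ψ ≤ (LinearMap.range ψ).comap x := by
      rintro _ ⟨l, rfl⟩
      rw [Submodule.mem_comap]
      refine ⟨α * l, ?_⟩
      rw [hψ, hψ, map_mul, hφα, Module.End.mul_apply]
    rcases hirr _ hinv with hk | hk
    · exfalso
      have : ψ 1 ∈ LinearMap.range ψ := ⟨1, rfl⟩
      rw [hk, Submodule.mem_bot, hψ, map_one] at this
      exact hv₀ this
    · exact hk
  have hfin : Module.finrank F (AdjoinRoot m) = Module.finrank F W :=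
    (LinearEquiv.ofBijective ψ ⟨hψinj, hψsurj⟩).finrank_eq
  have hfrob : ∀ (n : ℕ) (a : AdjoinRoot m),
      ((FiniteField.frobeniusAlgHom F (AdjoinRoot m)) ^ n) a = a ^ (Fintype.card F ^ n) := by
    intro n a
    rw [AlgHom.coe_pow, FiniteField.coe_frobeniusAlgHom, pow_iterate]
  refine ⟨?_, ?_⟩
  swap
  · intro j hj hdj
    obtain ⟨σ, hσdef⟩ : ∃ σ : AdjoinRoot m →ₐ[F] AdjoinRoot m,
        σ = (FiniteField.frobeniusAlgHom F (AdjoinRoot m)) ^ j := ⟨_, rfl⟩
    have hσα : σ α = α⁻¹ := by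
      rw [hσdef, hfrob]
      apply eq_inv_of_mul_eq_one_left
      rw [← pow_succ]
      obtain ⟨c, hc⟩ := hdj
      rw [hc, pow_mul, hαh, one_pow]
    have hσinj : Function.Injective σ := σ.toRingHom.injective
    have hσsurj : Function.Surjective σ := Finite.injective_iff_surjective.mp hσinj
    obtain ⟨e, he⟩ : ∃ e : AdjoinRoot m ≃ₗ[F] W, ∀ l, e l = ψ l :=
      ⟨LinearEquiv.ofBijective ψ ⟨hψinj, hψsurj⟩, fun l => rfl⟩
    have hex : ∀ u, e.symm (x u) = α * e.symm u := by
      intro u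
      apply e.injective
      rw [LinearEquiv.apply_symm_apply, he, hψ, map_mul, hφα, Module.End.mul_apply, ← hψ, ← he,
        LinearEquiv.apply_symm_apply]
    obtain ⟨B, hBdef⟩ : ∃ B : LinearMap.BilinForm F W, ∀ u v,
        B u v = Algebra.trace F (AdjoinRoot m) (e.symm u * σ (e.symm v)) :=
      ⟨(Algebra.traceForm F (AdjoinRoot m)).compl₁₂ e.symm.toLinearMap
        (σ.toLinearMap ∘ₗ e.symm.toLinearMap), fun u v => rfl⟩
    have hnd := traceForm_nondegenerate F (AdjoinRoot m)
    refine ⟨B, ⟨?_, ?_⟩, ?_⟩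
    · intro u hu
      have h1 : e.symm u = 0 := by
        apply hnd.1
        intro c
        obtain ⟨d, hd⟩ := hσsurj c
        have h2 := hu (e d)
        rw [hBdef, LinearEquiv.symm_apply_apply, hd] at h2
        rw [Algebra.traceForm_apply]; exact h2
      have h3 := congrArg e h1
      rwa [LinearEquiv.apply_symm_apply, map_zero] at h3
    · intro v hv
      have h1 : σ (e.symm v) = 0 := by
        apply hnd.2
        intro c
        have h2 := hv (e c)
        rw [hBdef, LinearEquiv.symm_apply_apply] at h2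
        rw [Algebra.traceForm_apply]; exact h2
      have h1' : e.symm v = 0 := hσinj (h1.trans (map_zero σ).symm)
      have h3 := congrArg e h1'
      rwa [LinearEquiv.apply_symm_apply, map_zero] at h3
    · intro u v
      rw [hBdef, hBdef, hex, hex, map_mul σ, hσα]
      congr 1
      field_simp
  intro B hB hBinv
  have hxx' : x * φ α⁻¹ = 1 := by
    rw [← hφα, ← map_mul, mul_inv_cancel₀ hα0, map_one]
  have hadj1 : ∀ u v, B (x u) v = B u (φ α⁻¹ v) := by
    intro u v
    have := hBinv u (φ α⁻¹ v)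
    rw [← Module.End.mul_apply, hxx', Module.End.one_apply] at this
    exact this
  have hadjn : ∀ n : ℕ, ∀ u v, B ((x ^ n) u) v = B u ((φ α⁻¹ ^ n) v) := by
    intro n
    induction n with
    | zero => intro u v; simp
    | succ n ih =>
      intro u v
      have e1 : (x ^ (n + 1)) u = (x ^ n) (x u) := by rw [pow_succ, Module.End.mul_apply]
      have e2 : (φ α⁻¹ ^ (n + 1)) v = φ α⁻¹ ((φ α⁻¹ ^ n) v) := by
        rw [pow_succ', Module.End.mul_apply]
      rw [e1, e2, ih, hadj1]
  have hadjf : ∀ f : F[X], ∀ u v, B (aeval x f u) v = B u (aeval (φ α⁻¹) f v) := by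
    intro f
    induction f using Polynomial.induction_on' with
    | add f g hf hg =>
      intro u v
      rw [map_add, map_add, LinearMap.add_apply, LinearMap.add_apply, map_add,
        LinearMap.add_apply, map_add, hf, hg]
    | monomial n a =>
      intro u v
      rw [aeval_monomial, aeval_monomial, Module.End.mul_apply, Module.End.mul_apply,
        Module.algebraMap_end_apply, Module.algebraMap_end_apply, map_smul, map_smul,
        LinearMap.smul_apply, hadjn]
  have hmx' : aeval (φ α⁻¹) m = 0 := by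
    ext v
    have h1 : ∀ u, B u (aeval (φ α⁻¹) m v) = 0 := fun u => by
      rw [← hadjf, hmx]; simp
    exact hB.2 _ h1
  have hroot : m.eval₂ (Algebra.ofId F (AdjoinRoot m)) α⁻¹ = 0 := by
    have h1 : aeval (α⁻¹) m = 0 := by
      have h2 : φ (aeval (α⁻¹) m) v₀ = 0 := by
        rw [← aeval_algHom_apply, hmx']; rfl
      exact hφinj _ h2
    exact h1
  obtain ⟨σ, hσ⟩ : ∃ σ : AdjoinRoot m →ₐ[F] AdjoinRoot m, σ α = α⁻¹ :=
    ⟨AdjoinRoot.liftAlgHom m (Algebra.ofId F (AdjoinRoot m)) α⁻¹ hroot,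
      (congrArg (AdjoinRoot.liftAlgHom m (Algebra.ofId F (AdjoinRoot m)) α⁻¹ hroot) hαdef).trans
        (AdjoinRoot.liftAlgHom_root m _ _ hroot)⟩
  obtain ⟨i, hi⟩ := (FiniteField.bijective_frobeniusAlgHom_pow F (AdjoinRoot m)).2 σ
  have hi' : (FiniteField.frobeniusAlgHom F (AdjoinRoot m)) ^ i.1 = σ := hi
  have hαi : α ^ (Fintype.card F ^ i.1 + 1) = 1 := by
    have h1 : α ^ (Fintype.card F ^ i.1) = α⁻¹ := by rw [← hfrob, hi', hσ]
    rw [pow_succ, h1, inv_mul_cancel₀ hα0]
  have hdivi : h ∣ Fintype.card F ^ i.1 + 1 := hαpow _ hαi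
  have hσσ : σ * σ = 1 := by
    apply AdjoinRoot.algHom_ext
    rw [AlgHom.mul_apply, AlgHom.one_apply, ← hαdef, hσ, map_inv₀, hσ, inv_inv]
  have hord2 : Module.finrank F (AdjoinRoot m) ∣ 2 * i.1 := by
    have h1 : orderOf (FiniteField.frobeniusAlgHom F (AdjoinRoot m)) ∣ 2 * i.1 := by
      apply orderOf_dvd_of_pow_eq_one
      rw [two_mul, pow_add, hi', hσσ]
    rwa [FiniteField.orderOf_frobeniusAlgHom] at h1
  have hilt : i.1 < Module.finrank F (AdjoinRoot m) := i.2
  obtain ⟨c, hc⟩ := hord2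
  have hc2 : c = 0 ∨ c = 1 := by
    rcases Nat.lt_or_ge c 2 with h2 | h2
    · omega
    · exfalso
      have : 2 * Module.finrank F (AdjoinRoot m) ≤ Module.finrank F (AdjoinRoot m) * c :=
        by rw [mul_comm]; exact Nat.mul_le_mul_left _ h2
      omega
  rcases hc2 with rfl | rfl
  · left
    have hi0 : i.1 = 0 := by omega
    rw [hi0, pow_zero] at hdivi
    exact hdivi
  · right
    refine ⟨i.1, ?_, hdivi⟩
    rw [← hfin]; omega

end Cfsg.Agent.Lib.Helper22.FQ
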