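import Mathlib
import Cfsg.Agent.Lib.Helper22.FQ1

set_option autoImplicit false

namespace Cfsg.Agent.Lib.Helper22.FQ

theorem finrank_eq_one_of_sq {F : Type*} [Field F] {V : Type*} [AddCommGroup V] [Module F V]
    [Nontrivial V] (x : Module.End F V) (hx2 : x ^ 2 = 1)
    (hirr : ∀ S : Submodule F V, S ≤ S.comap x → S = ⊥ ∨ S = ⊤) :
    Module.finrank F V = 1 := by
  have hxx : ∀ u, x (x u) = u := by
    intro u
    have h1 := LinearMap.congr_fun hx2 u
    rw [pow_two, Module.End.mul_apply, Module.End.one_apply] at h1
    exact h1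
  have hall : ∀ S : Submodule F V, S ≤ S.comap x := by
    have hK : LinearMap.ker (x - 1) ≤ (LinearMap.ker (x - 1)).comap x := by
      intro u hu
      rw [Submodule.mem_comap, LinearMap.mem_ker, LinearMap.sub_apply, Module.End.one_apply]
      rw [LinearMap.mem_ker, LinearMap.sub_apply, Module.End.one_apply, sub_eq_zero] at hu
      rw [hu, hu, sub_self]
    rcases hirr _ hK with hk | hk
    · have hneg : ∀ u, x u = -u := by
        intro u
        have h1 : x u + u ∈ LinearMap.ker (x - 1) := by
          rw [LinearMap.mem_ker, LinearMap.sub_apply, Module.End.one_apply, map_add, hxx]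
          abel
        rw [hk, Submodule.mem_bot] at h1
        exact eq_neg_of_add_eq_zero_left h1
      intro S u hu
      rw [Submodule.mem_comap, hneg]
      exact S.neg_mem hu
    · have hid : ∀ u, x u = u := by
        intro u
        have h1 : u ∈ LinearMap.ker (x - 1) := by rw [hk]; exact Submodule.mem_top
        rw [LinearMap.mem_ker, LinearMap.sub_apply, Module.End.one_apply, sub_eq_zero] at h1
        exact h1
      intro S u hu
      rw [Submodule.mem_comap, hid]
      exact hu
  obtain ⟨v, hv⟩ := exists_ne (0 : V)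
  rcases hirr (Submodule.span F {v}) (hall _) with hS | hS
  · exfalso
    rw [Submodule.span_singleton_eq_bot] at hS
    exact hv hS
  · rw [← finrank_top F V, ← hS, finrank_span_singleton hv]

theorem cyclic_of_faithful_irr {F : Type*} [Field F] {H : Type*} [CommGroup H] [Finite H]
    {V : Type*} [AddCommGroup V] [Module F V] [Nontrivial V]
    (ρ : H →* Module.End F V) (hfaith : Function.Injective ρ)
    (hirr : ∀ U : Submodule F V, (∀ h : H, ∀ u ∈ U, ρ h u ∈ U) → U = ⊥ ∨ U = ⊤) :
    IsCyclic H := by
  classical
  have hcommρ : ∀ a b : H, ρ a * ρ b = ρ b * ρ a := fun a b => by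
    rw [← map_mul, ← map_mul, mul_comm]
  have hcomm : ∀ a ∈ Set.range ρ, ∀ b ∈ Set.range ρ, a * b = b * a := by
    rintro _ ⟨a, rfl⟩ _ ⟨b, rfl⟩; exact hcommρ a b
  letI : CommRing (Algebra.adjoin F (Set.range ρ)) := Algebra.adjoinCommRingOfComm F hcomm
  have hTc : ∀ a : Algebra.adjoin F (Set.range ρ), ∀ g : H,
      (a : Module.End F V) * ρ g = ρ g * a := by
    intro a g
    have h1 : Algebra.adjoin F (Set.range ρ) ≤ Subalgebra.centralizer F (Set.range ρ) := by
      apply Algebra.adjoin_le
      rintro _ ⟨b, rfl⟩
      rw [SetLike.mem_coe, Subalgebra.mem_centralizer_iff]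
      rintro _ ⟨c, rfl⟩
      exact hcommρ c b
    have h2 := (Subalgebra.mem_centralizer_iff F).mp (h1 a.2) (ρ g) ⟨g, rfl⟩
    exact h2.symm
  haveI : NoZeroDivisors (Algebra.adjoin F (Set.range ρ)) := by
    constructor
    intro a b hab
    by_contra hne
    rw [not_or] at hne
    obtain ⟨ha, hb⟩ := hne
    have hb' : (b : Module.End F V) ≠ 0 := fun h0 => hb (Subtype.ext h0)
    obtain ⟨v, hv⟩ : ∃ v, (b : Module.End F V) v ≠ 0 := by
      by_contra hcon
      apply hb'
      ext w
      by_contra hw
      exact hcon ⟨w, hw⟩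
    have hab' : (a : Module.End F V) * b = 0 := congrArg Subtype.val hab
    have hker : LinearMap.ker (a : Module.End F V) = ⊤ := by
      rcases hirr (LinearMap.ker (a : Module.End F V)) (by
        intro g u hu
        rw [LinearMap.mem_ker] at hu ⊢
        have h3 := LinearMap.congr_fun (hTc a g) u
        rw [Module.End.mul_apply, Module.End.mul_apply, hu, map_zero] at h3
        exact h3) with hk | hk
      · exfalso
        have h4 : (b : Module.End F V) v ∈ LinearMap.ker (a : Module.End F V) := by
          rw [LinearMap.mem_ker, ← Module.End.mul_apply, hab']; rfl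
        rw [hk, Submodule.mem_bot] at h4
        exact hv h4
      · exact hk
    apply ha
    apply Subtype.ext
    exact LinearMap.ker_eq_top.mp hker
  haveI : IsDomain (Algebra.adjoin F (Set.range ρ)) := NoZeroDivisors.to_isDomain _
  let f : H →* Algebra.adjoin F (Set.range ρ) :=
    { toFun := fun g => ⟨ρ g, Algebra.subset_adjoin ⟨g, rfl⟩⟩
      map_one' := Subtype.ext (map_one ρ)
      map_mul' := fun a b => Subtype.ext (map_mul ρ a b) }
  have hf : Function.Injective f := by
    intro a b hab
    apply hfaith
    exact congrArg Subtype.val hab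
  exact isCyclic_of_injective_ringHom f hf

end Cfsg.Agent.Lib.Helper22.FQ
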