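import Mathlib

/-!
Helper lemmas (helper22): a `p`-group with a unique subgroup of a given intermediate order
is cyclic.
-/

namespace Cfsg.Agent.Lib.Helper22

/-- Power formula when the "commutator" `w` of `y` and `b` commutes with both. -/
theorem mul_pow_of_commutator_commute {G : Type*} [Group G] (b y w : G)
    (h : y * b = b * y * w) (hwb : Commute w b) (hwy : Commute w y) :
    (∀ n : ℕ, y ^ n * b = b * y ^ n * w ^ n) ∧
    (∀ n : ℕ, (b * y) ^ n = b ^ n * y ^ n * w ^ (n.choose 2)) := by
  have hpow : ∀ n : ℕ, y ^ n * b = b * y ^ n * w ^ n := by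
    intro n
    induction n with
    | zero => simp
    | succ n ih =>
      calc y ^ (n + 1) * b = y ^ n * (y * b) := by rw [pow_succ, mul_assoc]
        _ = y ^ n * (b * y * w) := by rw [h]
        _ = (y ^ n * b) * y * w := by simp only [mul_assoc]
        _ = b * y ^ n * w ^ n * y * w := by rw [ih]
        _ = b * y ^ n * (y * w ^ n) * w := by rw [mul_assoc (b * y ^ n), (hwy.pow_left n).eq]
        _ = b * y ^ (n + 1) * w ^ (n + 1) := by simp only [pow_succ, mul_assoc]
  refine ⟨hpow, ?_⟩
  intro n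
  induction n with
  | zero => simp
  | succ n ih =>
    have hW : Commute (w ^ n.choose 2) (b * y) := (hwb.mul_right hwy).pow_left _
    have hc : (n + 1).choose 2 = n + n.choose 2 := by
      rw [Nat.choose_succ_succ, Nat.choose_one_right]
    rw [pow_succ, ih, hc, pow_add w, pow_succ b, pow_succ y]
    calc b ^ n * y ^ n * w ^ n.choose 2 * (b * y)
        = b ^ n * y ^ n * ((b * y) * w ^ n.choose 2) := by
          rw [mul_assoc (b ^ n * y ^ n), hW.eq]
      _ = b ^ n * ((y ^ n * b) * y) * w ^ n.choose 2 := by simp only [mul_assoc]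
      _ = b ^ n * ((b * y ^ n * w ^ n) * y) * w ^ n.choose 2 := by rw [hpow n]
      _ = b ^ n * (b * y ^ n * (y * w ^ n)) * w ^ n.choose 2 := by
          rw [mul_assoc (b * y ^ n), (hwy.pow_left n).eq]
      _ = b ^ n * b * (y ^ n * y) * (w ^ n * w ^ n.choose 2) := by simp only [mul_assoc]

/-- If `M1`, `M2` are abelian normal subgroups, `M2` of index `p`, `y ∈ M1`, `b ∈ M2` and
`p ∣ e.choose 2`, then `(b * y) ^ e = b ^ e * y ^ e`. -/
theorem mul_pow_of_two_abelian_index {G : Type*} [Group G] (p : ℕ) (M1 M2 : Subgroup G)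
    [hN1 : M1.Normal] [hN2 : M2.Normal] (h2 : M2.index = p)
    (c1 : ∀ x ∈ M1, ∀ x' ∈ M1, x * x' = x' * x) (c2 : ∀ x ∈ M2, ∀ x' ∈ M2, x * x' = x' * x)
    (y b : G) (hy : y ∈ M1) (hb : b ∈ M2) (e : ℕ) (he : p ∣ e.choose 2) :
    (b * y) ^ e = b ^ e * y ^ e := by
  have hw1 : y⁻¹ * b⁻¹ * y * b ∈ M1 := by
    have h3 : b⁻¹ * y * b ∈ M1 := by
      have := hN1.conj_mem y hy b⁻¹
      rwa [inv_inv] at this
    have : y⁻¹ * b⁻¹ * y * b = y⁻¹ * (b⁻¹ * y * b) := by group
    rw [this]
    exact M1.mul_mem (M1.inv_mem hy) h3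
  have hw2 : y⁻¹ * b⁻¹ * y * b ∈ M2 := by
    have h3 : y⁻¹ * b⁻¹ * y ∈ M2 := by
      have := hN2.conj_mem b⁻¹ (M2.inv_mem hb) y⁻¹
      rwa [inv_inv] at this
    exact M2.mul_mem h3 hb
  have hwy : Commute (y⁻¹ * b⁻¹ * y * b) y := c1 _ hw1 y hy
  have hwb : Commute (y⁻¹ * b⁻¹ * y * b) b := c2 _ hw2 b hb
  have h : y * b = b * y * (y⁻¹ * b⁻¹ * y * b) := by group
  obtain ⟨hpow, hmain⟩ := mul_pow_of_commutator_commute b y _ h hwb hwy
  have hwp : (y⁻¹ * b⁻¹ * y * b) ^ p = 1 := by
    have h4 : y ^ p ∈ M2 := by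
      rw [← h2]
      exact M2.pow_index_mem y
    have h5 := hpow p
    rw [c2 (y ^ p) h4 b hb] at h5
    exact mul_eq_left.mp h5.symm
  obtain ⟨c, hc⟩ := he
  rw [hmain e, hc, pow_mul, hwp, one_pow, mul_one]

/-- A subgroup properly containing a subgroup of prime index is everything. -/
theorem eq_top_of_index_prime_of_lt {G : Type*} [Group G] {p : ℕ} (hp : p.Prime)
    (M C : Subgroup G) (hM : M.index = p) (hMC : M ≤ C) (b : G) (hbC : b ∈ C) (hbM : b ∉ M) :
    C = ⊤ := by
  have h1 := Subgroup.relIndex_mul_index hMC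
  rw [hM] at h1
  have h2 : C.index ∣ p := Dvd.intro_left _ h1
  rcases (Nat.dvd_prime hp).mp h2 with h3 | h3
  · exact Subgroup.index_eq_one.mp h3
  · exfalso
    rw [h3] at h1
    have h4 : M.relIndex C = 1 := by
      have h5 : M.relIndex C * p = 1 * p := by rw [h1, one_mul]
      exact Nat.eq_of_mul_eq_mul_right hp.pos h5
    rw [Subgroup.relIndex_eq_one] at h4
    exact hbM (h4 hbC)

/-- A group of order `p ^ m` with a unique subgroup of order `p ^ s`, `1 ≤ s < m`
(and `2 ≤ s` if `p = 2`), is cyclic. -/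
theorem isCyclic_of_unique_subgroup_card.{u} (p : ℕ) (hp : p.Prime) (s : ℕ) (hs : 1 ≤ s)
    (h2 : p ≠ 2 ∨ 2 ≤ s) :
    ∀ (m : ℕ) (G : Type u) [Group G] [Finite G], Nat.card G = p ^ m → s < m →
      (∀ H K : Subgroup G, Nat.card H = p ^ s → Nat.card K = p ^ s → H = K) → IsCyclic G := by
  haveI : Fact p.Prime := ⟨hp⟩
  intro m
  induction m using Nat.strong_induction_on with
  | _ m ih =>
    intro G _ _ hG hsm huniq
    by_contra hnc
    have hz : ∀ x : G, Subgroup.zpowers x ≠ ⊤ := fun x hx =>
      hnc (isCyclic_iff_exists_zpowers_eq_top.mpr ⟨x, hx⟩)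
    have hOmega : ∀ (M : Subgroup G) (u : ℕ), Nat.card M = p ^ u → s ≤ u →
        ∀ x : G, x ^ (p ^ s) = 1 → x ∈ M := by
      intro M u hM hsu x hx
      obtain ⟨i, hi, hxi⟩ := (Nat.dvd_prime_pow hp).mp (orderOf_dvd_of_pow_eq_one hx)
      have hcz : Nat.card (Subgroup.zpowers x) = p ^ i := by rw [Nat.card_zpowers, hxi]
      obtain ⟨K, hK, hxK⟩ := Sylow.exists_subgroup_card_pow_prime_le p
        (by rw [hG]; exact pow_dvd_pow p hsm.le) (Subgroup.zpowers x) hcz hi
      obtain ⟨K0, hK0⟩ := Sylow.exists_subgroup_card_pow_prime (G := M) p (n := s)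
        (by rw [hM]; exact pow_dvd_pow p hsu)
      have hK' : Nat.card (K0.map M.subtype) = p ^ s := by rw [Subgroup.card_subtype, hK0]
      have hKK := huniq K (K0.map M.subtype) hK hK'
      have hxK' : x ∈ K := hxK (Subgroup.mem_zpowers x)
      rw [hKK] at hxK'
      exact Subgroup.map_subtype_le K0 hxK'
    have hmax : ∀ x : G, ∃ M : Subgroup G, Nat.card M = p ^ (m - 1) ∧ x ∈ M := by
      intro x
      have hdvd : Nat.card (Subgroup.zpowers x) ∣ p ^ m := by
        rw [← hG]
        exact Subgroup.card_subgroup_dvd_card _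
      obtain ⟨i, hi, hxi⟩ := (Nat.dvd_prime_pow hp).mp hdvd
      have hne : i ≠ m := by
        rintro rfl
        apply hz x
        rw [← Subgroup.card_eq_iff_eq_top, hxi, hG]
      obtain ⟨K, hK, hxK⟩ := Sylow.exists_subgroup_card_pow_prime_le p (m := m - 1)
        (by rw [hG]; exact pow_dvd_pow p (Nat.sub_le m 1)) (Subgroup.zpowers x) hxi (by omega)
      exact ⟨K, hK, hxK (Subgroup.mem_zpowers x)⟩
    have hidx : ∀ M : Subgroup G, Nat.card M = p ^ (m - 1) → M.index = p := by
      intro M hM
      have h3 := Subgroup.card_mul_index M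
      rw [hM, hG] at h3
      have h4 : p ^ (m - 1) * M.index = p ^ (m - 1) * p := by
        rw [h3, ← pow_succ]
        congr 1
        omega
      exact Nat.eq_of_mul_eq_mul_left (pow_pos hp.pos _) h4
    have hnormal : ∀ M : Subgroup G, Nat.card M = p ^ (m - 1) → M.Normal := by
      intro M hM
      apply Subgroup.normal_of_index_eq_minFac_card
      rw [hidx M hM, hG, Nat.pow_minFac (by omega), hp.minFac_eq]
    have hproper : ∀ M : Subgroup G, Nat.card M = p ^ (m - 1) → ∃ b, b ∉ M := by
      intro M hM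
      by_contra hcon
      push Not at hcon
      have h3 : M = ⊤ := eq_top_iff.mpr fun x _ => hcon x
      rw [← Subgroup.card_eq_iff_eq_top, hM, hG] at h3
      have := Nat.pow_right_injective hp.two_le h3
      omega
    rcases Nat.eq_or_lt_of_le (Nat.succ_le_of_lt hsm) with hm | hm
    · obtain ⟨H, hH⟩ := Sylow.exists_subgroup_card_pow_prime (G := G) p (n := s)
        (by rw [hG]; exact pow_dvd_pow p hsm.le)
      have hH' : Nat.card H = p ^ (m - 1) := by
        rw [hH]
        congr 1
        omega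
      obtain ⟨x, hx⟩ := hproper H hH'
      obtain ⟨M, hM, hxM⟩ := hmax x
      have hMH : M = H := huniq M H (by rw [hM]; congr 1; omega) hH
      rw [hMH] at hxM
      exact hx hxM
    · have hcyc : ∀ M : Subgroup G, Nat.card M = p ^ (m - 1) → IsCyclic M := by
        intro M hM
        apply ih (m - 1) (by omega) M hM (by omega)
        intro H K hH hK
        have h3 := huniq (H.map M.subtype) (K.map M.subtype)
          (by rw [Subgroup.card_subtype, hH]) (by rw [Subgroup.card_subtype, hK])
        exact Subgroup.map_injective M.subtype_injective h3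
      have hcomm : ∀ M : Subgroup G, Nat.card M = p ^ (m - 1) →
          ∀ x ∈ M, ∀ x' ∈ M, x * x' = x' * x := by
        intro M hM x hx x' hx'
        haveI := hcyc M hM
        obtain ⟨g, hg⟩ := IsCyclic.exists_generator (α := M)
        obtain ⟨k, hk⟩ := hg ⟨x, hx⟩
        obtain ⟨k', hk'⟩ := hg ⟨x', hx'⟩
        have e1 : x = (g : G) ^ k := by
          have := congrArg Subtype.val hk
          simpa using this.symm
        have e2 : x' = (g : G) ^ k' := by
          have := congrArg Subtype.val hk'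
          simpa using this.symm
        rw [e1, e2]
        exact (Commute.zpow_zpow_self (g : G) k k').eq
      obtain ⟨M1, hM1⟩ := Sylow.exists_subgroup_card_pow_prime (G := G) p (n := m - 1)
        (by rw [hG]; exact pow_dvd_pow p (Nat.sub_le m 1))
      obtain ⟨b, hb⟩ := hproper M1 hM1
      obtain ⟨M2, hM2, hbM2⟩ := hmax b
      haveI := hcyc M1 hM1
      haveI := hnormal M1 hM1
      haveI := hnormal M2 hM2
      obtain ⟨⟨a, haM⟩, ha⟩ := IsCyclic.exists_generator (α := M1)
      have hbp : b ^ p ∈ M1 := by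
        rw [← hidx M1 hM1]
        exact M1.pow_index_mem b
      obtain ⟨j, hj⟩ : ∃ j : ℕ, a ^ j = b ^ p := by
        have h3 := ha ⟨b ^ p, hbp⟩
        rw [← mem_powers_iff_mem_zpowers] at h3
        obtain ⟨j, hj⟩ := h3
        refine ⟨j, ?_⟩
        have := congrArg Subtype.val hj
        simpa using this
      have hpj : p ∣ j := by
        by_contra hpj
        have hcop : j.Coprime (orderOf a) := by
          have hoa : orderOf a ∣ p ^ m := by
            rw [← hG]
            exact orderOf_dvd_natCard a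
          obtain ⟨i, -, hi⟩ := (Nat.dvd_prime_pow hp).mp hoa
          rw [hi]
          exact Nat.Coprime.pow_right i ((Nat.Prime.coprime_iff_not_dvd hp).mpr hpj).symm
        obtain ⟨l, hl⟩ := exists_pow_eq_self_of_coprime hcop
        rw [hj] at hl
        have haz : a ∈ Subgroup.zpowers b := by
          rw [← hl, ← pow_mul]
          exact Subgroup.pow_mem _ (Subgroup.mem_zpowers b) _
        have hM1z : M1 ≤ Subgroup.zpowers b := by
          intro x hx
          obtain ⟨k, hk⟩ := ha ⟨x, hx⟩
          have e1 : a ^ k = x := by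
            have := congrArg Subtype.val hk
            simpa using this
          rw [← e1]
          exact Subgroup.zpow_mem _ haz k
        exact hz b (eq_top_of_index_prime_of_lt hp M1 _ (hidx M1 hM1) hM1z b
          (Subgroup.mem_zpowers b) hb)
      obtain ⟨k, rfl⟩ := hpj
      have hy : (a ^ k)⁻¹ ∈ M1 := M1.inv_mem (M1.pow_mem haM k)
      obtain ⟨i, hi1, his, hchoose⟩ : ∃ i, 1 ≤ i ∧ i ≤ s ∧ p ∣ (p ^ i).choose 2 := by
        by_cases hp2 : p = 2
        · refine ⟨2, by norm_num, ?_, ?_⟩
          · rcases h2 with h2 | h2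
            · exact absurd hp2 h2
            · exact h2
          · subst hp2
            decide
        · refine ⟨1, le_refl 1, hs, ?_⟩
          rw [pow_one]
          exact hp.dvd_choose_self (by norm_num) (lt_of_le_of_ne hp.two_le (Ne.symm hp2))
      have hxe := mul_pow_of_two_abelian_index p M1 M2 (hidx M2 hM2) (hcomm M1 hM1)
        (hcomm M2 hM2) ((a ^ k)⁻¹) b hy hbM2 (p ^ i) hchoose
      have hbe : b ^ (p ^ i) = (a ^ k) ^ (p ^ i) := by
        have h3 : p ^ i = p * p ^ (i - 1) := by
          rw [← pow_succ']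
          congr 1
          omega
        rw [h3, pow_mul, pow_mul, ← hj, pow_mul']
      rw [hbe, inv_pow, mul_inv_cancel] at hxe
      have hx1 : (b * (a ^ k)⁻¹) ^ (p ^ s) = 1 := by
        have h3 : p ^ s = p ^ i * p ^ (s - i) := by
          rw [← pow_add]
          congr 1
          omega
        rw [h3, pow_mul, hxe, one_pow]
      have hxM1 := hOmega M1 (m - 1) hM1 (by omega) _ hx1
      apply hb
      have h3 := M1.mul_mem hxM1 (M1.pow_mem haM k)
      rwa [inv_mul_cancel_right] at h3

end Cfsg.Agent.Lib.Helper22
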