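import Mathlib

set_option autoImplicit false

namespace Cfsg.Agent.Lib.Helper22.PIT

variable {G : Type*} [Group G]

/-- `g - 1` in the integral group ring. -/
noncomputable def dl (g : G) : MonoidAlgebra ℤ G := MonoidAlgebra.single g 1 - 1

theorem dl_one : dl (1 : G) = 0 := by
  unfold dl; rw [MonoidAlgebra.one_def, sub_self]

theorem sg_mul (x y : G) :
    (MonoidAlgebra.single x (1:ℤ)) * MonoidAlgebra.single y 1 = MonoidAlgebra.single (x * y) 1 := by
  rw [MonoidAlgebra.single_mul_single, mul_one]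

theorem dl_mul (x y : G) : dl (x * y) = dl x * MonoidAlgebra.single y 1 + dl y := by
  unfold dl; rw [sub_mul, sg_mul, one_mul]; abel

theorem dl_mul' (x y : G) : dl (x * y) = dl x + dl y + dl x * dl y := by
  unfold dl; rw [sub_mul, mul_sub, mul_sub, sg_mul, one_mul, mul_one, mul_one]; abel

theorem dl_inv (x : G) : dl x⁻¹ = -(dl x * MonoidAlgebra.single x⁻¹ 1) := by
  unfold dl; rw [sub_mul, sg_mul, mul_inv_cancel, one_mul, ← MonoidAlgebra.one_def]; abel

/-- The augmentation map of the integral group ring. -/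
noncomputable def aug (G : Type*) [Group G] : MonoidAlgebra ℤ G →+* ℤ :=
  (MonoidAlgebra.lift ℤ ℤ G (1 : G →* ℤ)).toRingHom

theorem aug_single (g : G) (n : ℤ) : aug G (MonoidAlgebra.single g n) = n := by
  simp [aug, MonoidAlgebra.lift_single]

theorem aug_dl (g : G) : aug G (dl g) = 0 := by
  unfold dl; rw [map_sub, aug_single, map_one, sub_self]

/-- The map of integral group rings induced by a group homomorphism. -/
noncomputable def pmap {Q : Type*} [Group Q] (p : G →* Q) :
    MonoidAlgebra ℤ G →+* MonoidAlgebra ℤ Q :=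
  MonoidAlgebra.mapDomainRingHom ℤ p

theorem pmap_single {Q : Type*} [Group Q] (p : G →* Q) (g : G) (n : ℤ) :
    pmap p (MonoidAlgebra.single g n) = MonoidAlgebra.single (p g) n := by
  simp [pmap]

theorem aug_pmap {Q : Type*} [Group Q] (p : G →* Q) (x : MonoidAlgebra ℤ G) :
    aug Q (pmap p x) = aug G x := by
  induction x using MonoidAlgebra.induction_linear with
  | zero => simp
  | add x y hx hy => rw [map_add, map_add, map_add, hx, hy]
  | single g n => rw [pmap_single, aug_single, aug_single]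

theorem single_eq_mul_cast (y : G) (n : ℤ) :
    MonoidAlgebra.single y n = MonoidAlgebra.single y (1:ℤ) * ((n : ℤ) : MonoidAlgebra ℤ G) := by
  rw [MonoidAlgebra.intCast_def, MonoidAlgebra.single_mul_single, mul_one, one_mul, Int.cast_id]

/-- The additive subgroup generated by the `(g-1)(h-1)` with `h` in the kernel of `p`. -/
noncomputable def JJ {Q : Type*} [Group Q] (p : G →* Q) : AddSubgroup (MonoidAlgebra ℤ G) :=
  AddSubgroup.closure {x | ∃ g h, p h = 1 ∧ x = dl g * dl h}

theorem mul_cast_mem_JJ {Q : Type*} [Group Q] (p : G →* Q) (x : MonoidAlgebra ℤ G)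
    (hx : x ∈ JJ p) (n : ℤ) : x * ((n : ℤ) : MonoidAlgebra ℤ G) ∈ JJ p := by
  have := AddSubgroup.zsmul_mem (JJ p) hx n
  rwa [zsmul_eq_mul'] at this

theorem dl_mul_mem_JJ {Q : Type*} [Group Q] (p : G →* Q) (r : Q → G) (hr : ∀ q, p (r q) = q)
    (x : MonoidAlgebra ℤ G) (hx : pmap p x = 0) (g : G) : dl g * x ∈ JJ p := by
  have key : ∀ x : MonoidAlgebra ℤ G,
      dl g * (x - MonoidAlgebra.mapDomain r (pmap p x)) ∈ JJ p := by
    intro x
    induction x using MonoidAlgebra.induction_linear with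
    | zero =>
      rw [map_zero, MonoidAlgebra.mapDomain_zero, sub_zero, mul_zero]; exact zero_mem _
    | add x y hx hy =>
      have : dl g * (x + y - MonoidAlgebra.mapDomain r (pmap p (x + y)))
          = dl g * (x - MonoidAlgebra.mapDomain r (pmap p x))
            + dl g * (y - MonoidAlgebra.mapDomain r (pmap p y)) := by
        rw [map_add, MonoidAlgebra.mapDomain_add, ← mul_add]; congr 1; abel
      rw [this]; exact add_mem hx hy
    | single y n =>
      rw [pmap_single, MonoidAlgebra.mapDomain_single]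
      have hk : p ((r (p y))⁻¹ * y) = 1 := by rw [map_mul, map_inv, hr, inv_mul_cancel]
      have h0 : MonoidAlgebra.single y (1:ℤ) - MonoidAlgebra.single (r (p y)) (1:ℤ)
          = MonoidAlgebra.single (r (p y)) (1:ℤ) * dl ((r (p y))⁻¹ * y) := by
        unfold dl
        rw [mul_sub, sg_mul, mul_one, mul_inv_cancel_left]
      have h1 : MonoidAlgebra.single y n - MonoidAlgebra.single (r (p y)) n
          = (MonoidAlgebra.single (r (p y)) (1:ℤ) * dl ((r (p y))⁻¹ * y))
            * ((n : ℤ) : MonoidAlgebra ℤ G) := by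
        rw [← h0, sub_mul, ← single_eq_mul_cast, ← single_eq_mul_cast]
      rw [h1, ← mul_assoc]
      apply mul_cast_mem_JJ
      have h2 : dl g * (MonoidAlgebra.single (r (p y)) (1:ℤ) * dl ((r (p y))⁻¹ * y))
          = dl (g * r (p y)) * dl ((r (p y))⁻¹ * y) - dl (r (p y)) * dl ((r (p y))⁻¹ * y) := by
        rw [← mul_assoc, ← sub_mul]; congr 1; rw [dl_mul]; abel
      rw [h2]
      exact sub_mem (AddSubgroup.subset_closure ⟨_, _, hk, rfl⟩)
        (AddSubgroup.subset_closure ⟨_, _, hk, rfl⟩)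
  have := key x
  rwa [hx, MonoidAlgebra.mapDomain_zero, sub_zero] at this

section gens

variable {ι : Type*} [Fintype ι]

theorem exists_nu (σ : ι → G) (hgen : ∀ S : Subgroup G, (∀ k, σ k ∈ S) → S = ⊤) (g : G) :
    ∃ ν : ι → MonoidAlgebra ℤ G, ∑ k, dl (σ k) * ν k = dl g := by
  classical
  let S : Subgroup G :=
    { carrier := {g | ∃ ν : ι → MonoidAlgebra ℤ G, ∑ k, dl (σ k) * ν k = dl g}
      mul_mem' := by
        rintro x y ⟨ν₁, h₁⟩ ⟨ν₂, h₂⟩
        refine ⟨fun k => ν₁ k * MonoidAlgebra.single y 1 + ν₂ k, ?_⟩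
        rw [dl_mul, ← h₁, ← h₂, Finset.sum_mul, ← Finset.sum_add_distrib]
        refine Finset.sum_congr rfl fun k _ => ?_
        rw [mul_add, mul_assoc]
      one_mem' := ⟨fun _ => 0, by simp [dl_one]⟩
      inv_mem' := by
        rintro x ⟨ν, h⟩
        refine ⟨fun k => -(ν k * MonoidAlgebra.single x⁻¹ 1), ?_⟩
        rw [dl_inv, ← h, Finset.sum_mul, ← Finset.sum_neg_distrib]
        refine Finset.sum_congr rfl fun k _ => ?_
        rw [mul_neg, mul_assoc] }
  have hS : S = ⊤ := hgen S (fun k => ⟨Pi.single k 1, by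
    rw [Finset.sum_eq_single k]
    · rw [Pi.single_eq_same, mul_one]
    · intro j _ hj; rw [Pi.single_eq_of_ne hj, mul_zero]
    · intro h; exact absurd (Finset.mem_univ k) h⟩)
  have : g ∈ S := hS ▸ Subgroup.mem_top g
  exact this

/-- Sums `∑ (σ_k - 1) ν_k` with all `ν_k` of augmentation zero. -/
noncomputable def G0 (σ : ι → G) : AddSubgroup (MonoidAlgebra ℤ G) where
  carrier := {x | ∃ ν : ι → MonoidAlgebra ℤ G,
    (∀ k, aug G (ν k) = 0) ∧ ∑ k, dl (σ k) * ν k = x}
  add_mem' := by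
    rintro x y ⟨ν₁, hν₁, h₁⟩ ⟨ν₂, hν₂, h₂⟩
    refine ⟨fun k => ν₁ k + ν₂ k, fun k => by rw [map_add, hν₁, hν₂, add_zero], ?_⟩
    rw [← h₁, ← h₂, ← Finset.sum_add_distrib]
    exact Finset.sum_congr rfl fun k _ => mul_add _ _ _
  zero_mem' := ⟨fun _ => 0, fun _ => map_zero _, by simp⟩
  neg_mem' := by
    rintro x ⟨ν, hν, h⟩
    refine ⟨fun k => -ν k, fun k => by rw [map_neg, hν, neg_zero], ?_⟩
    rw [← h, ← Finset.sum_neg_distrib]
    exact Finset.sum_congr rfl fun k _ => mul_neg _ _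

theorem mem_G0 (σ : ι → G) (x : MonoidAlgebra ℤ G) :
    x ∈ G0 σ ↔ ∃ ν : ι → MonoidAlgebra ℤ G,
      (∀ k, aug G (ν k) = 0) ∧ ∑ k, dl (σ k) * ν k = x := Iff.rfl

theorem dl_mul_dl_mem_G0 (σ : ι → G) (hgen : ∀ S : Subgroup G, (∀ k, σ k ∈ S) → S = ⊤)
    (x y : G) : dl x * dl y ∈ G0 σ := by
  obtain ⟨ν, hν⟩ := exists_nu σ hgen x
  refine ⟨fun k => ν k * dl y, fun k => ?_, ?_⟩
  · rw [map_mul, aug_dl, mul_zero]
  · rw [← hν, Finset.sum_mul]; exact Finset.sum_congr rfl fun k _ => (mul_assoc _ _ _).symm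

theorem dl_mem_G0_of_commutator (σ : ι → G)
    (hgen : ∀ S : Subgroup G, (∀ k, σ k ∈ S) → S = ⊤)
    (τ : G) (hτ : τ ∈ commutator G) : dl τ ∈ G0 σ := by
  let f : G →* Multiplicative (MonoidAlgebra ℤ G ⧸ G0 σ) :=
    { toFun := fun g => Multiplicative.ofAdd (QuotientAddGroup.mk (dl g))
      map_one' := by rw [dl_one]; rfl
      map_mul' := fun x y => by
        have h1 : (QuotientAddGroup.mk (dl (x * y)) : MonoidAlgebra ℤ G ⧸ G0 σ)
            = QuotientAddGroup.mk (dl x + dl y) := by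
          rw [QuotientAddGroup.eq]
          have : -dl (x * y) + (dl x + dl y) = -(dl x * dl y) := by rw [dl_mul']; abel
          rw [this]; exact neg_mem (dl_mul_dl_mem_G0 σ hgen x y)
        rw [h1]; rfl }
  have h := Abelianization.commutator_subset_ker f hτ
  rw [MonoidHom.mem_ker] at h
  have h2 : (QuotientAddGroup.mk (dl τ) : MonoidAlgebra ℤ G ⧸ G0 σ) = 0 := h
  exact (QuotientAddGroup.eq_zero_iff _).mp h2

theorem exists_mu [DecidableEq ι] {Q : Type*} [Group Q] (p : G →* Q)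
    (hker : p.ker ≤ commutator G) (σ : ι → G)
    (hgen : ∀ S : Subgroup G, (∀ k, σ k ∈ S) → S = ⊤)
    (t : ι → MonoidAlgebra ℤ G) (τ : ι → G) (hτ : ∀ i, p (τ i) = 1)
    (hrel : ∀ i, dl (σ i) * t i = dl (τ i)) :
    ∃ μ : ι → ι → MonoidAlgebra ℤ G, (∀ i, ∑ k, dl (σ k) * μ i k = 0) ∧
      (∀ i k, aug G (μ i k) = if i = k then aug G (t i) else 0) := by
  have h0 : ∀ i, ∃ ν : ι → MonoidAlgebra ℤ G,
      (∀ k, aug G (ν k) = 0) ∧ ∑ k, dl (σ k) * ν k = dl (τ i) := fun i =>
    dl_mem_G0_of_commutator σ hgen (τ i) (hker (MonoidHom.mem_ker.mpr (hτ i)))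
  choose ν hν0 hν using h0
  refine ⟨fun i k => (Pi.single i (t i) : ι → MonoidAlgebra ℤ G) k - ν i k, fun i => ?_, fun i k => ?_⟩
  · simp only [mul_sub, Finset.sum_sub_distrib]
    rw [hν i, Finset.sum_eq_single i, Pi.single_eq_same, hrel i, sub_self]
    · intro j _ hj; rw [Pi.single_eq_of_ne hj, mul_zero]
    · intro h; exact absurd (Finset.mem_univ i) h
  · rw [map_sub, hν0, sub_zero]
    by_cases hik : i = k
    · subst hik; rw [Pi.single_eq_same, if_pos rfl]
    · rw [Pi.single_eq_of_ne (Ne.symm hik), map_zero, if_neg hik]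

theorem exists_adj [DecidableEq ι] {R : Type*} [CommRing R] (B : Matrix ι ι R) :
    ∃ C : ι → ι → R, ∀ k j, ∑ i, B k i * C i j = if k = j then B.det else 0 := by
  refine ⟨fun i j => B.adjugate i j, fun k j => ?_⟩
  have h := congrFun (congrFun (Matrix.mul_adjugate B) k) j
  rw [Matrix.mul_apply, Matrix.smul_apply, Matrix.one_apply, smul_eq_mul, mul_ite, mul_one,
    mul_zero] at h
  exact h

theorem sum_swap {R : Type*} [Ring R] (a : ι → R) (m : ι → ι → R) (c : ι → R) :
    ∑ i, (∑ k, a k * m i k) * c i = ∑ k, a k * ∑ i, m i k * c i := by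
  simp_rw [Finset.sum_mul, Finset.mul_sum, mul_assoc]
  exact Finset.sum_comm

theorem sum_mul_ite [DecidableEq ι] {R : Type*} [Ring R] (a : ι → R) (d : R) (j : ι) :
    ∑ k, a k * (if k = j then d else 0) = a j * d := by
  rw [Finset.sum_eq_single j]
  · rw [if_pos rfl]
  · intro k _ hk; rw [if_neg hk, mul_zero]
  · intro h; exact absurd (Finset.mem_univ j) h

end gens

theorem inv_const {Q : Type*} [Group Q] [Fintype Q] (d : MonoidAlgebra ℤ Q)
    (h : ∀ q : Q, MonoidAlgebra.single q (1:ℤ) * d = d) :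
    d = ∑ q : Q, MonoidAlgebra.single q (d.coeff 1) := by
  classical
  have h1 : ∀ q, d.coeff q = d.coeff 1 := by
    intro q
    have := congrArg (fun x => x.coeff q) (h q)
    simp only [MonoidAlgebra.coeff_single_mul_apply, inv_mul_cancel, one_mul] at this
    exact this.symm
  apply MonoidAlgebra.ext; ext x
  rw [MonoidAlgebra.coeff_sum, Finsupp.finsetSum_apply]
  simp only [MonoidAlgebra.coeff_single, Finsupp.single_apply]
  rw [Finset.sum_ite_eq' Finset.univ x, if_pos (Finset.mem_univ x), h1 x]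

end Cfsg.Agent.Lib.Helper22.PIT
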