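import Mathlib
import Cfsg.Agent.Lib.Helper22.PIT1

set_option autoImplicit false

namespace Cfsg.Agent.Lib.Helper22.PIT

variable {G : Type*} [Group G]

theorem core_mem {Q : Type*} [CommGroup Q] [Fintype Q]
    (p : G →* Q) (r : Q → G) (hr : ∀ q, p (r q) = q) (hker : p.ker ≤ commutator G)
    {ι : Type*} [Fintype ι] [DecidableEq ι] (σ : ι → G)
    (hgen : ∀ S : Subgroup G, (∀ k, σ k ∈ S) → S = ⊤)
    (t : ι → MonoidAlgebra ℤ G) (τ : ι → G) (hτ : ∀ i, p (τ i) = 1)
    (hrel : ∀ i, dl (σ i) * t i = dl (τ i))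
    (hdet : ∏ i, aug G (t i) = (Fintype.card Q : ℤ)) (g : G) :
    dl g * (∑ q, MonoidAlgebra.single (r q) (1:ℤ)) ∈ JJ p := by
  classical
  obtain ⟨μ, hμ0, hμa⟩ := exists_mu p hker σ hgen t τ hτ hrel
  obtain ⟨NR, hNR⟩ : ∃ N : MonoidAlgebra ℤ G, N = ∑ q, MonoidAlgebra.single (r q) (1:ℤ) :=
    ⟨_, rfl⟩
  rw [← hNR]
  -- the matrix
  obtain ⟨B, hB⟩ : ∃ B : Matrix ι ι (MonoidAlgebra ℤ Q), ∀ k i, B k i = pmap p (μ i k) :=
    ⟨Matrix.of fun k i => pmap p (μ i k), fun _ _ => rfl⟩
  obtain ⟨C, hC⟩ := exists_adj B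
  -- determinant augmentation
  have hdetB : aug Q B.det = (Fintype.card Q : ℤ) := by
    rw [RingHom.map_det]
    have : (aug Q).mapMatrix B = Matrix.diagonal (fun i => aug G (t i)) := by
      ext k i
      rw [RingHom.mapMatrix_apply, Matrix.map_apply, hB, aug_pmap, hμa, Matrix.diagonal_apply]
      by_cases h : i = k
      · subst h; simp
      · rw [if_neg h, if_neg (Ne.symm h)]
    rw [this, Matrix.det_diagonal, hdet]
  -- invariance
  have hinv0 : ∀ j, pmap p (dl (σ j)) * B.det = 0 := by
    intro j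
    have h1 : ∑ i, (∑ k, pmap p (dl (σ k)) * B k i) * C i j = 0 := by
      refine Finset.sum_eq_zero fun i _ => ?_
      have : ∑ k, pmap p (dl (σ k)) * B k i = pmap p (∑ k, dl (σ k) * μ i k) := by
        rw [map_sum]; exact Finset.sum_congr rfl fun k _ => by rw [map_mul, hB]
      rw [this, hμ0 i, map_zero, zero_mul]
    rw [sum_swap] at h1
    simp only [hC] at h1
    rw [sum_mul_ite] at h1
    exact h1
  have hinv1 : ∀ j, MonoidAlgebra.single (p (σ j)) (1:ℤ) * B.det = B.det := by
    intro j
    have := hinv0 j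
    unfold dl at this
    rw [map_sub, pmap_single, map_one, sub_mul, one_mul, sub_eq_zero] at this
    exact this
  have hinv2 : ∀ g : G, MonoidAlgebra.single (p g) (1:ℤ) * B.det = B.det := by
    let S : Subgroup G :=
      { carrier := {g | MonoidAlgebra.single (p g) (1:ℤ) * B.det = B.det}
        mul_mem' := by
          intro x y hx hy
          have hx' : MonoidAlgebra.single (p x) (1:ℤ) * B.det = B.det := hx
          have hy' : MonoidAlgebra.single (p y) (1:ℤ) * B.det = B.det := hy
          show MonoidAlgebra.single (p (x * y)) (1:ℤ) * B.det = B.det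
          rw [map_mul, ← sg_mul, mul_assoc, hy', hx']
        one_mem' := by
          show MonoidAlgebra.single (p 1) (1:ℤ) * B.det = B.det
          rw [map_one, ← MonoidAlgebra.one_def, one_mul]
        inv_mem' := by
          intro x hx
          have hx' : MonoidAlgebra.single (p x) (1:ℤ) * B.det = B.det := hx
          show MonoidAlgebra.single (p x⁻¹) (1:ℤ) * B.det = B.det
          calc MonoidAlgebra.single (p x⁻¹) (1:ℤ) * B.det
              = MonoidAlgebra.single (p x⁻¹) (1:ℤ)
                  * (MonoidAlgebra.single (p x) (1:ℤ) * B.det) := by rw [hx']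
            _ = B.det := by
              rw [← mul_assoc, sg_mul, ← map_mul, inv_mul_cancel, map_one,
                ← MonoidAlgebra.one_def, one_mul] }
    intro g
    have : g ∈ S := by rw [hgen S (fun k => hinv1 k)]; exact Subgroup.mem_top g
    exact this
  have hinv3 : ∀ q : Q, MonoidAlgebra.single q (1:ℤ) * B.det = B.det := by
    intro q; have := hinv2 (r q); rwa [hr] at this
  have hconst := inv_const B.det hinv3
  -- the constant is one
  have hm : B.det.coeff 1 = 1 := by
    have h1 : aug Q B.det = (Fintype.card Q : ℤ) * B.det.coeff 1 := by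
      conv_lhs => rw [hconst]
      rw [map_sum]
      simp only [aug_single]
      rw [Finset.sum_const, Finset.card_univ, nsmul_eq_mul]
    rw [hdetB] at h1
    have hc : (Fintype.card Q : ℤ) ≠ 0 := by exact_mod_cast Fintype.card_ne_zero
    have h2 : (Fintype.card Q : ℤ) * 1 = (Fintype.card Q : ℤ) * B.det.coeff 1 := by
      rw [mul_one]; exact h1
    exact (mul_left_cancel₀ hc h2).symm
  have hpiN : pmap p NR = B.det := by
    rw [hconst, hm, hNR, map_sum]
    exact Finset.sum_congr rfl fun q _ => by rw [pmap_single, hr]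
  -- lifts
  have hsurj : ∀ y : MonoidAlgebra ℤ Q, ∃ x : MonoidAlgebra ℤ G, pmap p x = y := by
    intro y
    induction y using MonoidAlgebra.induction_linear with
    | zero => exact ⟨0, map_zero _⟩
    | add x y hx hy =>
      obtain ⟨a, ha⟩ := hx; obtain ⟨b, hb⟩ := hy; exact ⟨a + b, by rw [map_add, ha, hb]⟩
    | single q n => exact ⟨MonoidAlgebra.single (r q) n, by rw [pmap_single, hr]⟩
  choose c hc using fun i j => hsurj (C i j)
  have hσ : ∀ j, dl (σ j) * NR ∈ JJ p := by
    intro j
    have h1 : ∑ i, (∑ k, dl (σ k) * μ i k) * c i j = 0 :=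
      Finset.sum_eq_zero fun i _ => by rw [hμ0 i, zero_mul]
    rw [sum_swap] at h1
    have h2 : ∀ k, dl (σ k) * ((∑ i, μ i k * c i j) - (if k = j then NR else 0)) ∈ JJ p := by
      intro k
      apply dl_mul_mem_JJ p r hr
      rw [map_sub, map_sum, sub_eq_zero]
      have : ∑ i, pmap p (μ i k * c i j) = ∑ i, B k i * C i j :=
        Finset.sum_congr rfl fun i _ => by rw [map_mul, hc, hB]
      rw [this, hC]
      split_ifs with h
      · exact hpiN.symm
      · exact (map_zero _).symm
    have h3 : dl (σ j) * NR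
        = -(∑ k, dl (σ k) * ((∑ i, μ i k * c i j) - (if k = j then NR else 0))) := by
      simp only [mul_sub, Finset.sum_sub_distrib]
      rw [h1, zero_sub, neg_neg, sum_mul_ite]
    rw [h3]
    exact neg_mem (sum_mem fun k _ => h2 k)
  let S : Subgroup G :=
    { carrier := {g | dl g * NR ∈ JJ p}
      mul_mem' := by
        intro x y hx hy
        have hx' : dl x * NR ∈ JJ p := hx
        have hy' : dl y * NR ∈ JJ p := hy
        show dl (x * y) * NR ∈ JJ p
        have h1 : dl x * (MonoidAlgebra.single y (1:ℤ) * NR - NR) ∈ JJ p := by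
          apply dl_mul_mem_JJ p r hr
          rw [map_sub, map_mul, pmap_single, hpiN, hinv3, sub_self]
        have h2 : dl (x * y) * NR
            = dl x * (MonoidAlgebra.single y (1:ℤ) * NR - NR) + dl x * NR + dl y * NR := by
          rw [dl_mul, add_mul, mul_sub, mul_assoc]; abel
        rw [h2]; exact add_mem (add_mem h1 hx') hy'
      one_mem' := by
        show dl 1 * NR ∈ JJ p
        rw [dl_one, zero_mul]; exact zero_mem _
      inv_mem' := by
        intro x hx
        have hx' : dl x * NR ∈ JJ p := hx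
        show dl x⁻¹ * NR ∈ JJ p
        have h1 : dl x * (MonoidAlgebra.single x⁻¹ (1:ℤ) * NR - NR) ∈ JJ p := by
          apply dl_mul_mem_JJ p r hr
          rw [map_sub, map_mul, pmap_single, hpiN, hinv3, sub_self]
        have h2 : dl x⁻¹ * NR
            = -(dl x * (MonoidAlgebra.single x⁻¹ (1:ℤ) * NR - NR) + dl x * NR) := by
          rw [dl_inv, neg_mul, mul_sub, mul_assoc]; abel
        rw [h2]; exact neg_mem (add_mem h1 hx') }
  have : g ∈ S := by rw [hgen S (fun k => hσ k)]; exact Subgroup.mem_top g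
  exact this

theorem core_prod {Q : Type*} [Group Q] [Fintype Q] (p : G →* Q) (r : Q → G)
    {A : Type*} [CommGroup A] (ψ : G → A)
    (hψ : ∀ g h, p h = 1 → ψ (g * h) * ψ 1 = ψ g * ψ h) (hψr : ∀ q, ψ (r q) = 1) (g : G)
    (hmem : dl g * (∑ q, MonoidAlgebra.single (r q) (1:ℤ)) ∈ JJ p) :
    ∏ q, ψ (g * r q) = 1 := by
  let lam : MonoidAlgebra ℤ G →+ Additive A :=
    (Finsupp.liftAddHom (fun g => (zmultiplesHom (Additive A)) (Additive.ofMul (ψ g)))).comp
      MonoidAlgebra.coeffAddEquiv.toAddMonoidHom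
  have lam_single : ∀ x : G, lam (MonoidAlgebra.single x (1:ℤ)) = Additive.ofMul (ψ x) := by
    intro x
    simp [lam]
  have lam_J : ∀ x ∈ JJ p, lam x = 0 := by
    intro x hx
    induction hx using AddSubgroup.closure_induction with
    | mem x hx =>
      obtain ⟨a, h, hh, rfl⟩ := hx
      have e : dl a * dl h = MonoidAlgebra.single (a * h) (1:ℤ) - MonoidAlgebra.single a 1
          - MonoidAlgebra.single h 1 + MonoidAlgebra.single 1 1 := by
        unfold dl
        rw [sub_mul, mul_sub, mul_sub, sg_mul, one_mul, mul_one, mul_one, MonoidAlgebra.one_def]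
        abel
      rw [e, map_add, map_sub, map_sub, lam_single, lam_single, lam_single, lam_single]
      have := congrArg Additive.ofMul (hψ a h hh)
      rw [ofMul_mul, ofMul_mul] at this
      rw [sub_sub, sub_add_eq_add_sub, this, sub_self]
    | zero => exact map_zero _
    | add x y _ _ hx hy => rw [map_add, hx, hy, add_zero]
    | neg x _ hx => rw [map_neg, hx, neg_zero]
  have h1 : lam (MonoidAlgebra.single g (1:ℤ) * ∑ q, MonoidAlgebra.single (r q) (1:ℤ))
      = ∑ q, Additive.ofMul (ψ (g * r q)) := by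
    rw [Finset.mul_sum, map_sum]
    exact Finset.sum_congr rfl fun q _ => by rw [sg_mul, lam_single]
  have h2 : lam (∑ q, MonoidAlgebra.single (r q) (1:ℤ)) = 0 := by
    rw [map_sum]
    exact Finset.sum_eq_zero fun q _ => by rw [lam_single, hψr]; rfl
  have h3 : MonoidAlgebra.single g (1:ℤ) * ∑ q, MonoidAlgebra.single (r q) (1:ℤ)
      = dl g * (∑ q, MonoidAlgebra.single (r q) (1:ℤ))
        + ∑ q, MonoidAlgebra.single (r q) (1:ℤ) := by
    unfold dl; rw [sub_mul, one_mul, sub_add_cancel]
  rw [h3, map_add, lam_J _ hmem, h2, add_zero] at h1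
  have h4 : Additive.ofMul (∏ q, ψ (g * r q)) = 0 := by rw [ofMul_prod]; exact h1.symm
  exact ofMul_eq_zero.mp h4

end Cfsg.Agent.Lib.Helper22.PIT
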