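import Mathlib
import Cfsg.Agent.Lib.Helper22.PIT2

set_option autoImplicit false

namespace Cfsg.Agent.Lib.Helper22.PIT

theorem pit_prod {G : Type*} [Group G] [Finite G] {Q : Type*} [CommGroup Q] [Fintype Q]
    (p : G →* Q) (r : Q → G) (hr : ∀ q, p (r q) = q) (hker : p.ker ≤ commutator G)
    {A : Type*} [CommGroup A] (ψ : G → A)
    (hψ : ∀ g h, p h = 1 → ψ (g * h) * ψ 1 = ψ g * ψ h) (hψr : ∀ q, ψ (r q) = 1) (g : G) :
    ∏ q, ψ (g * r q) = 1 := by
  classical
  obtain ⟨ι₀, hfin, n, hn, ⟨f⟩⟩ := CommGroup.equiv_prod_multiplicative_zmod_of_finite Q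
  letI : Fintype ↥p.ker := Fintype.ofFinite _
  haveI : ∀ i, NeZero (n i) := fun i => ⟨by have := hn i; omega⟩
  obtain ⟨sbar, hsbar⟩ : ∃ sbar : ι₀ → Q, ∀ i,
      sbar i = f.symm (Pi.mulSingle i (Multiplicative.ofAdd (1 : ZMod (n i)))) := ⟨_, fun _ => rfl⟩
  have hsbar_pow : ∀ i, sbar i ^ n i = 1 := by
    intro i
    rw [hsbar, ← map_pow, ← Pi.mulSingle_pow, ← ofAdd_nsmul, nsmul_eq_mul, mul_one,
      ZMod.natCast_self, ofAdd_zero, Pi.mulSingle_one, map_one]
  let σ : ι₀ ⊕ ↥p.ker → G := Sum.elim (fun i => r (sbar i)) (fun h => (h : G))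
  let t : ι₀ ⊕ ↥p.ker → MonoidAlgebra ℤ G :=
    Sum.elim (fun i => ∑ j ∈ Finset.range (n i), MonoidAlgebra.single (r (sbar i)) (1:ℤ) ^ j)
      (fun _ => 1)
  let τ : ι₀ ⊕ ↥p.ker → G := Sum.elim (fun i => r (sbar i) ^ n i) (fun h => (h : G))
  refine core_prod p r ψ hψ hψr g (core_mem p r hr hker σ ?_ t τ ?_ ?_ ?_ g)
  · -- generation
    intro S hS
    have hkerS : p.ker ≤ S := fun h hh => hS (Sum.inr ⟨h, hh⟩)
    have hsb : ∀ i, sbar i ∈ S.map p := fun i => ⟨r (sbar i), hS (Sum.inl i), hr _⟩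
    have htop : ∀ y : (∀ i, Multiplicative (ZMod (n i))),
        y ∈ (S.map p).map f.toMonoidHom := by
      intro y
      apply Submonoid.pi_mem_of_mulSingle_mem
      intro i
      have hy : y i = (Multiplicative.ofAdd (1 : ZMod (n i)))
          ^ (ZMod.val (Multiplicative.toAdd (y i))) := by
        rw [← ofAdd_nsmul, nsmul_eq_mul, mul_one, ZMod.natCast_zmod_val, ofAdd_toAdd]
      rw [hy, Pi.mulSingle_pow]
      apply pow_mem
      refine ⟨sbar i, hsb i, ?_⟩
      rw [hsbar]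
      exact f.apply_symm_apply _
    rw [eq_top_iff]; intro x _
    obtain ⟨w, ⟨s, hs, rfl⟩, hw⟩ := htop (f (p x))
    have hps : p s = p x := f.injective hw
    have h2 : s⁻¹ * x ∈ p.ker := by
      rw [MonoidHom.mem_ker, map_mul, map_inv, hps, inv_mul_cancel]
    have := S.mul_mem hs (hkerS h2)
    rwa [mul_inv_cancel_left] at this
  · -- the relators lie in the kernel
    rintro (i | h)
    · show p (r (sbar i) ^ n i) = 1
      rw [map_pow, hr, hsbar_pow]
    · exact MonoidHom.mem_ker.mp h.2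
  · -- the relations
    rintro (i | h)
    · show dl (r (sbar i)) * ∑ j ∈ Finset.range (n i),
          MonoidAlgebra.single (r (sbar i)) (1:ℤ) ^ j = dl (r (sbar i) ^ n i)
      unfold dl
      rw [mul_geom_sum, MonoidAlgebra.single_pow, one_pow]
    · show dl (h : G) * 1 = dl (h : G)
      rw [mul_one]
  · -- the determinant
    rw [Fintype.prod_sum_type]
    have h1 : ∀ i : ι₀, aug G (t (Sum.inl i)) = (n i : ℤ) := by
      intro i
      show aug G (∑ j ∈ Finset.range (n i), MonoidAlgebra.single (r (sbar i)) (1:ℤ) ^ j) = _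
      rw [map_sum]
      simp only [map_pow, aug_single, one_pow]
      rw [Finset.sum_const, Finset.card_range, nsmul_eq_mul, mul_one]
    have h2 : ∀ h : ↥p.ker, aug G (t (Sum.inr h)) = 1 := by
      intro h
      show aug G 1 = 1
      exact map_one _
    rw [Finset.prod_congr rfl (fun i _ => h1 i), Finset.prod_congr rfl (fun h _ => h2 h),
      Finset.prod_const_one, mul_one, ← Nat.cast_prod]
    congr 1
    rw [← Nat.card_eq_fintype_card, Nat.card_congr f.toEquiv, Nat.card_pi]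
    refine Finset.prod_congr rfl fun i _ => ?_
    exact (Nat.card_zmod (n i)).symm

end Cfsg.Agent.Lib.Helper22.PIT
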