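import Mathlib
import Cfsg.Prelude.Def_KGroupFacts
import Cfsg.Agent.Lib.Helper22.StemOfCentral

set_option autoImplicit false

namespace Cfsg.Agent.Lib.Helper22

open scoped commutatorElement

universe u v w

/-- Two homomorphisms that agree modulo the centre agree on the commutator subgroup. -/
theorem eq_on_commutator_of_mk_eq {P H : Type*} [Group P] [Group H] (a b : P →* H)
    (h : ∀ x, (QuotientGroup.mk (a x) : H ⧸ Subgroup.center H) = QuotientGroup.mk (b x))
    {w : P} (hw : w ∈ commutator P) : a w = b w := by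
  have hc : ∀ x, a x * (b x)⁻¹ ∈ Subgroup.center H := by
    intro x
    have h1 : (a x)⁻¹ * b x ∈ Subgroup.center H := QuotientGroup.eq.mp (h x)
    have h2 : a x * ((a x)⁻¹ * b x)⁻¹ * (a x)⁻¹ ∈ Subgroup.center H :=
      Subgroup.Normal.conj_mem inferInstance _ (Subgroup.inv_mem _ h1) (a x)
    have h3 : a x * ((a x)⁻¹ * b x)⁻¹ * (a x)⁻¹ = a x * (b x)⁻¹ := by group
    rw [h3] at h2
    exact h2
  have hle : commutator P ≤ a.eqLocus b := by
    rw [commutator_eq_closure, Subgroup.closure_le]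
    rintro _ ⟨x, y, rfl⟩
    show a ⁅x, y⁆ = b ⁅x, y⁆
    rw [map_commutatorElement, map_commutatorElement]
    exact commutator_eq_of_central _ _ _ _ (hc x) (hc y)
  exact hle hw

/-- Scalar matrices of positive size determine the scalar. -/
theorem scalar_injective_of_neZero (n : ℕ) [NeZero n] :
    Function.Injective (Matrix.GeneralLinearGroup.scalar (Fin n) : ℂˣ →* Matrix.GeneralLinearGroup (Fin n) ℂ) := by
  intro a b h
  have h1 := congrArg (fun g : Matrix.GeneralLinearGroup (Fin n) ℂ => (g : Matrix (Fin n) (Fin n) ℂ) 0 0) h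
  simp only [Matrix.GeneralLinearGroup.coe_scalar, Matrix.scalar_apply, Matrix.diagonal_apply_eq] at h1
  exact Units.ext h1

theorem scalar_mem_center (n : ℕ) (a : ℂˣ) :
    Matrix.GeneralLinearGroup.scalar (Fin n) a ∈ Subgroup.center (Matrix.GeneralLinearGroup (Fin n) ℂ) := by
  rw [Matrix.GeneralLinearGroup.center_eq_range_scalar]
  exact ⟨a, rfl⟩

/-- Untwisting: a linear representation of a finite group that is scalar on a subgroup `C` meeting the
commutator subgroup trivially can be multiplied by a linear character so as to become trivial on `C`. -/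
theorem exists_untwist {P : Type*} [Group P] [Finite P] (n : ℕ) [NeZero n]
    (ρ₀ : P →* Matrix.GeneralLinearGroup (Fin n) ℂ) (C : Subgroup P)
    (hC : C ⊓ commutator P = ⊥)
    (hρ : ∀ c ∈ C, ρ₀ c ∈ Subgroup.center (Matrix.GeneralLinearGroup (Fin n) ℂ)) :
    ∃ ρ : P →* Matrix.GeneralLinearGroup (Fin n) ℂ,
      (∀ x, (QuotientGroup.mk (ρ x) :
        Matrix.GeneralLinearGroup (Fin n) ℂ ⧸ Subgroup.center (Matrix.GeneralLinearGroup (Fin n) ℂ)) =
          QuotientGroup.mk (ρ₀ x)) ∧ ∀ c ∈ C, ρ c = 1 := by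
  classical
  let sc : ℂˣ →* Matrix.GeneralLinearGroup (Fin n) ℂ := Matrix.GeneralLinearGroup.scalar (Fin n)
  have hsc : Function.Injective sc := scalar_injective_of_neZero n
  have hex : ∀ c : C, ∃ a : ℂˣ, sc a = ρ₀ c := by
    intro c
    have h1 := hρ c.1 c.2
    rw [Matrix.GeneralLinearGroup.center_eq_range_scalar] at h1
    exact h1
  choose lam hlam using hex
  let lamH : C →* ℂˣ := MonoidHom.mk' lam (by
    intro c c'
    apply hsc
    rw [map_mul, hlam, hlam, hlam]
    exact map_mul ρ₀ _ _)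
  have hlamH : ∀ c : C, sc (lamH c) = ρ₀ c := hlam
  let ab : P →* Abelianization P := Abelianization.of
  let abC : C →* Abelianization P := ab.comp C.subtype
  have habC : Function.Injective abC := by
    rw [injective_iff_map_eq_one]
    intro c hc
    have h1 : (c : P) ∈ commutator P := by
      rw [← Abelianization.ker_of, MonoidHom.mem_ker]
      exact hc
    have h2 : (c : P) ∈ C ⊓ commutator P := ⟨c.2, h1⟩
    rw [hC, Subgroup.mem_bot] at h2
    exact Subtype.ext h2
  let eC : C ≃* abC.range := MonoidHom.ofInjective habC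
  let lam' : abC.range →* ℂˣ := lamH.comp eC.symm.toMonoidHom
  obtain ⟨Lam, hLam⟩ := MonoidHom.domRestrict_surjective (G := Abelianization P) (M := ℂ) abC.range lam'
  let χ : P →* ℂˣ := Lam.comp ab
  have hχ : ∀ c : C, χ c = lamH c := by
    intro c
    have h1 : Lam (abC c) = lam' ⟨abC c, ⟨c, rfl⟩⟩ := by
      rw [← hLam]
      rfl
    have h2 : eC.symm ⟨abC c, ⟨c, rfl⟩⟩ = c := by
      rw [MulEquiv.symm_apply_eq]
      rfl
    show Lam (abC c) = lamH c
    rw [h1]
    show lamH (eC.symm ⟨abC c, ⟨c, rfl⟩⟩) = lamH c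
    rw [h2]
  have hcen : ∀ x : P, ∀ g : Matrix.GeneralLinearGroup (Fin n) ℂ, g * (sc (χ x))⁻¹ = (sc (χ x))⁻¹ * g := by
    intro x g
    exact Subgroup.mem_center_iff.mp (Subgroup.inv_mem _ (scalar_mem_center n (χ x))) g
  let ρ : P →* Matrix.GeneralLinearGroup (Fin n) ℂ := MonoidHom.mk' (fun x => ρ₀ x * (sc (χ x))⁻¹) (by
    intro x y
    show ρ₀ (x * y) * (sc (χ (x * y)))⁻¹ = ρ₀ x * (sc (χ x))⁻¹ * (ρ₀ y * (sc (χ y))⁻¹)
    rw [map_mul, map_mul, map_mul, mul_inv_rev]
    calc ρ₀ x * ρ₀ y * ((sc (χ y))⁻¹ * (sc (χ x))⁻¹)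
        = ρ₀ x * (ρ₀ y * (sc (χ y))⁻¹ * (sc (χ x))⁻¹) := by group
      _ = ρ₀ x * ((sc (χ x))⁻¹ * (ρ₀ y * (sc (χ y))⁻¹)) := by rw [hcen x]
      _ = ρ₀ x * (sc (χ x))⁻¹ * (ρ₀ y * (sc (χ y))⁻¹) := by group)
  have hρdef : ∀ x, ρ x = ρ₀ x * (sc (χ x))⁻¹ := fun x => rfl
  refine ⟨ρ, ?_, ?_⟩
  · intro x
    apply QuotientGroup.eq.mpr
    have h1 : (ρ x)⁻¹ * ρ₀ x = sc (χ x) := by
      rw [hρdef]
      group
    rw [h1]
    exact scalar_mem_center n _
  · intro c hc
    rw [hρdef, hχ ⟨c, hc⟩, hlamH ⟨c, hc⟩]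
    exact mul_inv_cancel _

/-- A projective representation of a finite group lifts to a linear representation of a finite central
extension (by `n`-th roots of unity). -/
theorem exists_finite_central_of_projective {Q : Type u} [Group Q] [Finite Q] (n : ℕ) [NeZero n]
    (γ : Q →* Matrix.GeneralLinearGroup (Fin n) ℂ ⧸ Subgroup.center (Matrix.GeneralLinearGroup (Fin n) ℂ)) :
    ∃ (E : Type u) (_ : Group E) (_ : Finite E) (π : E →* Q)
      (ρ : E →* Matrix.GeneralLinearGroup (Fin n) ℂ),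
      Function.Surjective π ∧ π.ker ≤ Subgroup.center E ∧
      (∀ x, (QuotientGroup.mk (ρ x) : Matrix.GeneralLinearGroup (Fin n) ℂ ⧸
        Subgroup.center (Matrix.GeneralLinearGroup (Fin n) ℂ)) = γ (π x)) ∧
      (∀ c ∈ π.ker, ρ c ∈ Subgroup.center (Matrix.GeneralLinearGroup (Fin n) ℂ)) := by
  classical
  let GLn := Matrix.GeneralLinearGroup (Fin n) ℂ
  let sc : ℂˣ →* GLn := Matrix.GeneralLinearGroup.scalar (Fin n)
  let mkc : GLn →* GLn ⧸ Subgroup.center GLn := QuotientGroup.mk' (Subgroup.center GLn)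
  let dt : GLn →* ℂˣ := Matrix.GeneralLinearGroup.det
  let E : Subgroup (Q × GLn) :=
    (γ.comp (MonoidHom.fst Q GLn)).eqLocus (mkc.comp (MonoidHom.snd Q GLn)) ⊓
      (dt.comp (MonoidHom.snd Q GLn)).ker
  have hE : ∀ x : Q × GLn, x ∈ E ↔ γ x.1 = mkc x.2 ∧ dt x.2 = 1 := by
    intro x
    exact Iff.rfl
  let π : E →* Q := (MonoidHom.fst Q GLn).comp E.subtype
  let ρ : E →* GLn := (MonoidHom.snd Q GLn).comp E.subtype
  have hdsc : ∀ u : ℂˣ, dt (sc u) = u ^ n := by
    intro u
    have h1 := Matrix.GeneralLinearGroup.det_scalar (n := Fin n) u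
    rw [Fintype.card_fin] at h1
    exact h1
  have hπ : Function.Surjective π := by
    intro q
    obtain ⟨g0, hg0⟩ := QuotientGroup.mk_surjective (γ q)
    obtain ⟨z, hz⟩ := IsAlgClosed.exists_pow_nat_eq (((dt g0)⁻¹ : ℂˣ) : ℂ)
      (Nat.pos_of_ne_zero (NeZero.ne n))
    have hz0 : z ≠ 0 := by
      rintro rfl
      rw [zero_pow (NeZero.ne n)] at hz
      exact (Units.ne_zero _) hz.symm
    let u : ℂˣ := Units.mk0 z hz0
    have hu : u ^ n = (dt g0)⁻¹ := by
      apply Units.ext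
      rw [Units.val_pow_eq_pow_val]
      exact hz
    have hmem : ((q, g0 * sc u) : Q × GLn) ∈ E := by
      rw [hE]
      refine ⟨?_, ?_⟩
      · show γ q = mkc (g0 * sc u)
        rw [← hg0]
        apply QuotientGroup.eq.mpr
        have h1 : g0⁻¹ * (g0 * sc u) = sc u := by group
        rw [h1]
        exact scalar_mem_center n u
      · show dt (g0 * sc u) = 1
        rw [map_mul, hdsc, hu, mul_inv_cancel]
    exact ⟨⟨(q, g0 * sc u), hmem⟩, rfl⟩
  have hker : ∀ x : E, x ∈ π.ker → x.1.2 ∈ Subgroup.center GLn := by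
    intro x hx
    have h1 : x.1.1 = 1 := hx
    have h2 := ((hE x.1).mp x.2).1
    rw [h1, map_one] at h2
    exact (QuotientGroup.eq_one_iff _).mp h2.symm
  have hc : π.ker ≤ Subgroup.center E := by
    intro x hx
    rw [Subgroup.mem_center_iff]
    intro y
    have h1 : x.1.1 = 1 := hx
    have h2 := Subgroup.mem_center_iff.mp (hker x hx) y.1.2
    apply Subtype.ext
    apply Prod.ext
    · show y.1.1 * x.1.1 = x.1.1 * y.1.1
      rw [h1, mul_one, one_mul]
    · exact h2
  have hfin : Finite π.ker := by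
    have hR : (rootsOfUnity n ℂ : Set ℂˣ).Finite :=
      Set.finite_coe_iff.mp (inferInstance : Finite (rootsOfUnity n ℂ))
    have hS : (sc '' (rootsOfUnity n ℂ : Set ℂˣ)).Finite := Set.Finite.image _ hR
    haveI := hS.to_subtype
    have hmem : ∀ x : π.ker, x.1.1.2 ∈ sc '' (rootsOfUnity n ℂ : Set ℂˣ) := by
      intro x
      have h1 := hker x.1 x.2
      rw [Matrix.GeneralLinearGroup.center_eq_range_scalar] at h1
      obtain ⟨u, hu⟩ := h1
      refine ⟨u, ?_, hu⟩
      have h2 := ((hE x.1.1).mp x.1.2).2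
      have h3 : dt (sc u) = 1 := by
        rw [← h2]
        exact congrArg dt hu
      rw [hdsc] at h3
      exact (mem_rootsOfUnity _ _).mpr h3
    apply Finite.of_injective
      (fun x : π.ker => (⟨x.1.1.2, hmem x⟩ : sc '' (rootsOfUnity n ℂ : Set ℂˣ)))
    intro x y h
    have h1 : x.1.1.2 = y.1.1.2 := congrArg Subtype.val h
    have h2 : x.1.1.1 = y.1.1.1 := by
      have hx : x.1.1.1 = 1 := x.2
      have hy : y.1.1.1 = 1 := y.2
      rw [hx, hy]
    exact Subtype.ext (Subtype.ext (Prod.ext h2 h1))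
  haveI : Finite E := finite_of_finite_ker π
  refine ⟨E, inferInstance, inferInstance, π, ρ, hπ, hc, ?_, ?_⟩
  · intro x
    exact ((hE x.1).mp x.2).1.symm
  · intro c hc'
    exact hker c hc'

/-- The representation of a central extension `Δ` of `Q` induced from a linear character of the
kernel: it restricts to that character (as scalars) on the kernel. -/
theorem exists_induced_rep {Δ Q : Type*} [Group Δ] [Group Q] [Finite Q] (τ : Δ →* Q)
    (hτ : Function.Surjective τ) (hc : τ.ker ≤ Subgroup.center Δ) (lam : τ.ker →* ℂˣ) :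
    ∃ ρ : Δ →* Matrix.GeneralLinearGroup (Fin (Nat.card Q)) ℂ,
      ∀ l : τ.ker, ρ l = Matrix.GeneralLinearGroup.scalar (Fin (Nat.card Q)) (lam l) := by
  classical
  let m := Nat.card Q
  let eq : Q ≃ Fin m := Finite.equivFin Q
  let s : Fin m → Δ := fun i => Function.surjInv hτ (eq.symm i)
  have hs : ∀ i, τ (s i) = eq.symm i := fun i => Function.surjInv_eq hτ _
  let lamt : Δ → ℂ := fun x => if h : x ∈ τ.ker then ((lam ⟨x, h⟩ : ℂˣ) : ℂ) else 0
  have lamt_in : ∀ x (h : x ∈ τ.ker), lamt x = ((lam ⟨x, h⟩ : ℂˣ) : ℂ) := fun x h => dif_pos h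
  have lamt_out : ∀ x, x ∉ τ.ker → lamt x = 0 := fun x h => dif_neg h
  have lamt_mul : ∀ x y, y ∈ τ.ker → lamt (x * y) = lamt x * lamt y := by
    intro x y hy
    by_cases hx : x ∈ τ.ker
    · rw [lamt_in _ (mul_mem hx hy), lamt_in _ hx, lamt_in _ hy, ← Units.val_mul, ← map_mul]
      rfl
    · have hxy : x * y ∉ τ.ker := fun h => hx ((Subgroup.mul_mem_cancel_right _ hy).mp h)
      rw [lamt_out _ hxy, lamt_out _ hx, zero_mul]
  let M : Δ → Matrix (Fin m) (Fin m) ℂ := fun g => Matrix.of fun i j => lamt ((s i)⁻¹ * g * s j)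
  have hM : ∀ g i j, M g i j = lamt ((s i)⁻¹ * g * s j) := fun g i j => rfl
  have hdiag : ∀ i j, lamt ((s i)⁻¹ * s j) = if i = j then 1 else 0 := by
    intro i j
    by_cases hij : i = j
    · subst hij
      rw [if_pos rfl, inv_mul_cancel, lamt_in _ (one_mem _)]
      have h1 : (⟨1, one_mem _⟩ : τ.ker) = 1 := rfl
      rw [h1, map_one, Units.val_one]
    · rw [if_neg hij]
      apply lamt_out
      rw [MonoidHom.mem_ker, map_mul, map_inv, hs, hs, inv_mul_eq_one]
      intro h
      exact hij (eq.symm.injective h)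
  have hM1 : M 1 = 1 := by
    ext i j
    rw [hM, mul_one, hdiag, Matrix.one_apply]
  have hMmul : ∀ g h, M (g * h) = M g * M h := by
    intro g h
    ext i j
    rw [Matrix.mul_apply]
    have hk0 : (s (eq (τ h * eq.symm j)))⁻¹ * h * s j ∈ τ.ker := by
      rw [MonoidHom.mem_ker, map_mul, map_mul, map_inv, hs, hs, Equiv.symm_apply_apply]
      group
    rw [Finset.sum_eq_single (eq (τ h * eq.symm j))]
    · rw [hM, hM, hM, ← lamt_mul _ _ hk0]
      congr 1
      group
    · intro k _ hk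
      rw [hM _ k j, lamt_out, mul_zero]
      rw [MonoidHom.mem_ker, map_mul, map_mul, map_inv, hs, hs]
      intro h'
      apply hk
      have h2 : eq.symm k = τ h * eq.symm j := by
        rw [mul_assoc, inv_mul_eq_one] at h'
        exact h'
      rw [← h2, Equiv.apply_symm_apply]
    · intro h'
      exact absurd (Finset.mem_univ _) h'
  let Mh : Δ →* Matrix (Fin m) (Fin m) ℂ := { toFun := M, map_one' := hM1, map_mul' := hMmul }
  refine ⟨Mh.toHomUnits, ?_⟩
  intro l
  apply Units.ext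
  rw [MonoidHom.coe_toHomUnits]
  show M l = _
  ext i j
  rw [hM, Matrix.GeneralLinearGroup.coe_scalar, Matrix.scalar_apply, Matrix.diagonal_apply]
  have hcomm : (s i)⁻¹ * (l : Δ) * s j = (s i)⁻¹ * s j * l := by
    have h1 := Subgroup.mem_center_iff.mp (hc l.2) (s j)
    rw [mul_assoc, mul_assoc, h1]
  rw [hcomm, lamt_mul _ _ l.2, hdiag, lamt_in _ l.2]
  split_ifs <;> simp

/-- A representation that is scalar on the kernel of a surjection descends to a projective
representation of the quotient. -/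
theorem exists_proj_of_rep {Δ Q H : Type*} [Group Δ] [Group Q] [Group H] (τ : Δ →* Q)
    (hτ : Function.Surjective τ) (ρ : Δ →* H) (hρ : ∀ l ∈ τ.ker, ρ l ∈ Subgroup.center H) :
    ∃ γ : Q →* H ⧸ Subgroup.center H, ∀ x, γ (τ x) = QuotientGroup.mk (ρ x) := by
  have hle : τ.ker ≤ ((QuotientGroup.mk' (Subgroup.center H)).comp ρ).ker := by
    intro l hl
    rw [MonoidHom.mem_ker]
    show (QuotientGroup.mk (ρ l) : H ⧸ Subgroup.center H) = 1
    exact (QuotientGroup.eq_one_iff _).mpr (hρ l hl)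
  refine ⟨τ.liftOfRightInverse (Function.surjInv hτ) (Function.rightInverse_surjInv hτ) ⟨_, hle⟩, ?_⟩
  intro x
  exact MonoidHom.liftOfRightInverse_comp_apply _ _ _ _ x

/-- A nontrivial element of the kernel of a finite central extension is detected by a projective
representation of the quotient together with a linear lift to the extension. -/
theorem exists_proj_rep_detecting {Δ Q : Type*} [Group Δ] [Finite Δ] [Group Q] [Finite Q]
    (τ : Δ →* Q) (hτ : Function.Surjective τ) (hc : τ.ker ≤ Subgroup.center Δ) (l : Δ)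
    (hl : l ∈ τ.ker) (hl1 : l ≠ 1) :
    ∃ (n : ℕ) (ρ : Δ →* Matrix.GeneralLinearGroup (Fin n) ℂ)
      (γ : Q →* Matrix.GeneralLinearGroup (Fin n) ℂ ⧸
        Subgroup.center (Matrix.GeneralLinearGroup (Fin n) ℂ)),
      (∀ x, γ (τ x) = QuotientGroup.mk (ρ x)) ∧ ρ l ≠ 1 := by
  classical
  letI : CommGroup τ.ker :=
    { (τ.ker).toGroup with
      mul_comm := fun a b => Subtype.ext (Subgroup.mem_center_iff.mp (hc b.2) a.1) }
  have hne : (⟨l, hl⟩ : τ.ker) ≠ 1 := fun h => hl1 (congrArg Subtype.val h)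
  obtain ⟨lam, hlam⟩ := CommGroup.exists_apply_ne_one_of_hasEnoughRootsOfUnity τ.ker ℂ hne
  obtain ⟨ρ, hρ⟩ := exists_induced_rep τ hτ hc lam
  obtain ⟨γ, hγ⟩ := exists_proj_of_rep τ hτ ρ (fun x hx => by
    rw [hρ ⟨x, hx⟩]
    exact scalar_mem_center _ _)
  haveI : NeZero (Nat.card Q) := ⟨Nat.card_pos.ne'⟩
  refine ⟨Nat.card Q, ρ, γ, hγ, ?_⟩
  rw [hρ ⟨l, hl⟩]
  intro h
  apply hlam
  apply scalar_injective_of_neZero (Nat.card Q)
  rw [h, map_one]

end Cfsg.Agent.Lib.Helper22
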