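import Mathlib

set_option autoImplicit false

namespace Cfsg.Agent.Lib.Helper22.SD

theorem odd_case {F : Type*} [Field F] {G : Type*} [Group G] {V : Type*} [AddCommGroup V]
    [Module F V] [FiniteDimensional F V]
    (htwo : (2 : F) ≠ 0) (ρ : G →* Module.End F V) (B : LinearMap.BilinForm F V)
    (hB : B.Nondegenerate)
    (hBinv : ∀ g : G, ∀ x y : V, B (ρ g x) (ρ g y) = B x y) :
    ∃ U W : Submodule F V, IsCompl U W ∧ (∀ g : G, ∀ u ∈ U, ρ g u ∈ U) ∧
      (∀ g : G, ∀ w ∈ W, ρ g w ∈ W) ∧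
      (∃ A : LinearMap.BilinForm F V, (∀ x : V, A x x = 0) ∧
        (∀ g : G, ∀ x ∈ U, ∀ y ∈ U, A (ρ g x) (ρ g y) = A x y) ∧
        (∀ x ∈ U, (∀ y ∈ U, A x y = 0) → x = 0)) ∧
      (∃ S : LinearMap.BilinForm F V, (∀ x y : V, S x y = S y x) ∧
        (∀ g : G, ∀ x ∈ W, ∀ y ∈ W, S (ρ g x) (ρ g y) = S x y) ∧
        (∀ x ∈ W, (∀ y ∈ W, S x y = 0) → x = 0)) := by
  classical
  obtain ⟨σ, hσ⟩ : ∃ σ : Module.End F V, ∀ x y, B x y = B (σ y) x :=
    ⟨LinearMap.BilinForm.symmCompOfNondegenerate (LinearMap.flip B) B hB, fun x y => by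
      rw [LinearMap.BilinForm.symmCompOfNondegenerate_left_apply]; rfl⟩
  have hσiso : ∀ x y, B (σ x) (σ y) = B x y := fun x y => ((hσ x y).trans (hσ (σ y) x)).symm
  have hσρ : ∀ g v, σ (ρ g v) = ρ g (σ v) := by
    intro g v
    have hinv : ∀ a b, B (ρ g a) b = B a (ρ g⁻¹ b) := by
      intro a b
      have h0 := hBinv g a (ρ g⁻¹ b)
      rw [← Module.End.mul_apply, ← map_mul, mul_inv_cancel, map_one, Module.End.one_apply] at h0
      exact h0
    have hinv' : ∀ a b, B a (ρ g b) = B (ρ g⁻¹ a) b := by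
      intro a b
      have h0 := hBinv g (ρ g⁻¹ a) b
      rw [← Module.End.mul_apply, ← map_mul, mul_inv_cancel, map_one, Module.End.one_apply] at h0
      exact h0
    have h1 : ∀ x, B (σ (ρ g v) - ρ g (σ v)) x = 0 := by
      intro x
      rw [map_sub, LinearMap.sub_apply, ← hσ x (ρ g v), hinv, ← hσ, hinv', sub_self]
    exact sub_eq_zero.mp (hB.1 _ h1)
  obtain ⟨M, hMdef⟩ : ∃ M : Module.End F V, M = σ + 1 := ⟨_, rfl⟩
  have hMσ : ∀ v, M (σ v) = σ (M v) := by intro v; rw [hMdef]; simp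
  have hMρ : ∀ g v, M (ρ g v) = ρ g (M v) := by intro g v; rw [hMdef]; simp [hσρ]
  have hMpowσ : ∀ n v, (M ^ n) (σ v) = σ ((M ^ n) v) := by
    intro n; induction n with
    | zero => intro v; simp
    | succ n ih => intro v; rw [pow_succ, Module.End.mul_apply, Module.End.mul_apply, hMσ, ih]
  have hMpowρ : ∀ n g v, (M ^ n) (ρ g v) = ρ g ((M ^ n) v) := by
    intro n g; induction n with
    | zero => intro v; simp
    | succ n ih => intro v; rw [pow_succ, Module.End.mul_apply, Module.End.mul_apply, hMρ, ih]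
  have hadj1 : ∀ a b, B a (M b) = B (M a) (σ b) := by
    intro a b
    rw [hMdef]
    simp only [LinearMap.add_apply, Module.End.one_apply, map_add]
    rw [hσiso, add_comm]
  have hKI : ∀ n a, (M ^ n) a = 0 → ∀ b, B a ((M ^ n) b) = 0 := by
    intro n; induction n with
    | zero =>
      intro a ha b
      rw [pow_zero, Module.End.one_apply] at ha
      rw [ha]; simp
    | succ n ih =>
      intro a ha b
      rw [pow_succ, Module.End.mul_apply] at ha
      rw [pow_succ', Module.End.mul_apply, hadj1, ← hMpowσ]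
      exact ih (M a) ha (σ b)
  have hIK : ∀ n a, (M ^ n) a = 0 → ∀ b, B ((M ^ n) b) a = 0 := by
    intro n a ha b
    rw [hσ]
    apply hKI n (σ a)
    rw [hMpowσ, ha, map_zero]
  obtain ⟨n, hn, hn1⟩ := ((LinearMap.eventually_isCompl_ker_pow_range_pow M).and
    (Filter.eventually_ge_atTop 1)).exists
  have htop : ∀ v : V, ∃ k, (M ^ n) k = 0 ∧ ∃ b, k + (M ^ n) b = v := by
    intro v
    have hv : v ∈ LinearMap.ker (M ^ n) ⊔ LinearMap.range (M ^ n) := by
      rw [hn.sup_eq_top]; exact Submodule.mem_top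
    obtain ⟨k, hk, i, ⟨b, rfl⟩, rfl⟩ := Submodule.mem_sup.mp hv
    exact ⟨k, LinearMap.mem_ker.mp hk, b, rfl⟩
  refine ⟨LinearMap.ker (M ^ n), LinearMap.range (M ^ n), hn, ?_, ?_, ?_, ?_⟩
  · intro g u hu
    rw [LinearMap.mem_ker] at hu ⊢
    rw [hMpowρ, hu, map_zero]
  · rintro g _ ⟨w, rfl⟩
    exact ⟨ρ g w, hMpowρ n g w⟩
  · refine ⟨B - LinearMap.flip B, ?_, ?_, ?_⟩
    · intro x; simp
    · intro g x _ y _; simp [hBinv]
    · intro x hx hxy
      rw [LinearMap.mem_ker] at hx
      have h1 : ∀ v, B (σ x - x) v = 0 := by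
        intro v
        obtain ⟨k, hk, b, rfl⟩ := htop v
        rw [map_add]
        have e1 : B (σ x - x) ((M ^ n) b) = 0 := by
          apply hKI n
          rw [map_sub, hMpowσ, hx, map_zero, sub_zero]
        have e2 : B (σ x - x) k = 0 := by
          have h0 := hxy k (LinearMap.mem_ker.mpr hk)
          rw [LinearMap.sub_apply, LinearMap.sub_apply, LinearMap.flip_apply] at h0
          rw [map_sub, LinearMap.sub_apply, ← hσ k x, ← neg_sub, h0, neg_zero]
        rw [e2, e1, add_zero]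
      have h2 : σ x = x := sub_eq_zero.mp (hB.1 _ h1)
      have e : M x = (2 : F) • x := by
        rw [hMdef, LinearMap.add_apply, h2, Module.End.one_apply, two_smul]
      have h3 : ∀ j, (M ^ j) x = (2 : F) ^ j • x := by
        intro j; induction j with
        | zero => simp
        | succ j ih =>
          rw [pow_succ', Module.End.mul_apply, ih, map_smul, e, smul_smul, ← pow_succ]
      have h4 := h3 n
      rw [hx] at h4
      exact (smul_eq_zero.mp h4.symm).resolve_left (pow_ne_zero n htwo)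
  · refine ⟨B + LinearMap.flip B, ?_, ?_, ?_⟩
    · intro x y; simp [add_comm]
    · intro g x _ y _; simp [hBinv]
    · rintro x ⟨b, rfl⟩ hxy
      have hMx : ∀ v, B (M ((M ^ n) b)) v = 0 := by
        intro v
        obtain ⟨k, hk, b', rfl⟩ := htop v
        rw [map_add]
        have e1 : B (M ((M ^ n) b)) k = 0 := by
          have e0 : M ((M ^ n) b) = (M ^ n) (M b) := by
            rw [← Module.End.mul_apply, ← Module.End.mul_apply, ← pow_succ', ← pow_succ]
          rw [e0]
          exact hIK n k hk (M b)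
        have e2 : B (M ((M ^ n) b)) ((M ^ n) b') = 0 := by
          have h0 := hxy ((M ^ n) b') ⟨b', rfl⟩
          rw [LinearMap.add_apply, LinearMap.add_apply, LinearMap.flip_apply] at h0
          have eM : ∀ y, M y = σ y + y := by intro y; rw [hMdef]; simp
          rw [eM ((M ^ n) b), map_add, LinearMap.add_apply, ← hσ ((M ^ n) b') ((M ^ n) b),
            add_comm]
          exact h0
        rw [e1, e2, add_zero]
      have h5 : M ((M ^ n) b) = 0 := hB.1 _ hMx
      have h6 : (M ^ n) ((M ^ n) b) = 0 := by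
        have hsplit : M ^ n = M ^ (n - 1) * M := by rw [← pow_succ]; congr 1; omega
        calc (M ^ n) ((M ^ n) b) = (M ^ (n - 1) * M) ((M ^ n) b) := by rw [← hsplit]
          _ = (M ^ (n - 1)) (M ((M ^ n) b)) := rfl
          _ = 0 := by rw [h5, map_zero]
      have h7 : (M ^ n) b ∈ LinearMap.ker (M ^ n) ⊓ LinearMap.range (M ^ n) :=
        ⟨LinearMap.mem_ker.mpr h6, ⟨b, rfl⟩⟩
      rw [hn.inf_eq_bot] at h7
      exact (Submodule.mem_bot _).mp h7

end Cfsg.Agent.Lib.Helper22.SD
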