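import Mathlib

set_option autoImplicit false

namespace Cfsg.Agent.Lib.Helper22.SD

theorem maschke_proj {F : Type*} [Field F] {G : Type*} [Group G] [Fintype G] {V : Type*}
    [AddCommGroup V] [Module F V] (hG : (Fintype.card G : F) ≠ 0) (ρ : G →* Module.End F V)
    (X : Submodule F V) (hX : ∀ g, ∀ x ∈ X, ρ g x ∈ X) :
    ∃ π : Module.End F V, (∀ v, π v ∈ X) ∧ (∀ x ∈ X, π x = x) ∧
      (∀ g v, π (ρ g v) = ρ g (π v)) := by
  classical
  obtain ⟨r, hr⟩ := X.subtype.exists_leftInverse_of_injective (Submodule.ker_subtype X)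
  have hr' : ∀ x : X, r x = x := fun x => LinearMap.congr_fun hr x
  obtain ⟨π₀, hπ₀⟩ : ∃ π₀ : Module.End F V, ∀ v, π₀ v = (r v : V) :=
    ⟨X.subtype ∘ₗ r, fun v => rfl⟩
  have hπ₀mem : ∀ v, π₀ v ∈ X := fun v => by rw [hπ₀]; exact (r v).2
  have hπ₀id : ∀ x ∈ X, π₀ x = x := fun x hx => by
    rw [hπ₀]
    exact congrArg Subtype.val (hr' ⟨x, hx⟩)
  have hρinv : ∀ g v, ρ g (ρ g⁻¹ v) = v := fun g v => by
    rw [← Module.End.mul_apply, ← map_mul, mul_inv_cancel, map_one, Module.End.one_apply]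
  refine ⟨(Fintype.card G : F)⁻¹ • ∑ g : G, ρ g * π₀ * ρ g⁻¹, ?_, ?_, ?_⟩
  · intro v
    rw [LinearMap.smul_apply, LinearMap.sum_apply]
    apply X.smul_mem
    apply X.sum_mem
    intro g _
    exact hX g _ (hπ₀mem _)
  · intro x hx
    rw [LinearMap.smul_apply, LinearMap.sum_apply]
    have hterm : ∀ g ∈ (Finset.univ : Finset G), (ρ g * π₀ * ρ g⁻¹) x = x := by
      intro g _
      show ρ g (π₀ (ρ g⁻¹ x)) = x
      rw [hπ₀id _ (hX g⁻¹ x hx), hρinv]
    rw [Finset.sum_congr rfl hterm, Finset.sum_const, Finset.card_univ,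
      ← Nat.cast_smul_eq_nsmul F, smul_smul, inv_mul_cancel₀ hG, one_smul]
  · intro h v
    rw [LinearMap.smul_apply, LinearMap.sum_apply, LinearMap.smul_apply, LinearMap.sum_apply,
      map_smul, map_sum]
    congr 1
    refine Fintype.sum_equiv (Equiv.mulLeft h⁻¹) _ _ (fun g => ?_)
    rw [Equiv.coe_mulLeft]
    have e1 : ρ (h⁻¹ * g)⁻¹ = ρ g⁻¹ * ρ h := by rw [mul_inv_rev, inv_inv, map_mul]
    have e2 : ρ h * ρ (h⁻¹ * g) = ρ g := by rw [← map_mul, mul_inv_cancel_left]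
    rw [e1]
    simp only [Module.End.mul_apply]
    rw [← Module.End.mul_apply (ρ h) (ρ (h⁻¹ * g)), e2]

theorem sum_fixed {F : Type*} [Field F] {G : Type*} [Group G] [Fintype G] {V : Type*}
    [AddCommGroup V] [Module F V] (ρ : G →* Module.End F V) (h : G) (v : V) :
    ρ h (∑ g : G, ρ g v) = ∑ g : G, ρ g v := by
  rw [map_sum]
  refine Fintype.sum_equiv (Equiv.mulLeft h) _ _ (fun g => ?_)
  rw [Equiv.coe_mulLeft, map_mul]
  rfl

theorem inv_left {F : Type*} [Field F] {G : Type*} [Group G] {V : Type*}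
    [AddCommGroup V] [Module F V] (ρ : G →* Module.End F V) (B : LinearMap.BilinForm F V)
    (hBinv : ∀ g : G, ∀ x y : V, B (ρ g x) (ρ g y) = B x y) (g : G) (a b : V) :
    B (ρ g a) b = B a (ρ g⁻¹ b) := by
  have h0 := hBinv g a (ρ g⁻¹ b)
  rw [← Module.End.mul_apply, ← map_mul, mul_inv_cancel, map_one, Module.End.one_apply] at h0
  exact h0

theorem inv_right {F : Type*} [Field F] {G : Type*} [Group G] {V : Type*}
    [AddCommGroup V] [Module F V] (ρ : G →* Module.End F V) (B : LinearMap.BilinForm F V)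
    (hBinv : ∀ g : G, ∀ x y : V, B (ρ g x) (ρ g y) = B x y) (g : G) (a b : V) :
    B a (ρ g b) = B (ρ g⁻¹ a) b := by
  have h0 := hBinv g (ρ g⁻¹ a) b
  rw [← Module.End.mul_apply, ← map_mul, mul_inv_cancel, map_one, Module.End.one_apply] at h0
  exact h0

theorem orth_inv {F : Type*} [Field F] {G : Type*} [Group G] {V : Type*}
    [AddCommGroup V] [Module F V] (ρ : G →* Module.End F V) (B : LinearMap.BilinForm F V)
    (hBinv : ∀ g : G, ∀ x y : V, B (ρ g x) (ρ g y) = B x y) (X : Submodule F V)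
    (hX : ∀ g, ∀ x ∈ X, ρ g x ∈ X) : ∀ g, ∀ y ∈ B.orthogonal X, ρ g y ∈ B.orthogonal X := by
  intro g y hy
  rw [LinearMap.BilinForm.mem_orthogonal_iff] at hy ⊢
  intro n hn
  rw [inv_right ρ B hBinv]
  exact hy _ (hX g⁻¹ n hn)

theorem split_orth {F : Type*} [Field F] {V : Type*} [AddCommGroup V] [Module F V]
    [FiniteDimensional F V] (B : LinearMap.BilinForm F V) (hB : B.Nondegenerate)
    (X : Submodule F V) (hd : Disjoint X (B.orthogonal X)) :
    IsCompl X (B.orthogonal X) ∧ (B.restrict (B.orthogonal X)).Nondegenerate := by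
  have hc : IsCompl X (B.orthogonal X) := by
    refine (Submodule.isCompl_iff_disjoint X _ ?_).mpr hd
    have h1 := LinearMap.BilinForm.finrank_orthogonal hB X
    have h3 := Submodule.finrank_le X
    omega
  refine ⟨hc, ?_⟩
  apply LinearMap.BilinForm.Nondegenerate.ofSeparatingRight
  intro y hy
  apply Subtype.ext
  apply hB.2
  intro v
  have hv : v ∈ X ⊔ B.orthogonal X := by rw [hc.sup_eq_top]; exact Submodule.mem_top
  obtain ⟨x, hx, y', hy', rfl⟩ := Submodule.mem_sup.mp hv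
  rw [map_add, LinearMap.add_apply]
  have e1 : B x y = 0 := y.2 x hx
  have e2 : B y' y = 0 := hy ⟨y', hy'⟩
  rw [e1, e2, add_zero]

theorem combine {F : Type*} [Field F] {G : Type*} [Group G] {V : Type*}
    [AddCommGroup V] [Module F V] (ρ : G →* Module.End F V) (X Y : Submodule F V)
    (hc : IsCompl X Y) (hX : ∀ g, ∀ x ∈ X, ρ g x ∈ X) (hY : ∀ g, ∀ y ∈ Y, ρ g y ∈ Y)
    (AX : LinearMap.BilinForm F X) (AY : LinearMap.BilinForm F Y)
    (hAX1 : ∀ x, AX x x = 0)
    (hAX2 : ∀ g (x y : X), AX ⟨ρ g x, hX g x x.2⟩ ⟨ρ g y, hX g y y.2⟩ = AX x y)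
    (hAX3 : ∀ x, (∀ y, AX x y = 0) → x = 0)
    (hAY1 : ∀ x, AY x x = 0)
    (hAY2 : ∀ g (x y : Y), AY ⟨ρ g x, hY g x x.2⟩ ⟨ρ g y, hY g y y.2⟩ = AY x y)
    (hAY3 : ∀ x, (∀ y, AY x y = 0) → x = 0) :
    ∃ A : LinearMap.BilinForm F V, (∀ x, A x x = 0) ∧
      (∀ g x y, A (ρ g x) (ρ g y) = A x y) ∧ (∀ x, (∀ y, A x y = 0) → x = 0) := by
  obtain ⟨pX, hpX⟩ : ∃ pX : V →ₗ[F] X, pX = X.projectionOnto Y hc := ⟨_, rfl⟩
  obtain ⟨pY, hpY⟩ : ∃ pY : V →ₗ[F] Y, pY = Y.projectionOnto X hc.symm := ⟨_, rfl⟩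
  have hsum : ∀ v : V, (pX v : V) + (pY v : V) = v := by
    intro v
    rw [hpX, hpY]
    exact Submodule.projection_add_projection_eq_self hc v
  have hXl : ∀ (x : V) (hx : x ∈ X), pX x = ⟨x, hx⟩ := fun x hx => by
    rw [hpX]; exact Submodule.projectionOnto_apply_of_mem_left hc hx
  have hXr : ∀ (y : V), y ∈ Y → pX y = 0 := fun y hy => by
    rw [hpX]; exact Submodule.projectionOnto_apply_of_mem_right hc hy
  have hYl : ∀ (y : V) (hy : y ∈ Y), pY y = ⟨y, hy⟩ := fun y hy => by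
    rw [hpY]; exact Submodule.projectionOnto_apply_of_mem_left hc.symm hy
  have hYr : ∀ (x : V), x ∈ X → pY x = 0 := fun x hx => by
    rw [hpY]; exact Submodule.projectionOnto_apply_of_mem_right hc.symm hx
  have heqX : ∀ g v, pX (ρ g v) = ⟨ρ g (pX v), hX g _ (pX v).2⟩ := by
    intro g v
    calc pX (ρ g v) = pX (ρ g ((pX v : V) + (pY v : V))) := by rw [hsum]
      _ = pX (ρ g (pX v : V)) + pX (ρ g (pY v : V)) := by rw [map_add, map_add]
      _ = ⟨ρ g (pX v), hX g _ (pX v).2⟩ + 0 := by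
        rw [hXl _ (hX g _ (pX v).2), hXr _ (hY g _ (pY v).2)]
      _ = _ := add_zero _
  have heqY : ∀ g v, pY (ρ g v) = ⟨ρ g (pY v), hY g _ (pY v).2⟩ := by
    intro g v
    calc pY (ρ g v) = pY (ρ g ((pX v : V) + (pY v : V))) := by rw [hsum]
      _ = pY (ρ g (pX v : V)) + pY (ρ g (pY v : V)) := by rw [map_add, map_add]
      _ = 0 + ⟨ρ g (pY v), hY g _ (pY v).2⟩ := by
        rw [hYl _ (hY g _ (pY v).2), hYr _ (hX g _ (pX v).2)]
      _ = _ := zero_add _
  obtain ⟨A, hA⟩ : ∃ A : LinearMap.BilinForm F V,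
      ∀ v w, A v w = AX (pX v) (pX w) + AY (pY v) (pY w) :=
    ⟨AX.compl₁₂ pX pX + AY.compl₁₂ pY pY, fun v w => rfl⟩
  refine ⟨A, ?_, ?_, ?_⟩
  · intro x
    rw [hA, hAX1, hAY1, add_zero]
  · intro g x y
    rw [hA, hA, heqX, heqX, heqY, heqY, hAX2, hAY2]
  · intro v hv
    have h1 : pX v = 0 := by
      apply hAX3
      intro x'
      have h0 := hv (x' : V)
      rw [hA, hXl _ x'.2, hYr _ x'.2, map_zero, add_zero] at h0
      exact h0
    have h2 : pY v = 0 := by
      apply hAY3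
      intro y'
      have h0 := hv (y' : V)
      rw [hA, hYl _ y'.2, hXr _ y'.2, map_zero, zero_add] at h0
      exact h0
    have h3 := hsum v
    rw [h1, h2] at h3
    simpa using h3.symm

theorem q_lemma {F : Type*} [Field F] {G : Type*} [Group G] [Fintype G] {V : Type*}
    [AddCommGroup V] [Module F V] (h2 : (2 : F) = 0) (hG : (Fintype.card G : F) ≠ 0)
    (ρ : G →* Module.End F V) (B : LinearMap.BilinForm F V)
    (hBinv : ∀ g : G, ∀ x y : V, B (ρ g x) (ρ g y) = B x y)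
    (hfix : ∀ v, (∀ g, ρ g v = v) → v = 0)
    (X : Submodule F V) (hX : ∀ g, ∀ x ∈ X, ρ g x ∈ X)
    (hsym : ∀ x ∈ X, ∀ y ∈ X, B x y = B y x) : ∀ x ∈ X, B x x = 0 := by
  have hchar : ∀ a : F, a + a = 0 := fun a => by rw [← two_mul, h2, zero_mul]
  obtain ⟨Q, hQ⟩ : ∃ Q : Submodule F V, ∀ x, x ∈ Q ↔ x ∈ X ∧ B x x = 0 :=
    ⟨{ carrier := {x | x ∈ X ∧ B x x = 0}
       add_mem' := by
         rintro u v ⟨hu1, hu2⟩ ⟨hv1, hv2⟩
         refine ⟨X.add_mem hu1 hv1, ?_⟩
         simp only [map_add, LinearMap.add_apply]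
         rw [hu2, hv2, hsym v hv1 u hu1]
         linear_combination hchar (B u v)
       zero_mem' := ⟨X.zero_mem, by simp⟩
       smul_mem' := by
         rintro c u ⟨hu1, hu2⟩
         refine ⟨X.smul_mem c hu1, ?_⟩
         simp only [map_smul, LinearMap.smul_apply]
         rw [hu2, smul_zero, smul_zero] }, fun x => Iff.rfl⟩
  intro x hx
  have hs : ∑ g : G, ρ g x = 0 := hfix _ (fun h => sum_fixed ρ h x)
  have hmem : ∀ g : G, x + ρ g x ∈ Q := by
    intro g
    rw [hQ]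
    refine ⟨X.add_mem hx (hX g x hx), ?_⟩
    simp only [map_add, LinearMap.add_apply]
    rw [hBinv, hsym (ρ g x) (hX g x hx) x hx]
    linear_combination hchar (B x x) + hchar (B x (ρ g x))
  have hsum : ∑ g : G, (x + ρ g x) = (Fintype.card G : F) • x := by
    rw [Finset.sum_add_distrib, hs, add_zero, Finset.sum_const, Finset.card_univ,
      Nat.cast_smul_eq_nsmul]
  have h1 : (Fintype.card G : F) • x ∈ Q := by
    rw [← hsum]
    exact Q.sum_mem (fun g _ => hmem g)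
  have h3 : x ∈ Q := by
    have h4 := Q.smul_mem (Fintype.card G : F)⁻¹ h1
    rwa [smul_smul, inv_mul_cancel₀ hG, one_smul] at h4
  exact ((hQ x).mp h3).2

def restrictRep {F : Type*} [Field F] {G : Type*} [Group G] {V : Type*}
    [AddCommGroup V] [Module F V] (ρ : G →* Module.End F V) (X : Submodule F V)
    (hX : ∀ g, ∀ x ∈ X, ρ g x ∈ X) : G →* Module.End F X where
  toFun g := (ρ g).restrict (hX g)
  map_one' := by
    apply LinearMap.ext; intro x; apply Subtype.ext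
    show (ρ 1) (x : V) = x
    rw [map_one]; rfl
  map_mul' a b := by
    apply LinearMap.ext; intro x; apply Subtype.ext
    show (ρ (a * b)) (x : V) = ρ a (ρ b x)
    rw [map_mul]; rfl

theorem exists_sym_nondeg {F : Type*} [Field F] (W : Type*) [AddCommGroup W] [Module F W]
    [FiniteDimensional F W] :
    ∃ S : LinearMap.BilinForm F W, (∀ x y, S x y = S y x) ∧ (∀ x, (∀ y, S x y = 0) → x = 0) := by
  classical
  obtain ⟨b, hb⟩ : ∃ b : Module.Basis (Fin (Module.finrank F W)) F W, b = Module.finBasis F W :=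
    ⟨_, rfl⟩
  obtain ⟨S, hS⟩ : ∃ S : LinearMap.BilinForm F W,
      ∀ x y, S x y = ∑ i, b.repr x i * b.repr y i := by
    refine ⟨LinearMap.mk₂ F (fun x y => ∑ i, b.repr x i * b.repr y i) ?_ ?_ ?_ ?_,
      fun x y => rfl⟩
    · intro m₁ m₂ n
      simp [add_mul, Finset.sum_add_distrib]
    · intro c m n
      simp [Finset.mul_sum, mul_assoc]
    · intro m n₁ n₂
      simp [mul_add, Finset.sum_add_distrib]
    · intro c m n
      simp [Finset.mul_sum, mul_left_comm]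
  refine ⟨S, ?_, ?_⟩
  · intro x y
    rw [hS, hS]
    exact Finset.sum_congr rfl (fun i _ => mul_comm _ _)
  · intro x hx
    have h0 : b.repr x = 0 := by
      apply Finsupp.ext
      intro j
      have h1 := hx (b j)
      rw [hS] at h1
      simpa [Finsupp.single_apply] using h1
    exact (LinearEquiv.map_eq_zero_iff b.repr).mp h0

end Cfsg.Agent.Lib.Helper22.SD
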