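import Mathlib
import Cfsg.Agent.Lib.Helper22.SD2

set_option autoImplicit false

namespace Cfsg.Agent.Lib.Helper22.SD

universe u u1 u2

theorem even_rec {F : Type u1} [Field F] {G : Type u2} [Group G] [Fintype G]
    (h2 : (2 : F) = 0) (hG : (Fintype.card G : F) ≠ 0) :
    ∀ k : ℕ, ∀ (V : Type u) [AddCommGroup V] [Module F V] [FiniteDimensional F V]
      (ρ : G →* Module.End F V) (B : LinearMap.BilinForm F V),
      B.Nondegenerate → (∀ g x y, B (ρ g x) (ρ g y) = B x y) →
      (∀ v, (∀ g, ρ g v = v) → v = 0) → Module.finrank F V = k →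
      ∃ A : LinearMap.BilinForm F V, (∀ x, A x x = 0) ∧
        (∀ g x y, A (ρ g x) (ρ g y) = A x y) ∧ (∀ x, (∀ y, A x y = 0) → x = 0) := by
  intro k
  induction k using Nat.strong_induction_on with
  | _ k ih =>
  intro V _ _ _ ρ B hB hBinv hfix hfin
  classical
  have hchar : ∀ a : F, a + a = 0 := fun a => by rw [← two_mul, h2, zero_mul]
  have hneg : ∀ a : F, -a = a := fun a => neg_eq_of_add_eq_zero_left (hchar a)
  by_cases hcase1 : ∀ x, (∀ y, B x y = B y x) → x = 0
  · refine ⟨B + LinearMap.flip B, ?_, ?_, ?_⟩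
    · intro x
      rw [LinearMap.add_apply, LinearMap.add_apply, LinearMap.flip_apply]
      exact hchar _
    · intro g x y
      rw [LinearMap.add_apply, LinearMap.add_apply, LinearMap.flip_apply, LinearMap.add_apply,
        LinearMap.add_apply, LinearMap.flip_apply, hBinv, hBinv]
    · intro x hx
      apply hcase1
      intro y
      have h0 := hx y
      rw [LinearMap.add_apply, LinearMap.add_apply, LinearMap.flip_apply] at h0
      have h3 : B x y = -(B y x) := eq_neg_of_add_eq_zero_left h0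
      rw [h3, hneg]
  have hex : ∃ x₀, (∀ y, B x₀ y = B y x₀) ∧ x₀ ≠ 0 := by
    by_contra hcon
    apply hcase1
    intro x hx
    by_contra hx0
    exact hcon ⟨x, hx, hx0⟩
  obtain ⟨x₀, hx₀K, hx₀⟩ := hex
  obtain ⟨K₀, hK₀⟩ : ∃ K₀ : Submodule F V, ∀ x, x ∈ K₀ ↔ ∀ y, B x y = B y x :=
    ⟨{ carrier := {x | ∀ y, B x y = B y x}
       add_mem' := by
         intro a b ha hb y
         rw [map_add, LinearMap.add_apply, map_add, ha y, hb y]
       zero_mem' := by intro y; simp
       smul_mem' := by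
         intro c a ha y
         rw [map_smul, LinearMap.smul_apply, map_smul, ha y] }, fun x => Iff.rfl⟩
  have hK₀inv : ∀ g, ∀ x ∈ K₀, ρ g x ∈ K₀ := by
    intro g x hx
    rw [hK₀] at hx ⊢
    intro y
    rw [inv_left ρ B hBinv g x y, hx (ρ g⁻¹ y)]
    exact (inv_right ρ B hBinv g y x).symm
  have step : ∃ (X : Submodule F V) (hX : ∀ g, ∀ x ∈ X, ρ g x ∈ X), X ≠ ⊥ ∧
      Disjoint X (B.orthogonal X) ∧
      ∃ AX : LinearMap.BilinForm F X, (∀ x, AX x x = 0) ∧
        (∀ g (x y : X), AX ⟨ρ g x, hX g x x.2⟩ ⟨ρ g y, hX g y y.2⟩ = AX x y) ∧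
        (∀ x, (∀ y, AX x y = 0) → x = 0) := by
    by_cases hcase2 : ∃ x ∈ K₀, ∃ y ∈ K₀, B x y ≠ 0
    · obtain ⟨a, haK, b, hbK, hab⟩ := hcase2
      obtain ⟨Rad, hRad⟩ : ∃ Rad : Submodule F V,
          ∀ x, x ∈ Rad ↔ x ∈ K₀ ∧ ∀ y ∈ K₀, B x y = 0 :=
        ⟨{ carrier := {x | x ∈ K₀ ∧ ∀ y ∈ K₀, B x y = 0}
           add_mem' := by
             rintro u v ⟨hu1, hu2⟩ ⟨hv1, hv2⟩
             refine ⟨K₀.add_mem hu1 hv1, fun y hy => ?_⟩
             rw [map_add, LinearMap.add_apply, hu2 y hy, hv2 y hy, add_zero]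
           zero_mem' := ⟨K₀.zero_mem, fun y _ => by simp⟩
           smul_mem' := by
             rintro c u ⟨hu1, hu2⟩
             refine ⟨K₀.smul_mem c hu1, fun y hy => ?_⟩
             rw [map_smul, LinearMap.smul_apply, hu2 y hy, smul_zero] }, fun x => Iff.rfl⟩
      have hRadinv : ∀ g, ∀ x ∈ Rad, ρ g x ∈ Rad := by
        intro g x hx
        rw [hRad] at hx ⊢
        refine ⟨hK₀inv g x hx.1, fun y hy => ?_⟩
        rw [inv_left ρ B hBinv]
        exact hx.2 _ (hK₀inv g⁻¹ y hy)
      obtain ⟨π, hπ1, hπ2, hπ3⟩ := maschke_proj hG ρ Rad hRadinv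
      obtain ⟨X, hXmem⟩ : ∃ X : Submodule F V, ∀ x, x ∈ X ↔ x ∈ K₀ ∧ π x = 0 :=
        ⟨K₀ ⊓ LinearMap.ker π, fun x => Iff.rfl⟩
      have hXinv : ∀ g, ∀ x ∈ X, ρ g x ∈ X := by
        intro g x hx
        rw [hXmem] at hx ⊢
        exact ⟨hK₀inv g x hx.1, by rw [hπ3, hx.2, map_zero]⟩
      have hdec : ∀ k ∈ K₀, k - π k ∈ X := by
        intro k hk
        rw [hXmem]
        refine ⟨K₀.sub_mem hk ((hRad _).mp (hπ1 k)).1, ?_⟩
        rw [map_sub, hπ2 _ (hπ1 k), sub_self]
      have hXnd : ∀ x ∈ X, (∀ y ∈ X, B x y = 0) → x = 0 := by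
        intro x hx hxy
        have hxK := ((hXmem x).mp hx).1
        have hxRad : x ∈ Rad := by
          rw [hRad]
          refine ⟨hxK, fun y hy => ?_⟩
          have e : B x y = B x (π y) + B x (y - π y) := by
            rw [← map_add]; congr 1; abel
          rw [e, hxy _ (hdec y hy), add_zero, (hK₀ x).mp hxK (π y)]
          exact ((hRad _).mp (hπ1 y)).2 x hxK
        have h0 := hπ2 x hxRad
        rw [((hXmem x).mp hx).2] at h0
        exact h0.symm
      refine ⟨X, hXinv, ?_, ?_, B.restrict X, ?_, ?_, ?_⟩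
      · intro hXbot
        have h1 := hdec a haK
        rw [hXbot, Submodule.mem_bot, sub_eq_zero] at h1
        have h3 := hπ1 a
        rw [← h1, hRad] at h3
        exact hab (h3.2 b hbK)
      · rw [Submodule.disjoint_def]
        intro x hx hx'
        apply hXnd x hx
        intro y hy
        rw [(hK₀ x).mp ((hXmem x).mp hx).1 y]
        exact hx' y hy
      · intro x
        exact q_lemma h2 hG ρ B hBinv hfix X hXinv
          (fun x hx y _ => (hK₀ x).mp ((hXmem x).mp hx).1 y) x.1 x.2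
      · intro g x y
        exact hBinv g x y
      · intro x hx
        apply Subtype.ext
        apply hXnd x.1 x.2
        intro y hy
        exact hx ⟨y, hy⟩
    · have hiso : ∀ x ∈ K₀, ∀ y ∈ K₀, B x y = 0 := by
        intro x hx y hy
        by_contra hne
        exact hcase2 ⟨x, hx, y, hy, hne⟩
      have hRinv := orth_inv ρ B hBinv K₀ hK₀inv
      obtain ⟨πR, hπ1, hπ2, hπ3⟩ := maschke_proj hG ρ (B.orthogonal K₀) hRinv
      obtain ⟨π, hπv⟩ : ∃ π : Module.End F V, ∀ v, π v = v - πR v := ⟨1 - πR, fun v => rfl⟩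
      have hsplit : ∀ v, v = πR v + π v := by intro v; rw [hπv]; abel
      have hπT : ∀ v, πR (π v) = 0 := by
        intro v; rw [hπv, map_sub, hπ2 _ (hπ1 v), sub_self]
      have hπρ : ∀ g v, π (ρ g v) = ρ g (π v) := by
        intro g v; rw [hπv, hπv, hπ3, map_sub]
      have hK₀R : ∀ s ∈ K₀, s ∈ B.orthogonal K₀ := fun s hs n hn => hiso n hn s hs
      have hπS : ∀ s ∈ K₀, π s = 0 := by
        intro s hs; rw [hπv, hπ2 s (hK₀R s hs), sub_self]
      have hπRS : ∀ s ∈ K₀, πR s = s := fun s hs => hπ2 s (hK₀R s hs)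
      have hT0 : ∀ v, (∀ s ∈ K₀, B s (π v) = 0) → π v = 0 := by
        intro v hv
        have h1 : π v ∈ B.orthogonal K₀ := hv
        have h3 := hπ2 _ h1
        rw [hπT] at h3
        exact h3.symm
      have hRorth : ∀ v, ∀ s ∈ K₀, B s (πR v) = 0 := fun v s hs => hπ1 v s hs
      obtain ⟨X, hXmem⟩ : ∃ X : Submodule F V, ∀ v, v ∈ X ↔ πR v ∈ K₀ :=
        ⟨K₀.comap πR, fun v => Iff.rfl⟩
      have hXinv : ∀ g, ∀ x ∈ X, ρ g x ∈ X := by
        intro g x hx
        rw [hXmem] at hx ⊢
        rw [hπ3]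
        exact hK₀inv g _ hx
      have hSX : ∀ s ∈ K₀, s ∈ X := by
        intro s hs; rw [hXmem, hπRS s hs]; exact hs
      have hTX : ∀ v, π v ∈ X := by
        intro v; rw [hXmem, hπT]; exact K₀.zero_mem
      obtain ⟨C, hC⟩ : ∃ C : LinearMap.BilinForm F V, ∀ v w, C v w = B v w + B (π v) (π w) :=
        ⟨B + B.compl₁₂ π π, fun v w => rfl⟩
      refine ⟨X, hXinv, ?_, ?_, C.restrict X, ?_, ?_, ?_⟩
      · intro hXbot
        have h1 := hSX x₀ ((hK₀ x₀).mpr hx₀K)
        rw [hXbot, Submodule.mem_bot] at h1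
        exact hx₀ h1
      · rw [Submodule.disjoint_def]
        intro u hu hu'
        rw [hXmem] at hu
        have hπu : π u = 0 := by
          apply hT0
          intro s' hs'
          have h0 := hu' s' (hSX s' hs')
          have e : B s' u = B s' (πR u) + B s' (π u) := by
            rw [← map_add, ← hsplit]
          rw [e, hiso s' hs' _ hu, zero_add] at h0
          exact h0
        have huK : u ∈ K₀ := by
          have e := hsplit u
          rw [hπu, add_zero] at e
          rw [e]; exact hu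
        apply hB.2
        intro v
        have e : B v u = B (πR v) u + B (π v) u := by
          rw [← LinearMap.add_apply, ← map_add, ← hsplit]
        rw [e, hu' _ (hTX v), add_zero, ← (hK₀ u).mp huK (πR v)]
        exact hRorth v u huK
      · intro x
        obtain ⟨u, hu⟩ := x
        show C u u = 0
        rw [hXmem] at hu
        obtain ⟨s, hs⟩ : ∃ s, s = πR u := ⟨_, rfl⟩
        obtain ⟨t, ht⟩ : ∃ t, t = π u := ⟨_, rfl⟩
        have hsK : s ∈ K₀ := hs ▸ hu
        have hust : u = s + t := by rw [hs, ht]; exact hsplit u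
        rw [hC, ← ht, hust]
        simp only [map_add, LinearMap.add_apply]
        rw [hiso s hsK s hsK, ← (hK₀ s).mp hsK t]
        linear_combination hchar (B s t) + hchar (B t t)
      · intro g x y
        show C (ρ g x) (ρ g y) = C x y
        rw [hC, hC, hπρ, hπρ, hBinv, hBinv]
      · intro x hx
        obtain ⟨u, hu⟩ := x
        apply Subtype.ext
        show u = 0
        have hx' : ∀ w ∈ X, C u w = 0 := fun w hw => hx ⟨w, hw⟩
        have huX := hu
        rw [hXmem] at hu
        have hπu : π u = 0 := by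
          apply hT0
          intro s' hs'
          have h0 := hx' s' (hSX s' hs')
          rw [hC, hπS s' hs', map_zero, add_zero, ← (hK₀ s').mp hs' u] at h0
          have e : B s' u = B s' (πR u) + B s' (π u) := by
            rw [← map_add, ← hsplit]
          rw [e, hiso s' hs' _ hu, zero_add] at h0
          exact h0
        have huK : u ∈ K₀ := by
          have e := hsplit u
          rw [hπu, add_zero] at e
          rw [e]; exact hu
        apply hB.1
        intro v
        have e : B u v = B u (πR v) + B u (π v) := by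
          rw [← map_add, ← hsplit]
        have h0 := hx' _ (hTX v)
        rw [hC, hπu, map_zero, LinearMap.zero_apply, add_zero] at h0
        rw [e, h0, add_zero]
        exact hRorth v u huK
  obtain ⟨X, hX, hXne, hXd, AX, hAX1, hAX2, hAX3⟩ := step
  obtain ⟨hc, hYnd⟩ := split_orth B hB X hXd
  have hY : ∀ g, ∀ y ∈ B.orthogonal X, ρ g y ∈ B.orthogonal X := orth_inv ρ B hBinv X hX
  have hlt : Module.finrank F (B.orthogonal X) < k := by
    have h1 := LinearMap.BilinForm.finrank_orthogonal hB X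
    haveI : Nontrivial X := Submodule.nontrivial_iff_ne_bot.mpr hXne
    have h3 : 0 < Module.finrank F X := Module.finrank_pos
    have h4 := Submodule.finrank_le X
    omega
  obtain ⟨AY, hAY1, hAY2, hAY3⟩ := ih _ hlt (↥(B.orthogonal X)) (restrictRep ρ _ hY)
    (B.restrict _) hYnd (fun g x y => hBinv g x y)
    (fun v hv => Subtype.ext (hfix v (fun g => congrArg Subtype.val (hv g)))) rfl
  exact combine ρ X (B.orthogonal X) hc hX hY AX AY hAX1 hAX2 hAX3 hAY1
    (fun g x y => hAY2 g x y) hAY3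

end Cfsg.Agent.Lib.Helper22.SD
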