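import Mathlib
import Cfsg.Agent.Lib.Helper22.SD3

set_option autoImplicit false

namespace Cfsg.Agent.Lib.Helper22.SD

theorem even_case {F : Type*} [Field F] {G : Type*} [Group G] [Fintype G] {V : Type*}
    [AddCommGroup V] [Module F V] [FiniteDimensional F V]
    (h2 : (2 : F) = 0) (hG : (Fintype.card G : F) ≠ 0)
    (ρ : G →* Module.End F V) (B : LinearMap.BilinForm F V) (hB : B.Nondegenerate)
    (hBinv : ∀ g : G, ∀ x y : V, B (ρ g x) (ρ g y) = B x y) :
    ∃ U W : Submodule F V, IsCompl U W ∧ (∀ g : G, ∀ u ∈ U, ρ g u ∈ U) ∧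
      (∀ g : G, ∀ w ∈ W, ρ g w ∈ W) ∧
      (∃ A : LinearMap.BilinForm F V, (∀ x : V, A x x = 0) ∧
        (∀ g : G, ∀ x ∈ U, ∀ y ∈ U, A (ρ g x) (ρ g y) = A x y) ∧
        (∀ x ∈ U, (∀ y ∈ U, A x y = 0) → x = 0)) ∧
      (∃ S : LinearMap.BilinForm F V, (∀ x y : V, S x y = S y x) ∧
        (∀ g : G, ∀ x ∈ W, ∀ y ∈ W, S (ρ g x) (ρ g y) = S x y) ∧
        (∀ x ∈ W, (∀ y ∈ W, S x y = 0) → x = 0)) ∧
      (∀ g : G, ∀ w ∈ W, ρ g w = w) := by
  classical
  obtain ⟨W, hW⟩ : ∃ W : Submodule F V, ∀ v, v ∈ W ↔ ∀ g, ρ g v = v :=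
    ⟨{ carrier := {v | ∀ g, ρ g v = v}
       add_mem' := by
         intro a b ha hb g
         rw [map_add, ha g, hb g]
       zero_mem' := by intro g; simp
       smul_mem' := by
         intro c a ha g
         rw [map_smul, ha g] }, fun v => Iff.rfl⟩
  have hWinv : ∀ g, ∀ w ∈ W, ρ g w ∈ W := by
    intro g w hw
    rw [(hW w).mp hw g]; exact hw
  obtain ⟨π, hπ1, hπ2, hπ3⟩ := maschke_proj hG ρ W hWinv
  obtain ⟨U, hU⟩ : ∃ U : Submodule F V, ∀ v, v ∈ U ↔ π v = 0 :=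
    ⟨LinearMap.ker π, fun v => Iff.rfl⟩
  have hUinv : ∀ g, ∀ u ∈ U, ρ g u ∈ U := by
    intro g u hu
    rw [hU] at hu ⊢
    rw [hπ3, hu, map_zero]
  have hc : IsCompl U W := by
    constructor
    · rw [Submodule.disjoint_def]
      intro x hxU hxW
      have h0 := hπ2 x hxW
      rw [(hU x).mp hxU] at h0
      exact h0.symm
    · rw [codisjoint_iff, eq_top_iff]
      intro v _
      refine Submodule.mem_sup.mpr ⟨v - π v, ?_, π v, hπ1 v, by abel⟩
      rw [hU, map_sub, hπ2 _ (hπ1 v), sub_self]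
  have hsum0 : ∀ u ∈ U, ∑ g : G, ρ g u = 0 := by
    intro u hu
    have h1 : ∑ g : G, ρ g u ∈ W := (hW _).mpr (fun h => sum_fixed ρ h u)
    have h3 := hπ2 _ h1
    rw [map_sum] at h3
    rw [← h3]
    apply Finset.sum_eq_zero
    intro g _
    rw [hπ3, (hU u).mp hu, map_zero]
  have horth1 : ∀ w ∈ W, ∀ u ∈ U, B w u = 0 := by
    intro w hw u hu
    have h1 : B w (∑ g : G, ρ g u) = (Fintype.card G : F) * B w u := by
      rw [map_sum]
      have hterm : ∀ g ∈ (Finset.univ : Finset G), B w (ρ g u) = B w u := by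
        intro g _
        have h0 := hBinv g w u
        rw [(hW w).mp hw g] at h0
        exact h0
      rw [Finset.sum_congr rfl hterm, Finset.sum_const, Finset.card_univ, nsmul_eq_mul]
    rw [hsum0 u hu, map_zero] at h1
    exact (mul_eq_zero.mp h1.symm).resolve_left hG
  have horth2 : ∀ w ∈ W, ∀ u ∈ U, B u w = 0 := by
    intro w hw u hu
    have h1 : B (∑ g : G, ρ g u) w = (Fintype.card G : F) * B u w := by
      rw [map_sum, LinearMap.sum_apply]
      have hterm : ∀ g ∈ (Finset.univ : Finset G), B (ρ g u) w = B u w := by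
        intro g _
        have h0 := hBinv g u w
        rw [(hW w).mp hw g] at h0
        exact h0
      rw [Finset.sum_congr rfl hterm, Finset.sum_const, Finset.card_univ, nsmul_eq_mul]
    rw [hsum0 u hu, map_zero, LinearMap.zero_apply] at h1
    exact (mul_eq_zero.mp h1.symm).resolve_left hG
  have hdecomp : ∀ v : V, ∃ u ∈ U, ∃ w ∈ W, u + w = v := by
    intro v
    have hv : v ∈ U ⊔ W := by rw [hc.sup_eq_top]; exact Submodule.mem_top
    exact Submodule.mem_sup.mp hv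
  have hUnd : (B.restrict U).Nondegenerate := by
    constructor
    · intro u hu
      apply Subtype.ext
      apply hB.1
      intro v
      obtain ⟨u', hu', w, hw, rfl⟩ := hdecomp v
      rw [map_add, horth2 w hw u u.2, add_zero]
      exact hu ⟨u', hu'⟩
    · intro u hu
      apply Subtype.ext
      apply hB.2
      intro v
      obtain ⟨u', hu', w, hw, rfl⟩ := hdecomp v
      rw [map_add, LinearMap.add_apply, horth1 w hw u u.2, add_zero]
      exact hu ⟨u', hu'⟩
  obtain ⟨AU, hAU1, hAU2, hAU3⟩ := even_rec h2 hG (Module.finrank F U) (↥U)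
    (restrictRep ρ U hUinv) (B.restrict U) hUnd (fun g x y => hBinv g x y)
    (fun v hv => by
      apply Subtype.ext
      have h1 : (v : V) ∈ W := (hW _).mpr (fun g => congrArg Subtype.val (hv g))
      have h3 := hπ2 _ h1
      rw [(hU _).mp v.2] at h3
      exact h3.symm) rfl
  obtain ⟨SW, hSW1, hSW2⟩ := exists_sym_nondeg (F := F) (↥W)
  obtain ⟨pU, hpU⟩ : ∃ pU : V →ₗ[F] U, pU = U.projectionOnto W hc := ⟨_, rfl⟩
  obtain ⟨pW, hpW⟩ : ∃ pW : V →ₗ[F] W, pW = W.projectionOnto U hc.symm := ⟨_, rfl⟩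
  have hUl : ∀ (x : V) (hx : x ∈ U), pU x = ⟨x, hx⟩ := fun x hx => by
    rw [hpU]; exact Submodule.projectionOnto_apply_of_mem_left hc hx
  have hWl : ∀ (y : V) (hy : y ∈ W), pW y = ⟨y, hy⟩ := fun y hy => by
    rw [hpW]; exact Submodule.projectionOnto_apply_of_mem_left hc.symm hy
  refine ⟨U, W, hc, hUinv, hWinv, ⟨AU.compl₁₂ pU pU, ?_, ?_, ?_⟩, ⟨SW.compl₁₂ pW pW, ?_, ?_, ?_⟩,
    fun g w hw => (hW w).mp hw g⟩
  · intro x
    exact hAU1 (pU x)
  · intro g x hx y hy
    show AU (pU (ρ g x)) (pU (ρ g y)) = AU (pU x) (pU y)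
    rw [hUl _ (hUinv g x hx), hUl _ (hUinv g y hy), hUl x hx, hUl y hy]
    exact hAU2 g ⟨x, hx⟩ ⟨y, hy⟩
  · intro x hx hxy
    have h1 : (⟨x, hx⟩ : U) = 0 := by
      apply hAU3
      intro y
      have h0 := hxy y.1 y.2
      have e : (AU.compl₁₂ pU pU) x y.1 = AU (pU x) (pU y.1) := rfl
      rw [e, hUl x hx, hUl y.1 y.2] at h0
      exact h0
    exact congrArg Subtype.val h1
  · intro x y
    exact hSW1 (pW x) (pW y)
  · intro g x hx y hy
    rw [(hW x).mp hx g, (hW y).mp hy g]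
  · intro x hx hxy
    have h1 : (⟨x, hx⟩ : W) = 0 := by
      apply hSW2
      intro y
      have h0 := hxy y.1 y.2
      have e : (SW.compl₁₂ pW pW) x y.1 = SW (pW x) (pW y.1) := rfl
      rw [e, hWl x hx, hWl y.1 y.2] at h0
      exact h0
    exact congrArg Subtype.val h1

end Cfsg.Agent.Lib.Helper22.SD
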