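import Mathlib
import Cfsg.Prelude.Def_KGroupFacts

set_option autoImplicit false

namespace Cfsg.Agent.Lib.Helper22

universe u

/-- The identity map is a stem extension. -/
theorem isStemExtension_id (G : Type u) [Group G] : Cfsg.IsStemExtension (MonoidHom.id G) := by
  refine ⟨Function.surjective_id, ?_, ?_⟩ <;>
  · intro x hx
    rw [MonoidHom.mem_ker, MonoidHom.id_apply] at hx
    subst hx
    exact Subgroup.one_mem _

/-- If every finite stem extension of the finite group `G` has trivial kernel, the multiplier is trivial. -/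
theorem hasCyclicSchurMultiplier_one_of (G : Type u) [Group G] [Finite G]
    (h : ∀ (Γ : Type u) [Group Γ] [Finite Γ] (σ : Γ →* G), Cfsg.IsStemExtension σ → σ.ker = ⊥) :
    Cfsg.HasCyclicSchurMultiplier G 1 := by
  refine ⟨⟨G, inferInstance, inferInstance, MonoidHom.id G, isStemExtension_id G, ?_⟩, ?_⟩
  · have hk : (MonoidHom.id G).ker = ⊥ := h G (MonoidHom.id G) (isStemExtension_id G)
    have h1 : ∀ a : (MonoidHom.id G).ker, a = 1 := by
      rintro ⟨a, ha⟩
      rw [hk, Subgroup.mem_bot] at ha
      subst ha
      rfl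
    have h2 : ∀ a : Multiplicative (ZMod 1), a = 1 := by
      intro a
      exact Subsingleton.elim (α := ZMod 1) _ _
    exact ⟨{ toFun := fun _ => 1, invFun := fun _ => 1,
             left_inv := fun a => (h1 a).symm, right_inv := fun a => (h2 a).symm,
             map_mul' := fun _ _ => (one_mul 1).symm }⟩
  · intro Γ _ _ σ hσ
    refine ⟨1, ?_⟩
    rintro ⟨a, ha⟩
    refine ⟨1, ?_⟩
    have hk := h Γ σ hσ
    rw [hk, Subgroup.mem_bot] at ha
    subst ha
    rfl

end Cfsg.Agent.Lib.Helper22
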