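import Mathlib
import Cfsg.Prelude.Def_KGroupFacts

set_option autoImplicit false

namespace Cfsg.Agent.Lib.Helper22

open scoped commutatorElement

/-- If a group is generated by `α`, `ξ` and a central subgroup, and `N` is a normal subgroup containing
the commutator of `ξ` and `α`, then `N` contains the commutator subgroup. -/
theorem commutator_le_of_two_gen {Γ : Type*} [Group Γ] (A : Subgroup Γ)
    (hA : A ≤ Subgroup.center Γ) (α ξ : Γ)
    (hgen : Subgroup.closure (({α, ξ} : Set Γ) ∪ (A : Set Γ)) = ⊤)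
    (N : Subgroup Γ) [N.Normal] (hc : ξ * α * ξ⁻¹ * α⁻¹ ∈ N) : commutator Γ ≤ N := by
  apply Subgroup.Normal.quotient_commutative_iff_commutator_le.mp
  let π := QuotientGroup.mk' N
  have hk : Subgroup.closure (π '' (({α, ξ} : Set Γ) ∪ (A : Set Γ))) = ⊤ := by
    rw [← MonoidHom.map_closure, hgen]
    exact Subgroup.map_top_of_surjective π (QuotientGroup.mk'_surjective _)
  have hξα : π ξ * π α = π α * π ξ := by
    rw [← commutatorElement_eq_one_iff_mul_comm, ← map_commutatorElement]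
    show π ⁅ξ, α⁆ = 1
    rw [QuotientGroup.mk'_apply, QuotientGroup.eq_one_iff, commutatorElement_def]
    exact hc
  have hcomm' : ∀ x ∈ π '' (({α, ξ} : Set Γ) ∪ (A : Set Γ)),
      ∀ y ∈ π '' (({α, ξ} : Set Γ) ∪ (A : Set Γ)), x * y = y * x := by
    rintro _ ⟨g, hg, rfl⟩ _ ⟨h, hh, rfl⟩
    rcases hg with hg | hg
    · rcases hh with hh | hh
      · rcases hg with rfl | hg
        · rcases hh with rfl | hh
          · rfl
          · rw [Set.mem_singleton_iff] at hh; subst hh; exact hξα.symm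
        · rw [Set.mem_singleton_iff] at hg; subst hg
          rcases hh with rfl | hh
          · exact hξα
          · rw [Set.mem_singleton_iff] at hh; subst hh; rfl
      · rw [← map_mul, ← map_mul, Subgroup.mem_center_iff.mp (hA hh) g]
    · rw [← map_mul, ← map_mul, ← Subgroup.mem_center_iff.mp (hA hg) h]
  have hcl := Subgroup.isMulCommutative_closure hcomm'
  refine ⟨⟨fun x y => ?_⟩⟩
  have hx : x ∈ Subgroup.closure (π '' (({α, ξ} : Set Γ) ∪ (A : Set Γ))) := by rw [hk]; trivial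
  have hy : y ∈ Subgroup.closure (π '' (({α, ξ} : Set Γ) ∪ (A : Set Γ))) := by rw [hk]; trivial
  have := mul_comm' (⟨x, hx⟩ : Subgroup.closure (π '' (({α, ξ} : Set Γ) ∪ (A : Set Γ)))) ⟨y, hy⟩
  exact congrArg Subtype.val this

/-- The cyclic subgroup generated by a central element is normal. -/
theorem zpowers_normal_of_mem_center {Γ : Type*} [Group Γ] (c : Γ) (hc : c ∈ Subgroup.center Γ) :
    (Subgroup.zpowers c).Normal := by
  refine ⟨fun x hx g => ?_⟩
  have hxc : x ∈ Subgroup.center Γ := by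
    obtain ⟨k, rfl⟩ := Subgroup.mem_zpowers_iff.mp hx
    exact Subgroup.zpow_mem _ hc k
  have : g * x * g⁻¹ = x := by
    rw [Subgroup.mem_center_iff.mp hxc g]; group
  rw [this]; exact hx

/-- A central kernel inside the commutator subgroup lies in the cyclic group generated by the
commutator of two elements that generate the group modulo it. -/
theorem le_zpowers_of_two_gen {Γ : Type*} [Group Γ] (A : Subgroup Γ)
    (hA : A ≤ Subgroup.center Γ) (hAc : A ≤ commutator Γ) (α ξ : Γ)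
    (hgen : Subgroup.closure (({α, ξ} : Set Γ) ∪ (A : Set Γ)) = ⊤)
    (hc : ξ * α * ξ⁻¹ * α⁻¹ ∈ A) : A ≤ Subgroup.zpowers (ξ * α * ξ⁻¹ * α⁻¹) := by
  have hn : (Subgroup.zpowers (ξ * α * ξ⁻¹ * α⁻¹)).Normal :=
    zpowers_normal_of_mem_center _ (hA hc)
  exact hAc.trans (commutator_le_of_two_gen A hA α ξ hgen _ (Subgroup.mem_zpowers _))

/-- If the commutator of `ξ` and `α` is central and `α ^ n` commutes with `ξ`, its `n`-th power is trivial. -/
theorem commutator_pow_eq_one {Γ : Type*} [Group Γ] (α ξ : Γ)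
    (hc : ξ * α * ξ⁻¹ * α⁻¹ ∈ Subgroup.center Γ) (n : ℕ) (hn : Commute (α ^ n) ξ) :
    (ξ * α * ξ⁻¹ * α⁻¹) ^ n = 1 := by
  have h1 : ξ * α * ξ⁻¹ = (ξ * α * ξ⁻¹ * α⁻¹) * α := by group
  have hcomm : Commute (ξ * α * ξ⁻¹ * α⁻¹) α := (Subgroup.mem_center_iff.mp hc α).symm
  have h2 : (ξ * α * ξ⁻¹) ^ n = α ^ n := by
    rw [conj_pow]
    calc ξ * α ^ n * ξ⁻¹ = (α ^ n * ξ) * ξ⁻¹ := by rw [hn.eq]
      _ = α ^ n := by group
  rw [h1, hcomm.mul_pow] at h2
  exact mul_eq_right.mp h2

end Cfsg.Agent.Lib.Helper22
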