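import Mathlib
import Cfsg.Prelude.Def_KGroupFacts
import Cfsg.Agent.Lib.Helper22.StemOfCentral

set_option autoImplicit false

namespace Cfsg.Agent.Lib.Helper22

open scoped commutatorElement

universe u v w

/-- Stem-ification with a compatible homomorphism: in the situation of `exists_stem_of_central_aux`, if
`ρ : E → X` is a homomorphism whose values on `ker π` are already attained on `ker π ∩ E'`, then `ρ` descends
to the stem extension. -/
theorem exists_stem_of_central_hom {E : Type w} {G : Type u} {X : Type v} [Group E] [Finite E] [Group G]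
    [Group X] (π : E →* G) (hπ : Function.Surjective π) (hc : π.ker ≤ Subgroup.center E)
    (ρ : E →* X) (hρ : ∀ c ∈ π.ker, ∃ r ∈ π.ker ⊓ commutator E, ρ r = ρ c) :
    ∃ (Γ : Type w) (_ : Group Γ) (_ : Finite Γ) (σ : Γ →* G) (β : Γ →* X), Cfsg.IsStemExtension σ ∧
      Nonempty (σ.ker ≃* ↥(π.ker ⊓ commutator E)) ∧ (∀ y : Γ, ∃ x : E, σ y = π x ∧ β y = ρ x) ∧
      (∀ w ∈ commutator E, ∃ y : Γ, β y = ρ w) := by
  classical
  haveI : Finite G := Finite.of_surjective π hπ
  obtain ⟨ι, _, n, b, hn, hgen, hrel, hbn⟩ := exists_zbasis (Abelianization G)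
  let Z := Multiplicative (ι → ℤ)
  let ofE : E →* Abelianization E := Abelianization.of
  let ofG : G →* Abelianization G := Abelianization.of
  let ψ' : Abelianization E →* Abelianization G := Abelianization.map π
  have hψ' : ∀ x : E, ψ' (ofE x) = ofG (π x) := fun x => Abelianization.map_of π x
  have hofE_ker : ∀ x : E, ofE x = 1 ↔ x ∈ commutator E := by
    intro x
    rw [← MonoidHom.mem_ker, Abelianization.ker_of]
  have hofG_ker : ∀ g : G, ofG g = 1 ↔ g ∈ commutator G := by
    intro g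
    rw [← MonoidHom.mem_ker, Abelianization.ker_of]
  have hcomm_map : ∀ g : G, g ∈ commutator G → ∃ w ∈ commutator E, π w = g := by
    intro g hg
    have h1 : (commutator E).map π = commutator G := by
      rw [commutator_def, Subgroup.map_commutator, Subgroup.map_top_of_surjective π hπ, ← commutator_def]
    rw [← h1] at hg
    exact hg
  have hofGs : Function.Surjective ofG := QuotientGroup.mk_surjective
  have hofEs : Function.Surjective ofE := QuotientGroup.mk_surjective
  have hex : ∀ i, ∃ x : E, ofG (π x) = b i := by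
    intro i
    obtain ⟨g, hg⟩ := hofGs (b i)
    obtain ⟨x, rfl⟩ := hπ g
    exact ⟨x, hg⟩
  choose e heb using hex
  let μ : Z →* Abelianization E := zpowProdHom (fun i => ofE (e i))
  have hψμ : ψ'.comp μ = zpowProdHom b := by
    rw [comp_zpowProdHom]
    congr 1
    funext i
    rw [hψ', heb]
  have hcw : ∀ i, ∃ c ∈ π.ker, ofE c = ofE (e i) ^ n i ∧ ρ c = 1 := by
    intro i
    have h1 : ofG (π (e i ^ n i)) = 1 := by rw [map_pow, map_pow, heb, hbn]
    obtain ⟨w, hw, hwe⟩ := hcomm_map _ ((hofG_ker _).mp h1)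
    have hc0 : e i ^ n i * w⁻¹ ∈ π.ker := by
      rw [MonoidHom.mem_ker, map_mul, map_inv, hwe, mul_inv_cancel]
    obtain ⟨r, hr, hrρ⟩ := hρ _ hc0
    refine ⟨e i ^ n i * w⁻¹ * r⁻¹, ?_, ?_, ?_⟩
    · exact Subgroup.mul_mem _ hc0 (Subgroup.inv_mem _ hr.1)
    · rw [map_mul, map_mul, map_inv, map_inv, (hofE_ker w).mpr hw, (hofE_ker r).mpr hr.2, inv_one,
        mul_one, mul_one, map_pow]
    · rw [map_mul, map_inv, hrρ, mul_inv_cancel]
  choose c hcker hcof' using hcw
  have hcof : ∀ i, ofE (c i) = ofE (e i) ^ n i := fun i => (hcof' i).1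
  have hcρ : ∀ i, ρ (c i) = 1 := fun i => (hcof' i).2
  letI icomm : CommGroup (Subgroup.center E) :=
    { (Subgroup.center E).toGroup with
      mul_comm := fun a b => Subtype.ext (Subgroup.mem_center_iff.mp b.2 a.1) }
  let γ : Z →* Subgroup.center E :=
    zpowProdHom (A := ↥(Subgroup.center E)) (fun i => (⟨c i, hc (hcker i)⟩ : Subgroup.center E))
  have hγker : ∀ j : Z, (γ j : E) ∈ π.ker := by
    intro j
    have h1 : γ j ∈ (π.ker).subgroupOf (Subgroup.center E) := by
      rw [zpowProdHom_apply]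
      apply Subgroup.prod_mem
      intro i _
      apply Subgroup.zpow_mem
      exact Subgroup.mem_subgroupOf.mpr (hcker i)
    exact Subgroup.mem_subgroupOf.mp h1
  have hγρ : ∀ j : Z, ρ (γ j : E) = 1 := by
    intro j
    have h1 : γ j ∈ (ρ.ker).subgroupOf (Subgroup.center E) := by
      rw [zpowProdHom_apply]
      apply Subgroup.prod_mem
      intro i _
      apply Subgroup.zpow_mem
      exact Subgroup.mem_subgroupOf.mpr (MonoidHom.mem_ker.mpr (hcρ i))
    exact MonoidHom.mem_ker.mp (Subgroup.mem_subgroupOf.mp h1)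
  have hγof : ∀ j : Z, ofE (γ j : E) = μ (zscale n j) := by
    intro j
    have h1 : (ofE.comp (Subgroup.center E).subtype).comp γ = μ.comp (zscale n) := by
      rw [comp_zpowProdHom, zpowProdHom_comp_zscale]
      congr 1
      funext i
      exact hcof i
    exact DFunLike.congr_fun h1 j
  let ν : Z →* E × Z := (((Subgroup.center E).subtype).comp γ).prod (zscale n)
  let S : Subgroup (E × Z) := (ofE.comp (MonoidHom.fst E Z)).eqLocus (μ.comp (MonoidHom.snd E Z))
  have hS : ∀ y : E × Z, y ∈ S ↔ ofE y.1 = μ y.2 := fun y => Iff.rfl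
  let N : Subgroup (E × Z) := ν.range
  have hNS : N ≤ S := by
    rintro _ ⟨j, rfl⟩
    exact (hS _).mpr (hγof j)
  have hNc : ∀ y ∈ N, ∀ z : E × Z, z * y = y * z := by
    rintro _ ⟨j, rfl⟩ z
    apply Prod.ext
    · exact Subgroup.mem_center_iff.mp (γ j).2 z.1
    · exact mul_comm _ _
  haveI hNn : (N.subgroupOf S).Normal := by
    constructor
    intro y hy z
    rw [Subgroup.mem_subgroupOf] at hy ⊢
    have h1 : ((z * y * z⁻¹ : S) : E × Z) = (y : E × Z) := by
      show (z : E × Z) * y * (z : E × Z)⁻¹ = y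
      rw [hNc _ hy, mul_inv_cancel_right]
    rw [h1]; exact hy
  let Γ := S ⧸ N.subgroupOf S
  let σ₀ : S →* G := π.comp ((MonoidHom.fst E Z).comp S.subtype)
  have hσ₀ : ∀ s : S, σ₀ s = π s.1.1 := fun s => rfl
  have hNσ : N.subgroupOf S ≤ σ₀.ker := by
    intro s hs
    rw [Subgroup.mem_subgroupOf] at hs
    obtain ⟨j, hj⟩ := hs
    rw [MonoidHom.mem_ker, hσ₀, ← hj]
    exact hγker j
  let σ : Γ →* G := QuotientGroup.lift _ σ₀ hNσ
  have hσmk : ∀ s : S, σ (QuotientGroup.mk s) = π s.1.1 := fun s => rfl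
  let β₀ : S →* X := ρ.comp ((MonoidHom.fst E Z).comp S.subtype)
  have hNβ : N.subgroupOf S ≤ β₀.ker := by
    intro s hs
    rw [Subgroup.mem_subgroupOf] at hs
    obtain ⟨j, hj⟩ := hs
    rw [MonoidHom.mem_ker]
    show ρ s.1.1 = 1
    rw [← hj]
    exact hγρ j
  let β : Γ →* X := QuotientGroup.lift _ β₀ hNβ
  have hβmk : ∀ s : S, β (QuotientGroup.mk s) = ρ s.1.1 := fun s => rfl
  have hlift : ∀ x : E, ∃ s : S, π s.1.1 = π x := by
    intro x
    obtain ⟨k, hk⟩ := hgen (ofG (π x))
    obtain ⟨y₀, hy₀⟩ : ∃ y₀ : E, ofE y₀ = μ (Multiplicative.ofAdd k) := hofEs _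
    have h1 : ofG (π y₀) = ofG (π x) := by
      rw [← hψ', hy₀, ← MonoidHom.comp_apply, hψμ, zpowProdHom_apply, hk]
      rfl
    have h2 : ofG (π (x * y₀⁻¹)) = 1 := by rw [map_mul, map_mul, map_inv, map_inv, h1, mul_inv_cancel]
    obtain ⟨w, hw, hwe⟩ := hcomm_map _ ((hofG_ker _).mp h2)
    refine ⟨⟨(w * y₀, Multiplicative.ofAdd k), ?_⟩, ?_⟩
    · rw [hS]
      show ofE (w * y₀) = μ (Multiplicative.ofAdd k)
      rw [map_mul, (hofE_ker w).mpr hw, one_mul, hy₀]
    · show π (w * y₀) = π x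
      rw [map_mul, hwe, map_mul, map_inv, inv_mul_cancel_right]
  have hσs : Function.Surjective σ := by
    intro g
    obtain ⟨x, rfl⟩ := hπ g
    obtain ⟨s, hs⟩ := hlift x
    exact ⟨QuotientGroup.mk s, by rw [hσmk, hs]⟩
  let D : Subgroup E := π.ker ⊓ commutator E
  have hDS : ∀ d : D, (MonoidHom.inl E Z).comp D.subtype d ∈ S := by
    intro d
    rw [hS]
    show ofE (d : E) = μ 1
    rw [map_one, (hofE_ker _).mpr d.2.2]
  let ιD : D →* S := ((MonoidHom.inl E Z).comp D.subtype).codRestrict S hDS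
  have hιD : ∀ d : D, (ιD d : E × Z) = ((d : E), (1 : Z)) := fun d => rfl
  let δ : D →* Γ := (QuotientGroup.mk' (N.subgroupOf S)).comp ιD
  have hδ : ∀ d : D, δ d = QuotientGroup.mk (ιD d) := fun d => rfl
  have hδinj : Function.Injective δ := by
    rw [injective_iff_map_eq_one]
    intro d hd
    rw [hδ, QuotientGroup.eq_one_iff, Subgroup.mem_subgroupOf, hιD] at hd
    obtain ⟨j, hj⟩ := hd
    have h1 : zscale n j = 1 := congrArg Prod.snd hj
    have h2 : j = 1 := by
      apply congrArg Multiplicative.ofAdd (a₁ := Multiplicative.toAdd j) (a₂ := 0)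
      funext i
      have h3 : Multiplicative.toAdd (zscale n j) i = 0 := by rw [h1]; rfl
      rw [zscale_apply] at h3
      have h4 : (n i : ℤ) ≠ 0 := by have := hn i; positivity
      exact (mul_eq_zero.mp h3).resolve_left h4
    have h5 : (γ j : E) = (d : E) := congrArg Prod.fst hj
    rw [h2, map_one] at h5
    exact Subtype.ext h5.symm
  have hδker : ∀ y : Γ, σ y = 1 → ∃ d : D, δ d = y := by
    intro y hy
    obtain ⟨s, rfl⟩ := QuotientGroup.mk_surjective y
    rw [hσmk] at hy
    have hsS := (hS s.1).mp s.2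
    have h1 : ∏ i, b i ^ (Multiplicative.toAdd s.1.2 i) = 1 := by
      rw [← zpowProdHom_apply, ← hψμ, MonoidHom.comp_apply, ← hsS, hψ', hy, map_one]
    have h2 := hrel _ h1
    choose j hj using h2
    have h3 : zscale n (Multiplicative.ofAdd j) = s.1.2 := by
      apply congrArg Multiplicative.ofAdd (a₂ := Multiplicative.toAdd s.1.2)
      funext i
      exact (hj i).symm
    let d₀ : E := s.1.1 * (γ (Multiplicative.ofAdd j) : E)⁻¹
    have hd₀ : d₀ ∈ D := by
      refine ⟨?_, ?_⟩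
      · exact Subgroup.mul_mem _ hy (Subgroup.inv_mem _ (hγker _))
      · apply (hofE_ker _).mp
        show ofE (s.1.1 * (γ (Multiplicative.ofAdd j) : E)⁻¹) = 1
        rw [map_mul, map_inv, hγof, h3, hsS, mul_inv_cancel]
    refine ⟨⟨d₀, hd₀⟩, ?_⟩
    rw [hδ]
    apply (QuotientGroup.eq).mpr
    rw [Subgroup.mem_subgroupOf]
    refine ⟨Multiplicative.ofAdd j, ?_⟩
    show ((γ (Multiplicative.ofAdd j) : E), zscale n (Multiplicative.ofAdd j)) =
      ((ιD ⟨d₀, hd₀⟩)⁻¹ * s : S).1
    apply Prod.ext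
    · show (γ (Multiplicative.ofAdd j) : E) = (s.1.1 * (γ (Multiplicative.ofAdd j) : E)⁻¹)⁻¹ * s.1.1
      group
    · show zscale n (Multiplicative.ofAdd j) = (1 : Z)⁻¹ * s.1.2
      rw [h3, inv_one, one_mul]
  have hδσ : ∀ d : D, σ (δ d) = 1 := by
    intro d
    rw [hδ, hσmk, hιD]
    exact d.2.1
  let δ' : D →* σ.ker := δ.codRestrict σ.ker (fun d => MonoidHom.mem_ker.mpr (hδσ d))
  have hδ'bij : Function.Bijective δ' := by
    constructor
    · intro d d' h
      exact hδinj (congrArg Subtype.val h)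
    · rintro ⟨y, hy⟩
      obtain ⟨d, hd⟩ := hδker y (MonoidHom.mem_ker.mp hy)
      exact ⟨d, Subtype.ext hd⟩
  let eqv : D ≃* σ.ker := MulEquiv.ofBijective δ' hδ'bij
  haveI : Finite σ.ker := Finite.of_equiv D eqv.toEquiv
  haveI : Finite Γ := finite_of_finite_ker σ
  have hcen : σ.ker ≤ Subgroup.center Γ := by
    intro y hy
    obtain ⟨d, rfl⟩ := hδker y (MonoidHom.mem_ker.mp hy)
    rw [Subgroup.mem_center_iff]
    intro z
    obtain ⟨s, rfl⟩ := QuotientGroup.mk_surjective z
    rw [hδ]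
    show (QuotientGroup.mk (s * ιD d) : Γ) = QuotientGroup.mk (ιD d * s)
    congr 1
    apply Subtype.ext
    apply Prod.ext
    · show s.1.1 * (d : E) = (d : E) * s.1.1
      exact Subgroup.mem_center_iff.mp (hc d.2.1) s.1.1
    · show s.1.2 * 1 = 1 * s.1.2
      rw [mul_one, one_mul]
  have hcomS : ∀ w ∈ commutator E, ∃ s : S, s ∈ commutator S ∧ (s : E × Z) = (w, 1) := by
    intro w hw
    rw [commutator_eq_closure] at hw
    induction hw using Subgroup.closure_induction with
    | mem w hw =>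
      obtain ⟨x, y, rfl⟩ := hw
      obtain ⟨sx, hsx⟩ := hlift x
      obtain ⟨sy, hsy⟩ := hlift y
      refine ⟨⁅sx, sy⁆, ?_, ?_⟩
      · rw [commutator_def]
        exact Subgroup.commutator_mem_commutator (Subgroup.mem_top _) (Subgroup.mem_top _)
      · apply Prod.ext
        · show ⁅sx.1.1, sy.1.1⁆ = ⁅x, y⁆
          apply commutator_eq_of_central
          · apply hc
            rw [MonoidHom.mem_ker, map_mul, map_inv, hsx, mul_inv_cancel]
          · apply hc
            rw [MonoidHom.mem_ker, map_mul, map_inv, hsy, mul_inv_cancel]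
        · show ⁅sx.1.2, sy.1.2⁆ = 1
          rw [commutatorElement_def, mul_comm sx.1.2 sy.1.2, mul_inv_cancel_right, mul_inv_cancel]
    | one => exact ⟨1, Subgroup.one_mem _, rfl⟩
    | mul a b _ _ iha ihb =>
      obtain ⟨sa, hsa, hsa'⟩ := iha
      obtain ⟨sb, hsb, hsb'⟩ := ihb
      refine ⟨sa * sb, Subgroup.mul_mem _ hsa hsb, ?_⟩
      show (sa : E × Z) * (sb : E × Z) = (a * b, 1)
      rw [hsa', hsb']
      apply Prod.ext
      · rfl
      · exact mul_one _
    | inv a _ iha =>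
      obtain ⟨sa, hsa, hsa'⟩ := iha
      refine ⟨sa⁻¹, Subgroup.inv_mem _ hsa, ?_⟩
      show (sa : E × Z)⁻¹ = (a⁻¹, 1)
      rw [hsa']
      apply Prod.ext
      · rfl
      · exact inv_one
  have hstem : σ.ker ≤ commutator Γ := by
    intro y hy
    obtain ⟨d, rfl⟩ := hδker y (MonoidHom.mem_ker.mp hy)
    obtain ⟨s, hs, hs'⟩ := hcomS (d : E) d.2.2
    have h1 : ιD d = s := Subtype.ext (by rw [hιD, hs'])
    rw [hδ, h1]
    have h2 : (commutator S).map (QuotientGroup.mk' (N.subgroupOf S)) ≤ commutator Γ := by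
      rw [commutator_def, Subgroup.map_commutator, commutator_def]
      exact Subgroup.commutator_mono le_top le_top
    exact h2 (Subgroup.mem_map_of_mem _ hs)
  refine ⟨Γ, inferInstance, inferInstance, σ, β, ⟨hσs, hcen, hstem⟩, ⟨eqv.symm⟩, ?_, ?_⟩
  · intro y
    obtain ⟨s, rfl⟩ := QuotientGroup.mk_surjective y
    exact ⟨s.1.1, hσmk s, hβmk s⟩
  · intro w hw
    obtain ⟨s, _, hs'⟩ := hcomS w hw
    refine ⟨QuotientGroup.mk s, ?_⟩
    rw [hβmk, hs']

end Cfsg.Agent.Lib.Helper22
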