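import Mathlib
import Cfsg.Prelude.Def_KGroupFacts
import Cfsg.Agent.Lib.Helper22.StemOfCentral

set_option autoImplicit false

namespace Cfsg.Agent.Lib.Helper22

open scoped commutatorElement

universe u v w

/-- If `⁅x, y⁆` is central then `⁅x ^ n, y⁆ = ⁅x, y⁆ ^ n`. -/
theorem commutator_pow_left_of_central {G : Type*} [Group G] (x y : G)
    (hz : ⁅x, y⁆ ∈ Subgroup.center G) (n : ℕ) : ⁅x ^ n, y⁆ = ⁅x, y⁆ ^ n := by
  induction n with
  | zero => rw [pow_zero, pow_zero, commutatorElement_one_left]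
  | succ n ih =>
    have h1 : ⁅x ^ n * x, y⁆ = x ^ n * ⁅x, y⁆ * (x ^ n)⁻¹ * ⁅x ^ n, y⁆ := by
      simp only [commutatorElement_def]
      group
    have h2 : x ^ n * ⁅x, y⁆ = ⁅x, y⁆ * x ^ n := Subgroup.mem_center_iff.mp hz (x ^ n)
    rw [pow_succ, h1, h2, mul_inv_cancel_right, ih, pow_succ']

/-- If `⁅y, a⁆` and `⁅y, b⁆` are central then `y` commutes with `⁅a, b⁆`. -/
theorem commute_commutator_of_central {G : Type*} [Group G] (y a b : G)
    (ha : ⁅y, a⁆ ∈ Subgroup.center G) (hb : ⁅y, b⁆ ∈ Subgroup.center G) :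
    y * ⁅a, b⁆ = ⁅a, b⁆ * y := by
  have h1 : y * ⁅a, b⁆ * y⁻¹ = ⁅y * a * y⁻¹, y * b * y⁻¹⁆ := by
    simp only [commutatorElement_def]
    group
  have h2 : ⁅y * a * y⁻¹, y * b * y⁻¹⁆ = ⁅a, b⁆ := by
    apply commutator_eq_of_central
    · have : y * a * y⁻¹ * a⁻¹ = ⁅y, a⁆ := rfl
      rw [this]; exact ha
    · have : y * b * y⁻¹ * b⁻¹ = ⁅y, b⁆ := rfl
      rw [this]; exact hb
  rw [h2] at h1
  exact mul_inv_eq_iff_eq_mul.mp h1

/-- In a central extension of a direct product, the commutator of elements lying over the two factors is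
killed by the order of the commutator quotient of the first factor. -/
theorem comm_pow_card_eq_one {Γ : Type*} {Q₁ : Type*} {Q₂ : Type*} [Group Γ] [Group Q₁] [Group Q₂]
    [Finite Q₁] (σ : Γ →* Q₁ × Q₂) (hσs : Function.Surjective σ) (hσc : σ.ker ≤ Subgroup.center Γ)
    (x y : Γ) (hx : (σ x).2 = 1) (hy : (σ y).1 = 1) :
    ⁅x, y⁆ ^ Nat.card (Abelianization Q₁) = 1 := by
  classical
  let H₁ : Subgroup Γ := ((MonoidHom.snd Q₁ Q₂).comp σ).ker
  have hH₁ : ∀ a : Γ, a ∈ H₁ ↔ (σ a).2 = 1 := fun a => Iff.rfl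
  have hcen : ∀ a : Γ, a ∈ H₁ → ⁅a, y⁆ ∈ Subgroup.center Γ := by
    intro a ha
    apply hσc
    rw [MonoidHom.mem_ker, map_commutatorElement]
    apply Prod.ext
    · show ⁅(σ a).1, (σ y).1⁆ = 1
      rw [hy, commutatorElement_one_right]
    · show ⁅(σ a).2, (σ y).2⁆ = 1
      rw [(hH₁ a).mp ha, commutatorElement_one_left]
  have hcen' : ∀ a : Γ, a ∈ H₁ → ⁅y, a⁆ ∈ Subgroup.center Γ := by
    intro a ha
    rw [← commutatorElement_inv]
    exact Subgroup.inv_mem _ (hcen a ha)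
  -- `y` centralizes the commutator subgroup of `H₁`
  have hcomm : ⁅H₁, H₁⁆ ≤ Subgroup.centralizer {y} := by
    rw [Subgroup.commutator_le]
    intro a ha b hb
    rw [Subgroup.mem_centralizer_iff]
    intro z hz
    rw [Set.mem_singleton_iff] at hz
    subst hz
    exact commute_commutator_of_central z a b (hcen' a ha) (hcen' b hb)
  -- lifting commutators of `Q₁`
  have hlift : ∀ q ∈ commutator Q₁, ∃ u ∈ ⁅H₁, H₁⁆, σ u = (q, 1) := by
    intro q hq
    rw [commutator_eq_closure] at hq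
    induction hq using Subgroup.closure_induction with
    | mem q hq =>
      obtain ⟨q₁, q₂, rfl⟩ := hq
      obtain ⟨a, ha⟩ := hσs (q₁, 1)
      obtain ⟨b, hb⟩ := hσs (q₂, 1)
      refine ⟨⁅a, b⁆, Subgroup.commutator_mem_commutator ?_ ?_, ?_⟩
      · rw [hH₁, ha]
      · rw [hH₁, hb]
      · rw [map_commutatorElement, ha, hb]
        apply Prod.ext
        · rfl
        · show ⁅(1 : Q₂), 1⁆ = 1
          rw [commutatorElement_one_left]
    | one => exact ⟨1, Subgroup.one_mem _, map_one _⟩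
    | mul q q' _ _ ih ih' =>
      obtain ⟨u, hu, hu'⟩ := ih
      obtain ⟨u', hu2, hu2'⟩ := ih'
      refine ⟨u * u', Subgroup.mul_mem _ hu hu2, ?_⟩
      rw [map_mul, hu', hu2']
      apply Prod.ext
      · rfl
      · exact mul_one _
    | inv q _ ih =>
      obtain ⟨u, hu, hu'⟩ := ih
      refine ⟨u⁻¹, Subgroup.inv_mem _ hu, ?_⟩
      rw [map_inv, hu']
      apply Prod.ext
      · rfl
      · exact inv_one
  set m := Nat.card (Abelianization Q₁) with hm
  rw [← commutator_pow_left_of_central x y (hcen x ((hH₁ x).mpr hx)) m]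
  -- `x ^ m` lies over the commutator subgroup of `Q₁`
  have h1 : (σ x).1 ^ m ∈ commutator Q₁ := by
    rw [← Abelianization.ker_of, MonoidHom.mem_ker, map_pow, hm]
    exact pow_card_eq_one'
  obtain ⟨u, hu, hu'⟩ := hlift _ h1
  have h2 : x ^ m * u⁻¹ ∈ Subgroup.center Γ := by
    apply hσc
    rw [MonoidHom.mem_ker, map_mul, map_inv, hu', map_pow]
    apply Prod.ext
    · show (σ x).1 ^ m * ((σ x).1 ^ m)⁻¹ = 1
      exact mul_inv_cancel _
    · show (σ x).2 ^ m * (1 : Q₂)⁻¹ = 1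
      rw [hx, one_pow, inv_one, mul_one]
  have h3 : x ^ m = (x ^ m * u⁻¹) * u := by group
  rw [h3, commutator_central_mul_left _ _ _ h2]
  have h4 := hcomm hu
  rw [Subgroup.mem_centralizer_iff] at h4
  have h5 := h4 y (Set.mem_singleton y)
  rw [commutatorElement_def, ← h5, mul_inv_cancel_right, mul_inv_cancel]

end Cfsg.Agent.Lib.Helper22
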