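import Mathlib
import Cfsg.Prelude.Def_KGroupFacts

set_option autoImplicit false

namespace Cfsg.Agent.Lib.Helper22

open scoped commutatorElement

/-- Transfer into a subgroup of finite index: the `[G : H]`-th power of a central element of the commutator
subgroup lies in the commutator subgroup of `H`. -/
theorem pow_index_mem_commutator_of_central {Γ : Type*} [Group Γ] (H : Subgroup Γ) [H.FiniteIndex]
    (n : ℕ) (hn : H.index = n) (k : Γ) (hk : k ∈ Subgroup.center Γ) (hk' : k ∈ commutator Γ) :
    ∃ h : k ^ n ∈ H, (⟨k ^ n, h⟩ : H) ∈ commutator H := by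
  subst hn
  have key : ∀ (j : ℕ) (g₀ : Γ), g₀⁻¹ * k ^ j * g₀ ∈ H → g₀⁻¹ * k ^ j * g₀ = k ^ j := by
    intro j g₀ _
    have h1 : k ^ j ∈ Subgroup.center Γ := Subgroup.pow_mem _ hk j
    rw [mul_assoc, ← Subgroup.mem_center_iff.mp h1 g₀, inv_mul_cancel_left]
  have h1 := MonoidHom.transfer_eq_pow (Abelianization.of : H →* Abelianization H) k key
  have h2 : MonoidHom.transfer (Abelianization.of : H →* Abelianization H) k = 1 :=
    Abelianization.commutator_subset_ker
      (MonoidHom.transfer (Abelianization.of : H →* Abelianization H)) hk'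
  refine ⟨MonoidHom.transfer_eq_pow_aux k key, ?_⟩
  rw [← Abelianization.ker_of, MonoidHom.mem_ker, ← h1, h2]

/-- A homomorphic image of a finite abelian group embeds into it (duality). -/
theorem exists_injective_of_surjective_comm {B D : Type*} [CommGroup B] [CommGroup D] [Finite B]
    (f : B →* D) (hf : Function.Surjective f) : ∃ g : D →* B, Function.Injective g := by
  haveI : Finite D := Finite.of_surjective f hf
  obtain ⟨eB⟩ := CommGroup.monoidHom_mulEquiv_of_hasEnoughRootsOfUnity B Circle
  obtain ⟨eD⟩ := CommGroup.monoidHom_mulEquiv_of_hasEnoughRootsOfUnity D Circle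
  let fs : (D →* Circleˣ) →* (B →* Circleˣ) := MonoidHom.compHom' f
  have hfs : Function.Injective fs := by
    intro φ ψ h
    refine MonoidHom.ext fun d => ?_
    obtain ⟨b, rfl⟩ := hf d
    exact DFunLike.congr_fun h b
  exact ⟨(eB.toMonoidHom.comp fs).comp eD.symm.toMonoidHom,
    (eB.injective.comp hfs).comp eD.symm.injective⟩

end Cfsg.Agent.Lib.Helper22
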