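import Mathlib
import Cfsg.Prelude.Def_KGroupFacts

set_option autoImplicit false

namespace Cfsg.Agent.Lib.Helper22

open scoped commutatorElement TensorProduct

universe u v w

/-- The tensor product over the integers of two finite abelian groups is finite. -/
theorem finite_tensor_of_finite (U V : Type*) [AddCommGroup U] [AddCommGroup V] [Finite U] [Finite V] :
    Finite (U ⊗[ℤ] V) := by
  have hfg : AddGroup.FG (U ⊗[ℤ] V) := by
    rw [AddGroup.fg_iff]
    refine ⟨Set.range (fun p : U × V => p.1 ⊗ₜ[ℤ] p.2), ?_, Set.finite_range _⟩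
    rw [eq_top_iff]
    have hall : ∀ x : U ⊗[ℤ] V,
        x ∈ AddSubgroup.closure (Set.range (fun p : U × V => p.1 ⊗ₜ[ℤ] p.2)) := by
      intro x
      induction x using TensorProduct.induction_on with
      | zero => exact zero_mem _
      | tmul a b => exact AddSubgroup.subset_closure ⟨(a, b), rfl⟩
      | add x y hx hy => exact add_mem hx hy
    exact fun x _ => hall x
  have htor : IsAddTorsion (U ⊗[ℤ] V) := by
    intro x
    rw [isOfFinAddOrder_iff_nsmul_eq_zero]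
    refine ⟨Nat.card U, Nat.card_pos, ?_⟩
    induction x using TensorProduct.induction_on with
    | zero => exact smul_zero _
    | tmul a b =>
      have h1 : Nat.card U • (a ⊗ₜ[ℤ] b) = (Nat.card U • a) ⊗ₜ[ℤ] b := by
        exact (map_nsmul ((TensorProduct.mk ℤ U V).flip b) _ a).symm
      rw [h1, card_nsmul_eq_zero', TensorProduct.zero_tmul]
    | add x y hx hy => rw [smul_add, hx, hy, add_zero]
  exact AddCommGroup.finite_of_fg_isAddTorsion _ htor

theorem map_mem_commutator_of_mem {G H : Type*} [Group G] [Group H] (f : G →* H) {x : G}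
    (hx : x ∈ commutator G) : f x ∈ commutator H := by
  have h2 : (commutator G).map f ≤ commutator H := by
    rw [commutator_def, Subgroup.map_commutator, commutator_def]
    exact Subgroup.commutator_mono le_top le_top
  exact h2 (Subgroup.mem_map_of_mem _ hx)

/-- The twisted product of two groups with the tensor product of two abelian quotients: a central
extension of `Γ₁ × Γ₂` by `G₁ ⊗ G₂` in which the commutator of elements of the two factors is the
tensor of their images. -/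
@[ext]
structure TW {Γ₁ Γ₂ G₁ G₂ : Type*} [Group Γ₁] [Group Γ₂] [CommGroup G₁] [CommGroup G₂]
    (α₁ : Γ₁ →* G₁) (α₂ : Γ₂ →* G₂) where
  a : Γ₁
  b : Γ₂
  t : Additive G₁ ⊗[ℤ] Additive G₂

namespace TW

variable {Γ₁ Γ₂ G₁ G₂ : Type*} [Group Γ₁] [Group Γ₂] [CommGroup G₁] [CommGroup G₂]
  {α₁ : Γ₁ →* G₁} {α₂ : Γ₂ →* G₂}

instance : Mul (TW α₁ α₂) :=
  ⟨fun x y => ⟨x.a * y.a, x.b * y.b,
    x.t + y.t + Additive.ofMul (α₁ y.a) ⊗ₜ[ℤ] Additive.ofMul (α₂ x.b)⟩⟩

instance : One (TW α₁ α₂) := ⟨⟨1, 1, 0⟩⟩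

instance : Inv (TW α₁ α₂) :=
  ⟨fun x => ⟨x.a⁻¹, x.b⁻¹, -x.t + Additive.ofMul (α₁ x.a) ⊗ₜ[ℤ] Additive.ofMul (α₂ x.b)⟩⟩

theorem mul_a (x y : TW α₁ α₂) : (x * y).a = x.a * y.a := rfl
theorem mul_b (x y : TW α₁ α₂) : (x * y).b = x.b * y.b := rfl
theorem mul_t (x y : TW α₁ α₂) :
    (x * y).t = x.t + y.t + Additive.ofMul (α₁ y.a) ⊗ₜ[ℤ] Additive.ofMul (α₂ x.b) := rfl
theorem one_a : (1 : TW α₁ α₂).a = 1 := rfl
theorem one_b : (1 : TW α₁ α₂).b = 1 := rfl
theorem one_t : (1 : TW α₁ α₂).t = 0 := rfl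
theorem inv_a (x : TW α₁ α₂) : (x⁻¹).a = x.a⁻¹ := rfl
theorem inv_b (x : TW α₁ α₂) : (x⁻¹).b = x.b⁻¹ := rfl
theorem inv_t (x : TW α₁ α₂) :
    (x⁻¹).t = -x.t + Additive.ofMul (α₁ x.a) ⊗ₜ[ℤ] Additive.ofMul (α₂ x.b) := rfl

instance : Group (TW α₁ α₂) where
  mul_assoc x y z := by
    ext
    · simp only [mul_a, mul_assoc]
    · simp only [mul_b, mul_assoc]
    · simp only [mul_t, mul_a, mul_b, map_mul, ofMul_mul, TensorProduct.add_tmul,
        TensorProduct.tmul_add]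
      abel
  one_mul x := by
    ext
    · simp only [mul_a, one_a, one_mul]
    · simp only [mul_b, one_b, one_mul]
    · simp only [mul_t, one_t, one_b, map_one, ofMul_one, TensorProduct.tmul_zero]
      abel
  mul_one x := by
    ext
    · simp only [mul_a, one_a, mul_one]
    · simp only [mul_b, one_b, mul_one]
    · simp only [mul_t, one_t, one_a, map_one, ofMul_one, TensorProduct.zero_tmul]
      abel
  inv_mul_cancel x := by
    ext
    · simp only [mul_a, inv_a, one_a, inv_mul_cancel]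
    · simp only [mul_b, inv_b, one_b, inv_mul_cancel]
    · simp only [mul_t, inv_t, inv_b, one_t, map_inv, ofMul_inv, TensorProduct.tmul_neg]
      abel

/-- The first factor. -/
def inl (α₁ : Γ₁ →* G₁) (α₂ : Γ₂ →* G₂) : Γ₁ →* TW α₁ α₂ where
  toFun x := ⟨x, 1, 0⟩
  map_one' := rfl
  map_mul' x y := by
    ext
    · rfl
    · simp only [mul_b, mul_one]
    · simp only [mul_t, map_one, ofMul_one, TensorProduct.tmul_zero, add_zero]

/-- The second factor. -/
def inr (α₁ : Γ₁ →* G₁) (α₂ : Γ₂ →* G₂) : Γ₂ →* TW α₁ α₂ where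
  toFun y := ⟨1, y, 0⟩
  map_one' := rfl
  map_mul' x y := by
    ext
    · simp only [mul_a, mul_one]
    · rfl
    · simp only [mul_t, map_one, ofMul_one, TensorProduct.zero_tmul, add_zero]

/-- The central factor. -/
def zc (α₁ : Γ₁ →* G₁) (α₂ : Γ₂ →* G₂) :
    Multiplicative (Additive G₁ ⊗[ℤ] Additive G₂) →* TW α₁ α₂ where
  toFun s := ⟨1, 1, Multiplicative.toAdd s⟩
  map_one' := rfl
  map_mul' s s' := by
    ext
    · simp only [mul_a, mul_one]
    · simp only [mul_b, mul_one]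
    · simp only [mul_t, map_one, ofMul_one, TensorProduct.zero_tmul, add_zero, toAdd_mul]

theorem inl_a (x : Γ₁) : (inl α₁ α₂ x).a = x := rfl
theorem inl_b (x : Γ₁) : (inl α₁ α₂ x).b = 1 := rfl
theorem inl_t (x : Γ₁) : (inl α₁ α₂ x).t = 0 := rfl
theorem inr_a (x : Γ₂) : (inr α₁ α₂ x).a = 1 := rfl
theorem inr_b (x : Γ₂) : (inr α₁ α₂ x).b = x := rfl
theorem inr_t (x : Γ₂) : (inr α₁ α₂ x).t = 0 := rfl
theorem zc_a (s : Multiplicative (Additive G₁ ⊗[ℤ] Additive G₂)) : (zc α₁ α₂ s).a = 1 := rfl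
theorem zc_b (s : Multiplicative (Additive G₁ ⊗[ℤ] Additive G₂)) : (zc α₁ α₂ s).b = 1 := rfl
theorem zc_t (s : Multiplicative (Additive G₁ ⊗[ℤ] Additive G₂)) :
    (zc α₁ α₂ s).t = Multiplicative.toAdd s := rfl

/-- The commutator of elements of the two factors is the tensor of their images. -/
theorem comm_inr_inl (x : Γ₁) (y : Γ₂) :
    ⁅inr α₁ α₂ y, inl α₁ α₂ x⁆ =
      zc α₁ α₂ (Multiplicative.ofAdd (Additive.ofMul (α₁ x) ⊗ₜ[ℤ] Additive.ofMul (α₂ y))) := by
  rw [commutatorElement_def, mul_inv_eq_iff_eq_mul, mul_inv_eq_iff_eq_mul]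
  ext
  · simp only [mul_a, inr_a, inl_a, zc_a, one_mul, mul_one]
  · simp only [mul_b, inr_b, inl_b, zc_b, one_mul, mul_one]
  · simp only [mul_t, inr_a, inr_b, inr_t, inl_a, inl_b, inl_t, zc_b, zc_t, mul_b, map_one,
      ofMul_one, TensorProduct.zero_tmul, TensorProduct.tmul_zero, add_zero, zero_add, toAdd_ofAdd]

theorem zc_mem_commutator (hα₁ : Function.Surjective α₁) (hα₂ : Function.Surjective α₂)
    (s : Multiplicative (Additive G₁ ⊗[ℤ] Additive G₂)) : zc α₁ α₂ s ∈ commutator (TW α₁ α₂) := by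
  have key : ∀ t : Additive G₁ ⊗[ℤ] Additive G₂,
      zc α₁ α₂ (Multiplicative.ofAdd t) ∈ commutator (TW α₁ α₂) := by
    intro t
    induction t using TensorProduct.induction_on with
    | zero => exact one_mem _
    | tmul u v =>
      obtain ⟨x, hx⟩ := hα₁ (Additive.toMul u)
      obtain ⟨y, hy⟩ := hα₂ (Additive.toMul v)
      have h1 := comm_inr_inl (α₁ := α₁) (α₂ := α₂) x y
      rw [hx, hy] at h1
      have h2 : ⁅inr α₁ α₂ y, inl α₁ α₂ x⁆ ∈ commutator (TW α₁ α₂) :=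
        Subgroup.commutator_mem_commutator (Subgroup.mem_top _) (Subgroup.mem_top _)
      rw [h1] at h2
      exact h2
    | add t t' ht ht' =>
      rw [ofAdd_add, map_mul]
      exact mul_mem ht ht'
  exact key (Multiplicative.toAdd s)

end TW

/-- From two stem extensions, a stem extension of the direct product whose kernel is the product of
the two kernels and the tensor product of the commutator quotients. -/
theorem exists_stem_prod_tensor {Q₁ : Type u} {Q₂ : Type v} [Group Q₁] [Group Q₂] [Finite Q₁]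
    [Finite Q₂] {Γ₁ : Type u} {Γ₂ : Type v} [Group Γ₁] [Group Γ₂] [Finite Γ₁] [Finite Γ₂]
    (σ₁ : Γ₁ →* Q₁) (σ₂ : Γ₂ →* Q₂) (hσ₁ : Cfsg.IsStemExtension σ₁)
    (hσ₂ : Cfsg.IsStemExtension σ₂) :
    ∃ (Γ : Type (max u v)) (_ : Group Γ) (_ : Finite Γ) (σ : Γ →* Q₁ × Q₂),
      Cfsg.IsStemExtension σ ∧
      Nonempty (σ.ker ≃* σ₁.ker × σ₂.ker ×
        Multiplicative (Additive (Abelianization Q₁) ⊗[ℤ] Additive (Abelianization Q₂))) := by
  classical
  let α₁ : Γ₁ →* Abelianization Q₁ := (Abelianization.of).comp σ₁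
  let α₂ : Γ₂ →* Abelianization Q₂ := (Abelianization.of).comp σ₂
  have hα₁ : Function.Surjective α₁ := (QuotientGroup.mk_surjective).comp hσ₁.1
  have hα₂ : Function.Surjective α₂ := (QuotientGroup.mk_surjective).comp hσ₂.1
  have hα₁k : ∀ x, σ₁ x = 1 → α₁ x = 1 := by
    intro x hx
    show Abelianization.of (σ₁ x) = 1
    rw [hx, map_one]
  have hα₂k : ∀ x, σ₂ x = 1 → α₂ x = 1 := by
    intro x hx
    show Abelianization.of (σ₂ x) = 1
    rw [hx, map_one]
  let σ : TW α₁ α₂ →* Q₁ × Q₂ :=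
    { toFun := fun x => (σ₁ x.a, σ₂ x.b)
      map_one' := by
        show (σ₁ 1, σ₂ 1) = 1
        rw [map_one, map_one]
        rfl
      map_mul' := fun x y => by
        show (σ₁ (x.a * y.a), σ₂ (x.b * y.b)) = (σ₁ x.a, σ₂ x.b) * (σ₁ y.a, σ₂ y.b)
        rw [map_mul, map_mul]
        rfl }
  have hσ : ∀ x, σ x = (σ₁ x.a, σ₂ x.b) := fun x => rfl
  have hk : ∀ x : TW α₁ α₂, x ∈ σ.ker ↔ σ₁ x.a = 1 ∧ σ₂ x.b = 1 := by
    intro x
    rw [MonoidHom.mem_ker, hσ]
    constructor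
    · intro h
      exact ⟨congrArg Prod.fst h, congrArg Prod.snd h⟩
    · rintro ⟨h1, h2⟩
      exact Prod.ext h1 h2
  haveI : Finite (Additive (Abelianization Q₁) ⊗[ℤ] Additive (Abelianization Q₂)) :=
    finite_tensor_of_finite _ _
  haveI : Finite (TW α₁ α₂) := Finite.of_injective (fun x : TW α₁ α₂ => (x.a, x.b, x.t)) (by
    intro x y hxy
    simp only [Prod.mk.injEq] at hxy
    exact TW.ext hxy.1 hxy.2.1 hxy.2.2)
  refine ⟨TW α₁ α₂, inferInstance, inferInstance, σ, ⟨?_, ?_, ?_⟩, ?_⟩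
  · rintro ⟨q₁, q₂⟩
    obtain ⟨x₁, hx₁⟩ := hσ₁.1 q₁
    obtain ⟨x₂, hx₂⟩ := hσ₂.1 q₂
    exact ⟨⟨x₁, x₂, 0⟩, Prod.ext hx₁ hx₂⟩
  · intro k hk'
    obtain ⟨h1, h2⟩ := (hk k).mp hk'
    have h1' := Subgroup.mem_center_iff.mp (hσ₁.2.1 (MonoidHom.mem_ker.mpr h1))
    have h2' := Subgroup.mem_center_iff.mp (hσ₂.2.1 (MonoidHom.mem_ker.mpr h2))
    rw [Subgroup.mem_center_iff]
    intro y
    ext
    · exact h1' y.a
    · exact h2' y.b
    · simp only [TW.mul_t, hα₁k _ h1, hα₂k _ h2, ofMul_one, TensorProduct.zero_tmul,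
        TensorProduct.tmul_zero]
      abel
  · intro k hk'
    obtain ⟨h1, h2⟩ := (hk k).mp hk'
    have h1' := hσ₁.2.2 (MonoidHom.mem_ker.mpr h1)
    have h2' := hσ₂.2.2 (MonoidHom.mem_ker.mpr h2)
    have h3 : k = TW.inl α₁ α₂ k.a * TW.inr α₁ α₂ k.b * TW.zc α₁ α₂ (Multiplicative.ofAdd k.t) := by
      ext
      · simp only [TW.mul_a, TW.inl_a, TW.inr_a, TW.zc_a, mul_one]
      · simp only [TW.mul_b, TW.inl_b, TW.inr_b, TW.zc_b, mul_one, one_mul]
      · simp only [TW.mul_t, TW.mul_b, TW.inl_t, TW.inr_t, TW.zc_t, TW.inr_a, TW.zc_a, TW.inl_b,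
          map_one, ofMul_one, TensorProduct.zero_tmul, TensorProduct.tmul_zero, add_zero, zero_add,
          toAdd_ofAdd]
    rw [h3]
    exact mul_mem (mul_mem (map_mem_commutator_of_mem _ h1') (map_mem_commutator_of_mem _ h2'))
      (TW.zc_mem_commutator hα₁ hα₂ _)
  · have hk₁ : ∀ y : σ.ker, y.1.a ∈ σ₁.ker := fun y =>
      MonoidHom.mem_ker.mpr ((hk y.1).mp y.2).1
    have hk₂ : ∀ y : σ.ker, y.1.b ∈ σ₂.ker := fun y =>
      MonoidHom.mem_ker.mpr ((hk y.1).mp y.2).2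
    refine ⟨{
      toFun := fun y => (⟨y.1.a, hk₁ y⟩, ⟨y.1.b, hk₂ y⟩, Multiplicative.ofAdd y.1.t)
      invFun := fun p => ⟨⟨(p.1 : Γ₁), (p.2.1 : Γ₂), Multiplicative.toAdd p.2.2⟩,
        (hk _).mpr ⟨MonoidHom.mem_ker.mp p.1.2, MonoidHom.mem_ker.mp p.2.1.2⟩⟩
      left_inv := fun y => rfl
      right_inv := fun p => rfl
      map_mul' := ?_ }⟩
    intro y y'
    refine Prod.ext rfl (Prod.ext rfl ?_)
    show Multiplicative.ofAdd (y.1 * y'.1).t =
      Multiplicative.ofAdd y.1.t * Multiplicative.ofAdd y'.1.t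
    rw [TW.mul_t, hα₁k _ ((hk y'.1).mp y'.2).1, ofMul_one, TensorProduct.zero_tmul, add_zero]
    rfl

end Cfsg.Agent.Lib.Helper22
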