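import Mathlib
import Cfsg.Prelude.Def_KGroupFacts
import Cfsg.Agent.Lib.Helper22.Pullback
import Cfsg.Agent.Lib.Helper22.StemOfCentral
import Cfsg.Agent.Lib.Helper22.TensorStem

set_option autoImplicit false

namespace Cfsg.Agent.Lib.Helper22

open scoped commutatorElement TensorProduct

universe u v w

theorem comm_mul_left_of_central {G : Type*} [Group G] (a b c : G)
    (h : ⁅b, c⁆ ∈ Subgroup.center G) : ⁅a * b, c⁆ = ⁅a, c⁆ * ⁅b, c⁆ := by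
  have h1 : ⁅a * b, c⁆ = a * ⁅b, c⁆ * a⁻¹ * ⁅a, c⁆ := by
    simp only [commutatorElement_def]
    group
  have h2 : a * ⁅b, c⁆ = ⁅b, c⁆ * a := Subgroup.mem_center_iff.mp h a
  have h3 : ⁅a, c⁆ * ⁅b, c⁆ = ⁅b, c⁆ * ⁅a, c⁆ := Subgroup.mem_center_iff.mp h _
  rw [h1, h2, mul_inv_cancel_right, h3]

theorem comm_mul_right_of_central {G : Type*} [Group G] (a b c : G)
    (h : ⁅a, c⁆ ∈ Subgroup.center G) : ⁅a, b * c⁆ = ⁅a, b⁆ * ⁅a, c⁆ := by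
  have h1 : ⁅a, b * c⁆ = ⁅a, b⁆ * (b * ⁅a, c⁆ * b⁻¹) := by
    simp only [commutatorElement_def]
    group
  have h2 : b * ⁅a, c⁆ = ⁅a, c⁆ * b := Subgroup.mem_center_iff.mp h b
  rw [h1, h2, mul_inv_cancel_right]

theorem comm_expand_of_central {G : Type*} [Group G] (x₁ y₁ x₂ y₂ c₁ c₂ : G)
    (h1 : y₁ * x₂ = c₁ * x₂ * y₁) (h2 : x₁⁻¹ * y₂⁻¹ = c₂ * y₂⁻¹ * x₁⁻¹)
    (hc1 : ∀ g, g * c₁ = c₁ * g) (hc2 : ∀ g, g * c₂ = c₂ * g) :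
    ⁅x₁ * y₁, x₂ * y₂⁆ = c₁ * c₂ * (x₁ * x₂ * ⁅y₁, y₂⁆ * (x₁ * x₂)⁻¹) * ⁅x₁, x₂⁆ := by
  calc ⁅x₁ * y₁, x₂ * y₂⁆ = x₁ * (y₁ * x₂) * (y₂ * y₁⁻¹) * (x₁⁻¹ * y₂⁻¹) * x₂⁻¹ := by
        rw [commutatorElement_def]
        group
    _ = x₁ * (c₁ * x₂ * y₁) * (y₂ * y₁⁻¹) * (c₂ * y₂⁻¹ * x₁⁻¹) * x₂⁻¹ := by rw [h1, h2]
    _ = (x₁ * c₁) * ((x₂ * y₁ * y₂ * y₁⁻¹) * c₂) * (y₂⁻¹ * x₁⁻¹ * x₂⁻¹) := by group
    _ = (c₁ * x₁) * (c₂ * (x₂ * y₁ * y₂ * y₁⁻¹)) * (y₂⁻¹ * x₁⁻¹ * x₂⁻¹) := by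
        rw [hc1 x₁, hc2 (x₂ * y₁ * y₂ * y₁⁻¹)]
    _ = c₁ * (x₁ * c₂) * (x₂ * y₁ * y₂ * y₁⁻¹) * (y₂⁻¹ * x₁⁻¹ * x₂⁻¹) := by group
    _ = c₁ * (c₂ * x₁) * (x₂ * y₁ * y₂ * y₁⁻¹) * (y₂⁻¹ * x₁⁻¹ * x₂⁻¹) := by rw [hc2 x₁]
    _ = c₁ * c₂ * (x₁ * x₂ * ⁅y₁, y₂⁆ * (x₁ * x₂)⁻¹) * ⁅x₁, x₂⁆ := by
        simp only [commutatorElement_def]
        group

/-- In a central extension of a direct product, the commutator pairing between the preimages of the two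
factors factors through the tensor product of the commutator quotients. -/
theorem exists_tensor_hom_of_central {Γ : Type*} {Q₁ Q₂ : Type*} [Group Γ] [Group Q₁] [Group Q₂]
    (σ : Γ →* Q₁ × Q₂) (hσs : Function.Surjective σ) (hσc : σ.ker ≤ Subgroup.center Γ) :
    ∃ τ : Multiplicative (Additive (Abelianization Q₁) ⊗[ℤ] Additive (Abelianization Q₂)) →* Γ,
      (∀ s, τ s ∈ σ.ker) ∧ ∀ x y : Γ, (σ x).2 = 1 → (σ y).1 = 1 → ∃ s, τ s = ⁅x, y⁆ := by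
  classical
  letI : CommGroup σ.ker :=
    { (σ.ker).toGroup with
      mul_comm := fun a b => Subtype.ext (Subgroup.mem_center_iff.mp (hσc b.2) a.1) }
  let s₁ : Q₁ → Γ := fun q => Function.surjInv hσs (q, 1)
  let s₂ : Q₂ → Γ := fun q => Function.surjInv hσs (1, q)
  have hs₁ : ∀ q, σ (s₁ q) = (q, 1) := fun q => Function.surjInv_eq hσs _
  have hs₂ : ∀ q, σ (s₂ q) = (1, q) := fun q => Function.surjInv_eq hσs _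
  have hck : ∀ x y : Γ, (σ x).2 = 1 → (σ y).1 = 1 → ⁅x, y⁆ ∈ σ.ker := by
    intro x y hx hy
    rw [MonoidHom.mem_ker, map_commutatorElement]
    apply Prod.ext
    · show ⁅(σ x).1, (σ y).1⁆ = 1
      rw [hy, commutatorElement_one_right]
    · show ⁅(σ x).2, (σ y).2⁆ = 1
      rw [hx, commutatorElement_one_left]
  have hcc : ∀ x y : Γ, (σ x).2 = 1 → (σ y).1 = 1 → ⁅x, y⁆ ∈ Subgroup.center Γ :=
    fun x y hx hy => hσc (hck x y hx hy)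
  have hind : ∀ x y x' y' : Γ, σ x = σ x' → σ y = σ y' → ⁅x, y⁆ = ⁅x', y'⁆ := by
    intro x y x' y' hx hy
    apply commutator_eq_of_central
    · apply hσc
      rw [MonoidHom.mem_ker, map_mul, map_inv, hx, mul_inv_cancel]
    · apply hσc
      rw [MonoidHom.mem_ker, map_mul, map_inv, hy, mul_inv_cancel]
  let c₀f : Q₁ → Q₂ → σ.ker := fun q₁ q₂ =>
    ⟨⁅s₁ q₁, s₂ q₂⁆, hck _ _ (by rw [hs₁]) (by rw [hs₂])⟩
  have hc₀ : ∀ (x y : Γ) (q₁ : Q₁) (q₂ : Q₂), σ x = (q₁, 1) → σ y = (1, q₂) →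
      ⁅x, y⁆ = (c₀f q₁ q₂ : Γ) := by
    intro x y q₁ q₂ hx hy
    exact hind x y _ _ (hx.trans (hs₁ q₁).symm) (hy.trans (hs₂ q₂).symm)
  have hmul₁ : ∀ q₁ q₁' q₂, c₀f (q₁ * q₁') q₂ = c₀f q₁ q₂ * c₀f q₁' q₂ := by
    intro q₁ q₁' q₂
    apply Subtype.ext
    have h1 : ⁅s₁ q₁ * s₁ q₁', s₂ q₂⁆ = (c₀f (q₁ * q₁') q₂ : Γ) :=
      hc₀ _ _ _ _ (by rw [map_mul, hs₁, hs₁]; exact Prod.ext rfl (mul_one 1)) (hs₂ q₂)
    rw [← h1]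
    exact comm_mul_left_of_central _ _ _ (hcc _ _ (by rw [hs₁]) (by rw [hs₂]))
  have hmul₂ : ∀ q₁ q₂ q₂', c₀f q₁ (q₂ * q₂') = c₀f q₁ q₂ * c₀f q₁ q₂' := by
    intro q₁ q₂ q₂'
    apply Subtype.ext
    have h1 : ⁅s₁ q₁, s₂ q₂ * s₂ q₂'⁆ = (c₀f q₁ (q₂ * q₂') : Γ) :=
      hc₀ _ _ _ _ (hs₁ q₁) (by rw [map_mul, hs₂, hs₂]; exact Prod.ext (mul_one 1) rfl)
    rw [← h1]
    exact comm_mul_right_of_central _ _ _ (hcc _ _ (by rw [hs₁]) (by rw [hs₂]))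
  let c₁ : Q₁ → (Abelianization Q₂ →* σ.ker) := fun q₁ =>
    Abelianization.lift (MonoidHom.mk' (c₀f q₁) (hmul₂ q₁))
  have hc₁ : ∀ q₁ q₂, c₁ q₁ (Abelianization.of q₂) = c₀f q₁ q₂ := fun q₁ q₂ =>
    Abelianization.lift_apply_of _ _
  have hc₁mul : ∀ q₁ q₁', c₁ (q₁ * q₁') = c₁ q₁ * c₁ q₁' := by
    intro q₁ q₁'
    apply Abelianization.hom_ext
    apply MonoidHom.ext
    intro q₂
    show c₁ (q₁ * q₁') (Abelianization.of q₂) =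
      c₁ q₁ (Abelianization.of q₂) * c₁ q₁' (Abelianization.of q₂)
    rw [hc₁, hc₁, hc₁, hmul₁]
  let c₂ : Abelianization Q₁ →* (Abelianization Q₂ →* σ.ker) :=
    Abelianization.lift (MonoidHom.mk' c₁ hc₁mul)
  have hc₂ : ∀ q₁ q₂, c₂ (Abelianization.of q₁) (Abelianization.of q₂) = c₀f q₁ q₂ := by
    intro q₁ q₂
    have h1 : c₂ (Abelianization.of q₁) = c₁ q₁ := Abelianization.lift_apply_of _ _
    rw [h1, hc₁]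
  let f : Additive (Abelianization Q₁) →+ (Additive (Abelianization Q₂) →+ Additive σ.ker) :=
    AddMonoidHom.mk' (fun u => MonoidHom.toAdditive (c₂ (Additive.toMul u))) (by
      intro u u'
      apply AddMonoidHom.ext
      intro v
      show Additive.ofMul (c₂ (Additive.toMul u * Additive.toMul u') (Additive.toMul v)) =
        Additive.ofMul (c₂ (Additive.toMul u) (Additive.toMul v)) +
          Additive.ofMul (c₂ (Additive.toMul u') (Additive.toMul v))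
      rw [map_mul]
      rfl)
  have hf : ∀ (r : ℤ) (m : Additive (Abelianization Q₁)) (n : Additive (Abelianization Q₂)),
      f (r • m) n = f m (r • n) := by
    intro r m n
    rw [map_zsmul, map_zsmul]
    rfl
  let τa : Additive (Abelianization Q₁) ⊗[ℤ] Additive (Abelianization Q₂) →+ Additive σ.ker :=
    TensorProduct.liftAddHom f hf
  let τ : Multiplicative (Additive (Abelianization Q₁) ⊗[ℤ] Additive (Abelianization Q₂)) →* σ.ker :=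
    AddMonoidHom.toMultiplicativeLeft τa
  refine ⟨(σ.ker).subtype.comp τ, fun s => (τ s).2, ?_⟩
  intro x y hx hy
  refine ⟨Multiplicative.ofAdd (Additive.ofMul (Abelianization.of (σ x).1) ⊗ₜ[ℤ]
    Additive.ofMul (Abelianization.of (σ y).2)), ?_⟩
  show ((c₂ (Abelianization.of (σ x).1) (Abelianization.of (σ y).2) : σ.ker) : Γ) = ⁅x, y⁆
  rw [hc₂]
  exact (hc₀ x y _ _ (Prod.ext rfl hx) (Prod.ext hy rfl)).symm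

/-- Upper bound for the Schur multiplier of a direct product: the kernel of any stem extension of
`Q₁ × Q₂` is an image of `A × B × (Q₁ᵃᵇ ⊗ Q₂ᵃᵇ)`. -/
theorem exists_surjective_prod_tensor {Q₁ : Type u} {Q₂ : Type v} [Group Q₁] [Group Q₂] [Finite Q₁]
    [Finite Q₂] {A B : Type w} [CommGroup A] [CommGroup B] (hA : Cfsg.HasSchurMultiplier Q₁ A)
    (hB : Cfsg.HasSchurMultiplier Q₂ B) {Γ : Type (max u v)} [Group Γ] [Finite Γ]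
    (σ : Γ →* Q₁ × Q₂) (hσ : Cfsg.IsStemExtension σ) :
    ∃ π : A × B × Multiplicative (Additive (Abelianization Q₁) ⊗[ℤ] Additive (Abelianization Q₂)) →*
      σ.ker, Function.Surjective π := by
  classical
  let H₁ : Subgroup Γ := ((MonoidHom.snd Q₁ Q₂).comp σ).ker
  let H₂ : Subgroup Γ := ((MonoidHom.fst Q₁ Q₂).comp σ).ker
  have hH₁ : ∀ a : Γ, a ∈ H₁ ↔ (σ a).2 = 1 := fun a => Iff.rfl
  have hH₂ : ∀ a : Γ, a ∈ H₂ ↔ (σ a).1 = 1 := fun a => Iff.rfl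
  let π₁ : H₁ →* Q₁ := ((MonoidHom.fst Q₁ Q₂).comp σ).comp H₁.subtype
  let π₂ : H₂ →* Q₂ := ((MonoidHom.snd Q₁ Q₂).comp σ).comp H₂.subtype
  have hπ₁ : ∀ a : H₁, π₁ a = (σ a.1).1 := fun a => rfl
  have hπ₂ : ∀ a : H₂, π₂ a = (σ a.1).2 := fun a => rfl
  have hπ₁s : Function.Surjective π₁ := by
    intro q
    obtain ⟨x, hx⟩ := hσ.1 (q, 1)
    exact ⟨⟨x, by rw [hH₁, hx]⟩, by rw [hπ₁]; show (σ x).1 = q; rw [hx]⟩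
  have hπ₂s : Function.Surjective π₂ := by
    intro q
    obtain ⟨x, hx⟩ := hσ.1 (1, q)
    exact ⟨⟨x, by rw [hH₂, hx]⟩, by rw [hπ₂]; show (σ x).2 = q; rw [hx]⟩
  have hk₁ : ∀ a : H₁, a ∈ π₁.ker → (a : Γ) ∈ σ.ker := by
    intro a ha
    rw [MonoidHom.mem_ker] at ha ⊢
    exact Prod.ext ha ((hH₁ a.1).mp a.2)
  have hk₂ : ∀ a : H₂, a ∈ π₂.ker → (a : Γ) ∈ σ.ker := by
    intro a ha
    rw [MonoidHom.mem_ker] at ha ⊢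
    exact Prod.ext ((hH₂ a.1).mp a.2) ha
  have hπ₁c : π₁.ker ≤ Subgroup.center H₁ := by
    intro a ha
    have h1 := hσ.2.1 (hk₁ a ha)
    rw [Subgroup.mem_center_iff] at h1 ⊢
    intro z
    exact Subtype.ext (h1 z.1)
  have hπ₂c : π₂.ker ≤ Subgroup.center H₂ := by
    intro a ha
    have h1 := hσ.2.1 (hk₂ a ha)
    rw [Subgroup.mem_center_iff] at h1 ⊢
    intro z
    exact Subtype.ext (h1 z.1)
  obtain ⟨f₁, hf₁⟩ := exists_surjective_of_central hA π₁ hπ₁s hπ₁c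
  obtain ⟨f₂, hf₂⟩ := exists_surjective_of_central hB π₂ hπ₂s hπ₂c
  obtain ⟨τ, hτk, hτ⟩ := exists_tensor_hom_of_central σ hσ.1 hσ.2.1
  let g₁ : A →* σ.ker := (H₁.subtype.comp ((Subgroup.subtype _).comp f₁)).codRestrict σ.ker
    (fun a => hk₁ _ (f₁ a).2.1)
  let g₂ : B →* σ.ker := (H₂.subtype.comp ((Subgroup.subtype _).comp f₂)).codRestrict σ.ker
    (fun b => hk₂ _ (f₂ b).2.1)
  let g₃ : Multiplicative (Additive (Abelianization Q₁) ⊗[ℤ] Additive (Abelianization Q₂)) →* σ.ker :=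
    τ.codRestrict σ.ker hτk
  have hg₁ : ∀ a : A, ((g₁ a : σ.ker) : Γ) = (((f₁ a : ↥(π₁.ker ⊓ commutator H₁)) : H₁) : Γ) :=
    fun a => rfl
  have hg₂ : ∀ b : B, ((g₂ b : σ.ker) : Γ) = (((f₂ b : ↥(π₂.ker ⊓ commutator H₂)) : H₂) : Γ) :=
    fun b => rfl
  have hg₃ : ∀ s, ((g₃ s : σ.ker) : Γ) = τ s := fun s => rfl
  have hKc : ∀ a b : σ.ker, Commute a b := by
    intro a b
    apply Subtype.ext
    show (a : Γ) * (b : Γ) = (b : Γ) * (a : Γ)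
    exact Subgroup.mem_center_iff.mp (hσ.2.1 b.2) _
  refine ⟨MonoidHom.noncommCoprod g₁ (MonoidHom.noncommCoprod g₂ g₃ (fun _ _ => hKc _ _))
    (fun _ _ => hKc _ _), ?_⟩
  rintro ⟨k, hk⟩
  let C : Subgroup Γ := τ.range
  have hCc : C ≤ Subgroup.center Γ := by
    rintro _ ⟨s, rfl⟩
    exact hσ.2.1 (hτk s)
  haveI hCn : C.Normal := ⟨fun c hc g => by
    have h1 := Subgroup.mem_center_iff.mp (hCc hc) g
    rw [h1, mul_inv_cancel_right]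
    exact hc⟩
  have hcomm_mem : ∀ x ∈ H₁, ∀ y ∈ H₂, ⁅x, y⁆ ∈ C := by
    intro x hx y hy
    obtain ⟨s, hs⟩ := hτ x y ((hH₁ x).mp hx) ((hH₂ y).mp hy)
    exact ⟨s, hs⟩
  have hdecomp : ∀ g : Γ, ∃ x ∈ H₁, ∃ y ∈ H₂, g = x * y := by
    intro g
    obtain ⟨x, hx⟩ := hσ.1 ((σ g).1, 1)
    have hx' : x ∈ H₁ := by rw [hH₁, hx]
    have hy' : x⁻¹ * g ∈ H₂ := by
      rw [hH₂, map_mul, map_inv, hx]
      show ((σ g).1)⁻¹ * (σ g).1 = 1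
      exact inv_mul_cancel _
    exact ⟨x, hx', x⁻¹ * g, hy', (mul_inv_cancel_left x g).symm⟩
  have hle : commutator Γ ≤ (⁅H₁, H₁⁆ ⊔ ⁅H₂, H₂⁆) ⊔ C := by
    rw [commutator_def, Subgroup.commutator_le]
    intro g _ h _
    obtain ⟨x₁, hx₁, y₁, hy₁, rfl⟩ := hdecomp g
    obtain ⟨x₂, hx₂, y₂, hy₂, rfl⟩ := hdecomp h
    have hc1 : ⁅y₁, x₂⁆ ∈ C := by
      rw [← commutatorElement_inv]
      exact inv_mem (hcomm_mem x₂ hx₂ y₁ hy₁)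
    have hc2 : ⁅x₁⁻¹, y₂⁻¹⁆ ∈ C := hcomm_mem _ (inv_mem hx₁) _ (inv_mem hy₂)
    rw [comm_expand_of_central x₁ y₁ x₂ y₂ ⁅y₁, x₂⁆ ⁅x₁⁻¹, y₂⁻¹⁆
      (by simp only [commutatorElement_def]; group) (by simp only [commutatorElement_def]; group)
      (Subgroup.mem_center_iff.mp (hCc hc1)) (Subgroup.mem_center_iff.mp (hCc hc2))]
    have hw2 : x₁ * x₂ * ⁅y₁, y₂⁆ * (x₁ * x₂)⁻¹ ∈ ⁅H₂, H₂⁆ :=
      (inferInstance : (⁅H₂, H₂⁆).Normal).conj_mem _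
        (Subgroup.commutator_mem_commutator hy₁ hy₂) _
    have hw1 : ⁅x₁, x₂⁆ ∈ ⁅H₁, H₁⁆ := Subgroup.commutator_mem_commutator hx₁ hx₂
    have hN1 : ⁅y₁, x₂⁆ ∈ (⁅H₁, H₁⁆ ⊔ ⁅H₂, H₂⁆) ⊔ C := (le_sup_right : C ≤ _) hc1
    have hN2 : ⁅x₁⁻¹, y₂⁻¹⁆ ∈ (⁅H₁, H₁⁆ ⊔ ⁅H₂, H₂⁆) ⊔ C := (le_sup_right : C ≤ _) hc2
    have hN3 : x₁ * x₂ * ⁅y₁, y₂⁆ * (x₁ * x₂)⁻¹ ∈ (⁅H₁, H₁⁆ ⊔ ⁅H₂, H₂⁆) ⊔ C :=
      (le_sup_left : ⁅H₁, H₁⁆ ⊔ ⁅H₂, H₂⁆ ≤ _) ((le_sup_right : ⁅H₂, H₂⁆ ≤ _) hw2)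
    have hN4 : ⁅x₁, x₂⁆ ∈ (⁅H₁, H₁⁆ ⊔ ⁅H₂, H₂⁆) ⊔ C :=
      (le_sup_left : ⁅H₁, H₁⁆ ⊔ ⁅H₂, H₂⁆ ≤ _) ((le_sup_left : ⁅H₁, H₁⁆ ≤ _) hw1)
    exact mul_mem (mul_mem (mul_mem hN1 hN2) hN3) hN4
  have hkN := hle (hσ.2.2 hk)
  rw [Subgroup.mem_sup_of_normal_right] at hkN
  obtain ⟨w, hw, c, hc, hwc⟩ := hkN
  rw [Subgroup.mem_sup_of_normal_right] at hw
  obtain ⟨w₁, hw₁, w₂, hw₂, hw12⟩ := hw
  rw [← Subgroup.map_subtype_commutator] at hw₁ hw₂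
  obtain ⟨w₁', hw₁', rfl⟩ := hw₁
  obtain ⟨w₂', hw₂', rfl⟩ := hw₂
  obtain ⟨s, rfl⟩ := hc
  have hσk : σ ((w₁' : Γ) * (w₂' : Γ) * τ s) = 1 := by
    show σ (H₁.subtype w₁' * H₂.subtype w₂' * τ s) = 1
    rw [hw12, hwc]
    exact hk
  rw [map_mul, map_mul, MonoidHom.mem_ker.mp (hτk s), mul_one] at hσk
  have hw1k : w₁' ∈ π₁.ker := by
    rw [MonoidHom.mem_ker, hπ₁]
    have h1 : (σ (w₁' : Γ)).1 * (σ (w₂' : Γ)).1 = 1 := congrArg Prod.fst hσk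
    rw [(hH₂ _).mp w₂'.2, mul_one] at h1
    exact h1
  have hw2k : w₂' ∈ π₂.ker := by
    rw [MonoidHom.mem_ker, hπ₂]
    have h1 : (σ (w₁' : Γ)).2 * (σ (w₂' : Γ)).2 = 1 := congrArg Prod.snd hσk
    rw [(hH₁ _).mp w₁'.2, one_mul] at h1
    exact h1
  obtain ⟨a, ha⟩ := hf₁ ⟨w₁', hw1k, hw₁'⟩
  obtain ⟨b, hb⟩ := hf₂ ⟨w₂', hw2k, hw₂'⟩
  refine ⟨(a, b, s), ?_⟩
  apply Subtype.ext
  rw [MonoidHom.noncommCoprod_apply, MonoidHom.noncommCoprod_apply]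
  show ((g₁ a : σ.ker) : Γ) * (((g₂ b : σ.ker) : Γ) * ((g₃ s : σ.ker) : Γ)) = k
  rw [hg₁, hg₂, hg₃, ha, hb, ← mul_assoc]
  show H₁.subtype w₁' * H₂.subtype w₂' * τ s = k
  rw [hw12, hwc]

end Cfsg.Agent.Lib.Helper22
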